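import Cfsg.Agent.S1060
import Cfsg.Agent.Chev.FldFix

/-!
# `B₂(2) ≅ S₆`
-/

set_option autoImplicit false
set_option linter.unusedSectionVars false
set_option linter.unusedVariables false
set_option maxRecDepth 1000000

namespace Cfsg.Agent.Chev
open Cfsg.Lie
open scoped MatrixGroups

def b2vecL : List (List ℕ) :=
  [[0, 1, 0, 0, 0, 1, 1, 0, 0, 1], [0, 1, 0, 0, 0, 1, 1, 0, 0, 0], [0, 1, 1, 0, 0, 1, 1, 0, 0, 0],
   [0, 1, 1, 0, 0, 1, 0, 0, 0, 1], [0, 1, 1, 0, 0, 0, 0, 0, 0, 1], [0, 1, 1, 0, 0, 0, 1, 0, 0, 1]]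

def b2permL : List (List ℕ) :=
  [[1, 0, 2, 3, 4, 5], [1, 0, 3, 2, 5, 4], [1, 0, 5, 4, 3, 2], [0, 1, 2, 3, 5, 4], [0, 1, 2, 4, 3, 5],
   [3, 2, 1, 0, 5, 4], [5, 2, 1, 4, 3, 0], [0, 2, 1, 3, 4, 5]]

def b2idx : chevB2.Idx → ℕ
  | Sum.inl i => i
  | Sum.inr s => 2 + s

def b2vec (i : Fin 6) : chevB2.Idx → ZMod 2 := fun a => (((b2vecL.getD i []).getD (b2idx a) 0 : ℕ) : ZMod 2)

def b2perm (r : ℕ) (i : Fin 6) : Fin 6 := Fin.ofNat 6 ((b2permL.getD r []).getD i 0)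

theorem b2_act : ∀ r : Fin chevB2.nroots, ∀ i : Fin 6,
    Matrix.vecMul (b2vec i) (chevB2.xMat (ZMod 2) r 1) = b2vec (b2perm r i) := by decide +kernel

theorem b2vec_inj : Function.Injective b2vec := by decide +kernel

end Cfsg.Agent.Chev
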