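import Cfsg.Agent.Chev.B2S6

/-!
# `B₂(2) ≅ S₆`, II
-/

set_option autoImplicit false
set_option linter.unusedSectionVars false
set_option linter.unusedVariables false
set_option maxRecDepth 1000000

namespace Cfsg.Agent.Chev
open Cfsg.Lie
open scoped MatrixGroups

section
variable {F : Type*} [Field F] [CharP F 2]

/-- the six vectors over `F` -/
def b2vF (F : Type*) [Field F] [CharP F 2] (i : Fin 6) : chevB2.Idx → F :=
  fun a => ZMod.castHom (dvd_refl 2) F (b2vec i a)

theorem b2vF_inj : Function.Injective (b2vF F) := by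
  intro i j h
  apply b2vec_inj
  funext a
  exact (ZMod.castHom (dvd_refl 2) F).injective (congrFun h a)

theorem b2vF_act (r : ℕ) (hr : r < chevB2.nroots) (i : Fin 6) :
    Matrix.vecMul (b2vF F i) (chevB2.x F r 1) = b2vF F (b2perm r i) := by
  have h1 := b2_act ⟨r, hr⟩ i
  have h2 : chevB2.x F r 1 = (chevB2.x (ZMod 2) r 1).map (ZMod.castHom (dvd_refl 2) F) := by
    rw [x_map2, map_one]
  have h3 : chevB2.x (ZMod 2) r 1 = chevB2.xMat (ZMod 2) ⟨r, hr⟩ 1 := by
    unfold ChevalleyDatum.x
    rw [dif_pos hr]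
  funext a
  rw [h2]
  have h4 := RingHom.map_vecMul (ZMod.castHom (dvd_refl 2) F) (chevB2.x (ZMod 2) r 1) (b2vec i) a
  rw [h3, h1] at h4
  rw [h3]
  exact h4.symm

theorem b2_two : (2 : F) = 0 := by
  have := CharP.cast_eq_zero F 2
  exact_mod_cast this

theorem b2_neg_one : (-1 : F) = 1 := by
  have h := b2_two (F := F)
  linear_combination (-1 : F) * h

end

section
variable {F : Type*} [Field F] [CharP F 2] [Fintype F]

theorem b2_zero_or_one (hF : Fintype.card F = 2) (t : F) : t = 0 ∨ t = 1 := by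
  classical
  by_contra h
  rw [not_or] at h
  have h3 : ({0, 1, t} : Finset F).card = 3 := by
    rw [Finset.card_insert_of_notMem, Finset.card_insert_of_notMem, Finset.card_singleton]
    · simp only [Finset.mem_singleton]; exact fun e => h.2 e.symm
    · simp only [Finset.mem_insert, Finset.mem_singleton, not_or]
      exact ⟨zero_ne_one, fun e => h.1 e.symm⟩
  have := Finset.card_le_univ ({0, 1, t} : Finset F)
  omega

theorem b2_stab_gen (hF : Fintype.card F = 2) (r : ℕ) (t : F) (i : Fin 6) :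
    ∃ j, b2vF F j = Matrix.vecMul (b2vF F i) (((relsB2 F).xg r t : GL chevB2.Idx F) : Matrix chevB2.Idx chevB2.Idx F) := by
  rcases b2_zero_or_one hF t with rfl | rfl
  · refine ⟨i, ?_⟩
    rw [(relsB2 F).xg_zero]
    simp
  · by_cases hr : r < chevB2.nroots
    · exact ⟨b2perm r i, (b2vF_act r hr i).symm⟩
    · refine ⟨i, ?_⟩
      rw [(relsB2 F).xg_oor r hr]
      simp

theorem b2_stab (hF : Fintype.card F = 2) {g : GL chevB2.Idx F} (hg : g ∈ chevB2.group F) :
    ∀ i, ∃ j, b2vF F j = Matrix.vecMul (b2vF F i) (g : Matrix chevB2.Idx chevB2.Idx F) := by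
  unfold ChevalleyDatum.group at hg
  induction hg using Subgroup.closure_induction_left with
  | one => intro i; exact ⟨i, by simp⟩
  | mul_left x hx y hy ih =>
    obtain ⟨r, t, e⟩ := hx
    have ex : x = (relsB2 F).xg r t := by
      apply ((relsB2 F).eq_xg_iff _ _ _).mp
      rw [e]
      unfold ChevalleyDatum.x
      rw [dif_pos r.2]
    intro i
    obtain ⟨j, hj⟩ := b2_stab_gen hF r t i
    obtain ⟨k, hk⟩ := ih j
    refine ⟨k, ?_⟩
    rw [hk, hj, Matrix.vecMul_vecMul, ex]
    rfl
  | inv_mul_cancel x hx y hy ih =>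
    obtain ⟨r, t, e⟩ := hx
    have ex : x = (relsB2 F).xg r t := by
      apply ((relsB2 F).eq_xg_iff _ _ _).mp
      rw [e]
      unfold ChevalleyDatum.x
      rw [dif_pos r.2]
    intro i
    obtain ⟨j, hj⟩ := b2_stab_gen hF r (-t) i
    obtain ⟨k, hk⟩ := ih j
    refine ⟨k, ?_⟩
    rw [hk, hj, Matrix.vecMul_vecMul, ex, (relsB2 F).xg_inv]
    rfl

/-- the action on six points -/
noncomputable def b2sig (hF : Fintype.card F = 2) (g : ↥(chevB2.group F)) (i : Fin 6) : Fin 6 :=
  Classical.choose (b2_stab hF (Subgroup.inv_mem _ g.2) i)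

theorem b2sig_spec (hF : Fintype.card F = 2) (g : ↥(chevB2.group F)) (i : Fin 6) :
    b2vF F (b2sig hF g i) = Matrix.vecMul (b2vF F i)
      (((g : GL chevB2.Idx F)⁻¹ : GL chevB2.Idx F) : Matrix chevB2.Idx chevB2.Idx F) :=
  Classical.choose_spec (b2_stab hF (Subgroup.inv_mem _ g.2) i)

theorem b2sig_one (hF : Fintype.card F = 2) (i : Fin 6) : b2sig hF 1 i = i := by
  apply b2vF_inj (F := F)
  rw [b2sig_spec]
  simp

theorem b2sig_mul (hF : Fintype.card F = 2) (g h : ↥(chevB2.group F)) (i : Fin 6) :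
    b2sig hF (g * h) i = b2sig hF g (b2sig hF h i) := by
  apply b2vF_inj (F := F)
  rw [b2sig_spec, b2sig_spec, b2sig_spec, Matrix.vecMul_vecMul, Subgroup.coe_mul, mul_inv_rev]
  rfl

/-- the homomorphism to `S₆` -/
noncomputable def b2hom (hF : Fintype.card F = 2) : ↥(chevB2.group F) →* Equiv.Perm (Fin 6) :=
  letI : MulAction ↥(chevB2.group F) (Fin 6) :=
    { smul := b2sig hF
      one_smul := b2sig_one hF
      mul_smul := b2sig_mul hF }
  MulAction.toPermHom ↥(chevB2.group F) (Fin 6)

theorem b2hom_apply (hF : Fintype.card F = 2) (g : ↥(chevB2.group F)) (i : Fin 6) :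
    b2hom hF g i = b2sig hF g i := rfl

/-- the generators -/
def b2gen (F : Type*) [Field F] (r : ℕ) : ↥(chevB2.group F) := ⟨(relsB2 F).xg r 1, (relsB2 F).xg_mem_group r 1⟩

theorem b2hom_gen (hF : Fintype.card F = 2) (r : ℕ) (hr : r < chevB2.nroots) (i : Fin 6) :
    b2hom hF (b2gen F r) i = b2perm r i := by
  rw [b2hom_apply]
  apply b2vF_inj (F := F)
  rw [b2sig_spec, ← b2vF_act r hr i]
  show Matrix.vecMul _ ((((relsB2 F).xg r 1)⁻¹ : GL chevB2.Idx F) : Matrix chevB2.Idx chevB2.Idx F) = _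
  rw [(relsB2 F).xg_inv, b2_neg_one]
  rfl

theorem b2hom_surj (hF : Fintype.card F = 2) : Function.Surjective (b2hom hF) := by
  rw [← MonoidHom.range_eq_top, eq_top_iff]
  intro σ _
  have h1 : σ ∈ Submonoid.closure (Set.range fun i : Fin 5 => Equiv.swap i.castSucc i.succ) := by
    rw [Equiv.Perm.mclosure_swap_castSucc_succ]; trivial
  have h2 : Submonoid.closure (Set.range fun i : Fin 5 => Equiv.swap i.castSucc i.succ) ≤
      (b2hom hF).range.toSubmonoid := by
    rw [Submonoid.closure_le]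
    rintro _ ⟨i, rfl⟩
    have g0 := b2hom_gen hF 0 (by decide)
    have g3 := b2hom_gen hF 3 (by decide)
    have g4 := b2hom_gen hF 4 (by decide)
    have g5 := b2hom_gen hF 5 (by decide)
    have g7 := b2hom_gen hF 7 (by decide)
    fin_cases i
    · refine ⟨b2gen F 0, ?_⟩
      ext j
      rw [g0]
      revert j
      decide
    · refine ⟨b2gen F 7, ?_⟩
      ext j
      rw [g7]
      revert j
      decide
    · refine ⟨b2gen F 5 * b2gen F 0 * b2gen F 5, ?_⟩
      ext j
      rw [map_mul, map_mul, Equiv.Perm.mul_apply, Equiv.Perm.mul_apply, g5, g0, g5]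
      revert j
      decide
    · refine ⟨b2gen F 4, ?_⟩
      ext j
      rw [g4]
      revert j
      decide
    · refine ⟨b2gen F 3, ?_⟩
      ext j
      rw [g3]
      revert j
      decide
  exact h2 h1

theorem b2_equiv_S6 (hF : Fintype.card F = 2) : Nonempty (↥(chevB2.group F) ≃* Equiv.Perm (Fin 6)) := by
  have hc : Nat.card ↥(chevB2.group F) = 720 := by
    have := Cfsg.Agent.S1060.result (q := 2) hF
    norm_num at this
    exact this
  have hc2 : Nat.card (Equiv.Perm (Fin 6)) = 720 := by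
    rw [Nat.card_eq_fintype_card, Fintype.card_perm, Fintype.card_fin]
    rfl
  have : Finite ↥(chevB2.group F) := Nat.finite_of_card_ne_zero (by rw [hc]; norm_num)
  exact ⟨MulEquiv.ofBijective (b2hom hF)
    ((Nat.bijective_iff_surjective_and_card _).mpr ⟨b2hom_surj hF, by rw [hc, hc2]⟩)⟩

end

end Cfsg.Agent.Chev
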