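import Cfsg.Agent.Chev.Bruhat
import Cfsg.Prelude.Def_ChevAutomorphisms

/-!
# Diagonal matrices in the Chevalley group
-/

set_option autoImplicit false

namespace Cfsg.Agent.Chev
open Cfsg.Lie

variable {F : Type*} [Field F] {D : ChevalleyDatum} {G : Good D}

namespace Rels
variable (R : Rels D G F)
include R

theorem tri_inf_N (G2 : Good2 D) {n : GL D.Idx F} (h1 : n ∈ Tri.triGrp F (ordw D))
    (h2 : n ∈ D.monomialSubgroup F) : n ∈ D.diagonalSubgroup F := by
  obtain ⟨σ, hσ⟩ := R.N_le_Mon G2 h2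
  have hLT := h1.1
  have hσ1 : σ = 1 := by
    apply perm_eq_one_of_le
    intro s
    rcases hLT _ _ (IsMono.ne_zero R hσ s) with h | h
    · rw [Sum.inr.inj h]
    · simp only [ordw, Sum.elim_inr] at h
      rw [Fin.le_def]
      split_ifs at h <;> omega
  subst hσ1
  exact R.mono_one_mem_H G2 h2 hσ

theorem diag_mem_H (G2 : Good2 D) {g : GL D.Idx F} (hg : g ∈ D.group F) (d d' : D.Idx → F)
    (h1 : (g : Matrix D.Idx D.Idx F) = Matrix.diagonal d)
    (h2 : ((g⁻¹ : GL D.Idx F) : Matrix D.Idx D.Idx F) = Matrix.diagonal d') : g ∈ D.diagonalSubgroup F := by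
  have hLT : ∀ d : D.Idx → F, Tri.LT (ordw D) (Matrix.diagonal d) := by
    intro d i j hij
    left
    by_contra hne
    exact hij (Matrix.diagonal_apply_ne _ hne)
  have hgt : g ∈ Tri.triGrp F (ordw D) := ⟨h1 ▸ hLT d, h2 ▸ hLT d'⟩
  obtain ⟨n, hn, b, hb, b', hb', e⟩ := R.bruhat_GL G2 hg
  have hnt : n ∈ Tri.triGrp F (ordw D) := by
    have : n = b⁻¹ * g * b'⁻¹ := by rw [e]; group
    rw [this]
    exact Subgroup.mul_mem _ (Subgroup.mul_mem _ (Subgroup.inv_mem _ (R.B_le_tri hb)) hgt)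
      (Subgroup.inv_mem _ (R.B_le_tri hb'))
  have hnH := R.tri_inf_N G2 hnt hn
  have hgB : g ∈ D.borelSubgroup F := by
    rw [e]
    exact Subgroup.mul_mem _ (Subgroup.mul_mem _ hb (R.H_le_B hnH)) hb'
  obtain ⟨u, hu, h, hh, rfl⟩ := exists_mul_of_mem_sup R.H_le_normalizer_U hgB
  have hu1 : u = 1 := by
    apply R.eq_one_of_depth_of_diag (R.U_le hu)
    intro i j hij
    have e : u = u * h * h⁻¹ := by group
    obtain ⟨χ, c1, c2, c3⟩ := IsTor.inv R (R.H_le_Tor hh)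
    rw [e, Units.val_mul, h1, c2, Matrix.diagonal_mul_diagonal, Matrix.diagonal_apply_ne _ hij]
  rw [hu1, one_mul]
  exact hh

end Rels

end Cfsg.Agent.Chev
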