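import Cfsg.Agent.Chev.Bruhat
import Cfsg.Agent.S0320

/-!
# `N / H` is the Coxeter group of the diagram
-/

set_option autoImplicit false

namespace Cfsg.Agent.Chev
open Cfsg.Lie

section abstract
variable {Q : Type*} [Group Q] {B' B : Type*} {M' : CoxeterMatrix B'}

theorem coxeter_transfer (cs : CoxeterSystem M' Q) (M : CoxeterMatrix B) (e : B' → B) (d : B → B') (ν : B → Q)
    (h1 : ∀ s, cs.simple s = ν (e s)) (h2 : ∀ i, e (d i) = i) (h3 : ∀ i j, orderOf (ν i * ν j) = M i j) :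
    ∃ ψ : Q ≃* M.Group, ∀ i, ψ (ν i) = M.simple i := by
  have l1 : M'.IsLiftable (fun s => M.simple (e s)) := by
    intro s t
    have hd : M (e s) (e t) ∣ M' s t := by
      rw [← h3]
      apply orderOf_dvd_of_pow_eq_one
      rw [← h1, ← h1]
      exact cs.simple_mul_simple_pow s t
    obtain ⟨c, hc⟩ := hd
    have := M.toCoxeterSystem.simple_mul_simple_pow (e s) (e t)
    rw [CoxeterMatrix.toCoxeterSystem_simple] at this
    rw [hc, pow_mul, this, one_pow]
  have l2 : M.IsLiftable ν := by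
    intro i j
    rw [← h3]
    exact pow_orderOf_eq_one _
  let g1 : Q →* M.Group := cs.lift ⟨_, l1⟩
  let g2 : M.Group →* Q := M.toCoxeterSystem.lift ⟨ν, l2⟩
  have e1 : ∀ s, g1 (cs.simple s) = M.simple (e s) := fun s => cs.lift_apply_simple l1 s
  have e2 : ∀ i, g2 (M.simple i) = ν i := by
    intro i
    have := M.toCoxeterSystem.lift_apply_simple l2 i
    rwa [CoxeterMatrix.toCoxeterSystem_simple] at this
  have e3 : ∀ i, g1 (ν i) = M.simple i := by
    intro i
    have := e1 (d i)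
    rwa [h1, h2] at this
  have c1 : g1.comp g2 = MonoidHom.id _ := by
    apply M.toCoxeterSystem.ext_simple
    intro i
    rw [CoxeterMatrix.toCoxeterSystem_simple]
    simp only [MonoidHom.comp_apply, MonoidHom.id_apply]
    rw [e2, e3]
  have c2 : g2.comp g1 = MonoidHom.id _ := by
    apply cs.ext_simple
    intro s
    simp only [MonoidHom.comp_apply, MonoidHom.id_apply]
    rw [e1, e2, h1]
  exact ⟨{ toFun := g1, invFun := g2, left_inv := fun x => DFunLike.congr_fun c2 x,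
           right_inv := fun x => DFunLike.congr_fun c1 x, map_mul' := g1.map_mul }, e3⟩

end abstract

variable {D : ChevalleyDatum} {G : Good D} {F : Type*} [Field F]

namespace Rels
variable (R : Rels D G F)
include R

theorem IsMono.pow {n : GL D.Idx F} {σ : Equiv.Perm (Fin D.nroots)} (h : R.IsMono n σ) (k : ℕ) :
    R.IsMono (n ^ k) (σ ^ k) := by
  induction k with
  | zero => simpa using IsMono.of_tor R (IsTor.one R)
  | succ k ih => rw [pow_succ, pow_succ]; exact IsMono.mul R ih h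

theorem mono_mem_H_iff (G2 : Good2 D) {n : GL D.Idx F} (hn : n ∈ D.monomialSubgroup F)
    {σ : Equiv.Perm (Fin D.nroots)} (h : R.IsMono n σ) : n ∈ D.diagonalSubgroup F ↔ σ = 1 := by
  constructor
  · intro hH
    exact IsMono.unique R h (IsMono.of_tor R (R.H_le_Tor hH))
  · rintro rfl
    exact R.mono_one_mem_H G2 hn h

theorem wP_inj {i j : ℕ} (hi : i < D.rank) (hj : j < D.rank) (h : G.wP i hi = G.wP j hj) : i = j := by
  by_contra hne
  have h3 := congrArg (fun σ : Equiv.Perm (Fin D.nroots) => ((σ ⟨D.simple i, G.simple_lt i hi⟩ : Fin D.nroots) : ℕ)) h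
  simp only [G.wP_apply] at h3
  have h4 := G.refl_pos hj (G.simple_lt i hi) (G.simple_pos hi) (fun e => hne (R.Good_simple_inj hi hj e))
  rw [G.refl_simple] at h3
  have h6 := G.neg_lt_half (G.simple_lt i hi) (G.simple_pos hi)
  omega

theorem cox_main (G2 : Good2 D) (M : CoxeterMatrix (Fin D.rank))
    (hord : ∀ i j : Fin D.rank, orderOf (G.wP i i.2 * G.wP j j.2) = M i j) :
    ∃ φ : ↥(D.monomialSubgroup F) →* M.Group, Function.Surjective φ ∧
      φ.ker = (D.diagonalSubgroup F).subgroupOf (D.monomialSubgroup F) ∧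
      ∀ (i : Fin D.rank) (g : ↥(D.monomialSubgroup F)),
        ((g : GL D.Idx F) : Matrix D.Idx D.Idx F) = D.nMat F (D.simple i) 1 → φ g = M.simple i := by
  classical
  let P := R.bnPair G2
  haveI hN : ((P.B ⊓ P.N).subgroupOf P.N).Normal := by
    constructor
    intro t ht n
    rw [Subgroup.mem_subgroupOf] at ht ⊢
    refine ⟨P.conj_mem n n.2 t ht, ?_⟩
    exact P.N.mul_mem (P.N.mul_mem n.2 t.2) (P.N.inv_mem n.2)
  obtain ⟨M', cs, hcs⟩ := Cfsg.Agent.S0320.result P
  let ι : ↥(D.monomialSubgroup F) →* ↥P.N := (Subgroup.subgroupOfEquivOfLe R.N_le_group).symm.toMonoidHom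
  have hι : ∀ n : ↥(D.monomialSubgroup F), (((ι n : ↥P.N) : ↥(D.group F)) : GL D.Idx F) = n := fun n => rfl
  let mk : ↥P.N →* (↥P.N ⧸ (P.B ⊓ P.N).subgroupOf P.N) := QuotientGroup.mk' _
  let nn : Fin D.rank → ↥(D.monomialSubgroup F) := fun i => ⟨R.ng (D.simple i) 1, R.ng_mem_N (G.simple_lt i i.2)⟩
  let ν : Fin D.rank → (↥P.N ⧸ (P.B ⊓ P.N).subgroupOf P.N) := fun i => mk (ι (nn i))
  have hker : ∀ n : ↥(D.monomialSubgroup F), mk (ι n) = 1 ↔ (n : GL D.Idx F) ∈ D.diagonalSubgroup F := by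
    intro n
    rw [QuotientGroup.mk'_apply, QuotientGroup.eq_one_iff, Subgroup.mem_subgroupOf, Subgroup.mem_inf]
    show (_ ∈ (D.borelSubgroup F).subgroupOf (D.group F) ∧ _ ∈ (D.monomialSubgroup F).subgroupOf (D.group F)) ↔ _
    rw [Subgroup.mem_subgroupOf, Subgroup.mem_subgroupOf, hι, ← R.B_inf_N G2, Subgroup.mem_inf]
  have hS : ∀ s : P.S, ∃ i : Fin D.rank, ((s : ↥(D.group F)) : GL D.Idx F) = R.ng (D.simple i) 1 := by
    rintro ⟨s, i, hi, hs⟩
    exact ⟨⟨i, hi⟩, (R.eq_wg_iff _ _).mp hs⟩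
  choose e he using hS
  let d : Fin D.rank → P.S := fun i => ⟨⟨R.ng (D.simple i) 1, R.N_le_group (R.ng_mem_N (G.simple_lt i i.2))⟩,
    i, i.2, R.coe_ng _ _⟩
  have h1 : ∀ s, cs.simple s = ν (e s) := by
    intro s
    rw [hcs s]
    show _ = QuotientGroup.mk _
    congr 1
    apply Subtype.ext
    apply Subtype.ext
    exact he s
  have h2 : ∀ i, e (d i) = i := by
    intro i
    have := he (d i)
    have h3 : R.ng (D.simple i) 1 = R.ng (D.simple (e (d i))) 1 := this
    have h4 := IsMono.unique R (IsMono.ni R i.2) (h3 ▸ IsMono.ni R (e (d i)).2)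
    exact Fin.ext (R.wP_inj _ _ h4).symm
  have h3 : ∀ i j, orderOf (ν i * ν j) = M i j := by
    intro i j
    rw [← hord]
    rw [orderOf_eq_orderOf_iff]
    intro k
    have hm : R.IsMono ((nn i * nn j : ↥(D.monomialSubgroup F)) : GL D.Idx F) (G.wP i i.2 * G.wP j j.2) :=
      IsMono.mul R (IsMono.ni R i.2) (IsMono.ni R j.2)
    have : (ν i * ν j) ^ k = mk (ι ((nn i * nn j) ^ k)) := by
      simp only [ν, map_mul, map_pow]
    rw [this, hker, Subgroup.coe_pow]
    exact R.mono_mem_H_iff G2 (Subgroup.pow_mem _ (nn i * nn j).2 k) (IsMono.pow R hm k)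
  obtain ⟨ψ, hψ⟩ := coxeter_transfer cs M e d ν h1 h2 h3
  refine ⟨ψ.toMonoidHom.comp (mk.comp ι), ?_, ?_, ?_⟩
  · intro x
    obtain ⟨y, hy⟩ := QuotientGroup.mk'_surjective _ (ψ.symm x)
    obtain ⟨z, hz⟩ := (Subgroup.subgroupOfEquivOfLe R.N_le_group).symm.surjective y
    refine ⟨z, ?_⟩
    show ψ (mk (ι z)) = x
    have : ι z = y := hz
    rw [this]
    show ψ (QuotientGroup.mk' _ y) = x
    rw [hy, MulEquiv.apply_symm_apply]
  · ext n
    rw [MonoidHom.mem_ker, Subgroup.mem_subgroupOf, ← hker]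
    show ψ (mk (ι n)) = 1 ↔ _
    rw [map_eq_one_iff ψ ψ.injective]
  · intro i g hg
    have : g = nn i := Subtype.ext ((R.eq_wg_iff _ _).mp hg)
    rw [this]
    exact hψ i

theorem cox_embed (G2 : Good2 D) (M : CoxeterMatrix (Fin D.rank))
    (hord : ∀ i j : Fin D.rank, orderOf (G.wP i i.2 * G.wP j j.2) = M i j) :
    ∃ f : M.Group →* Equiv.Perm (Fin D.nroots), Function.Injective f ∧ f.range = G.W ∧
      ∀ i : Fin D.rank, f (M.simple i) = G.wP i i.2 := by
  obtain ⟨φ, hsurj, hker, hφ⟩ := R.cox_main G2 M hord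
  have l2 : M.IsLiftable (fun i : Fin D.rank => G.wP i i.2) := by
    intro i j
    rw [← hord]
    exact pow_orderOf_eq_one _
  let f : M.Group →* Equiv.Perm (Fin D.nroots) := M.toCoxeterSystem.lift ⟨_, l2⟩
  have hf : ∀ i : Fin D.rank, f (M.simple i) = G.wP i i.2 := by
    intro i
    have := M.toCoxeterSystem.lift_apply_simple l2 i
    rwa [CoxeterMatrix.toCoxeterSystem_simple] at this
  let K : Subgroup ↥(D.monomialSubgroup F) :=
    { carrier := {n | R.IsMono (n : GL D.Idx F) (f (φ n))}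
      one_mem' := by
        show R.IsMono _ _
        rw [map_one, map_one]
        exact IsMono.of_tor R (IsTor.one R)
      mul_mem' := by
        intro a b ha hb
        show R.IsMono _ _
        rw [map_mul, map_mul]
        exact IsMono.mul R ha hb
      inv_mem' := by
        intro a ha
        show R.IsMono _ _
        rw [map_inv, map_inv]
        exact IsMono.inv R ha }
  have hK : D.monomialSubgroup F ≤ K.map (D.monomialSubgroup F).subtype := by
    conv_lhs => rw [R.N_eq_N0 G2]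
    unfold N0
    apply sup_le
    · intro h hh
      refine ⟨⟨h, R.H_le_N hh⟩, ?_, rfl⟩
      show R.IsMono _ _
      have : (⟨h, R.H_le_N hh⟩ : ↥(D.monomialSubgroup F)) ∈ φ.ker := by
        rw [hker, Subgroup.mem_subgroupOf]; exact hh
      rw [MonoidHom.mem_ker.mp this, map_one]
      exact IsMono.of_tor R (R.H_le_Tor hh)
    · rw [Subgroup.closure_le]
      rintro g ⟨i, hi, hg⟩
      have hgN : g ∈ D.monomialSubgroup F := by
        rw [(R.eq_wg_iff _ _).mp hg]; exact R.ng_mem_N (G.simple_lt i hi)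
      refine ⟨⟨g, hgN⟩, ?_, rfl⟩
      show R.IsMono _ _
      rw [hφ ⟨i, hi⟩ ⟨g, hgN⟩ hg, hf]
      show R.IsMono g _
      rw [(R.eq_wg_iff _ _).mp hg]
      exact IsMono.ni R hi
  have hall : ∀ n : ↥(D.monomialSubgroup F), R.IsMono (n : GL D.Idx F) (f (φ n)) := by
    intro n
    obtain ⟨k, hk, e⟩ := hK n.2
    have : k = n := Subtype.ext e
    rw [← this]
    exact hk
  refine ⟨f, ?_, ?_, hf⟩
  · rw [injective_iff_map_eq_one]
    intro x hx
    obtain ⟨n, rfl⟩ := hsurj x
    have h1 := hall n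
    rw [hx] at h1
    have h2 := R.mono_one_mem_H G2 n.2 h1
    have : n ∈ φ.ker := by rw [hker, Subgroup.mem_subgroupOf]; exact h2
    exact MonoidHom.mem_ker.mp this
  · rw [MonoidHom.range_eq_map, ← M.toCoxeterSystem.subgroup_closure_range_simple, MonoidHom.map_closure]
    unfold Good.W
    congr 1
    ext σ
    constructor
    · rintro ⟨_, ⟨i, rfl⟩, rfl⟩
      rw [CoxeterMatrix.toCoxeterSystem_simple]
      exact ⟨i, i.2, hf i⟩
    · rintro ⟨i, hi, rfl⟩
      refine ⟨_, ⟨⟨i, hi⟩, rfl⟩, ?_⟩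
      rw [CoxeterMatrix.toCoxeterSystem_simple]
      exact hf ⟨i, hi⟩

end Rels

end Cfsg.Agent.Chev
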