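import Cfsg.Agent.Chev.CoxChk
import Cfsg.Agent.Chev.Card

/-!
# Order of the Coxeter group and of its Coxeter elements
-/

set_option autoImplicit false

namespace Cfsg.Agent.Chev
open Cfsg.Lie

variable {D : ChevalleyDatum} {G : Good D} {F : Type*} [Field F]

namespace Rels
variable (R : Rels D G F)
include R

theorem cox_elt_order (G2 : Good2 D) (M : CoxeterMatrix (Fin D.rank))
    (hord : ∀ i j : Fin D.rank, orderOf (G.wP i i.2 * G.wP j j.2) = M i j) (h : ℕ)
    (hc : orderOf (G.wdP (List.finRange D.rank)) = h) :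
    orderOf ((List.finRange D.rank).map M.simple).prod = h := by
  obtain ⟨f, hinj, -, hf⟩ := R.cox_embed G2 M hord
  rw [← orderOf_injective f hinj, map_list_prod, List.map_map]
  have : (f ∘ M.simple) = fun i : Fin D.rank => G.wP i i.2 := funext hf
  rw [this]
  exact hc

theorem cox_card (G2 : Good2 D) (M : CoxeterMatrix (Fin D.rank))
    (hord : ∀ i j : Fin D.rank, orderOf (G.wP i i.2 * G.wP j j.2) = M i j) :
    Nat.card M.Group = G.psum G.W 1 := by
  obtain ⟨f, hinj, hr, -⟩ := R.cox_embed G2 M hord
  rw [Nat.card_congr (MonoidHom.ofInjective hinj).toEquiv, hr]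
  unfold Good.psum
  simp only [one_pow, Finset.sum_const, smul_eq_mul, mul_one]
  rw [← Set.ncard_eq_toFinset_card]
  exact Nat.card_coe_set_eq _

end Rels

end Cfsg.Agent.Chev
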