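import Cfsg.Agent.Chev.Cox

/-!
# Orders of products of fundamental reflections, by table checks
-/

set_option autoImplicit false

namespace Cfsg.Agent.Chev
open Cfsg.Lie

/-- a word of reflections applied to a root -/
noncomputable def apW (w : ℕ → ℕ → ℕ) (L : List ℕ) (s : ℕ) : ℕ :=
  List.rec (motive := fun _ => ℕ) s (fun i _ ih => w i ih) L

theorem apW_nil (w : ℕ → ℕ → ℕ) (s : ℕ) : apW w [] s = s := rfl
theorem apW_cons (w : ℕ → ℕ → ℕ) (i : ℕ) (L : List ℕ) (s : ℕ) : apW w (i :: L) s = w i (apW w L s) := rfl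

noncomputable def itW (w : ℕ → ℕ → ℕ) (L : List ℕ) (k s : ℕ) : ℕ :=
  Nat.rec (motive := fun _ => ℕ) s (fun _ ih => apW w L ih) k

theorem itW_zero (w : ℕ → ℕ → ℕ) (L : List ℕ) (s : ℕ) : itW w L 0 s = s := rfl
theorem itW_succ (w : ℕ → ℕ → ℕ) (L : List ℕ) (k s : ℕ) : itW w L (k + 1) s = apW w L (itW w L k s) := rfl

noncomputable def chkOrd (w : ℕ → ℕ → ℕ) (n : ℕ) (L : List ℕ) (m : ℕ) : Bool :=
  band (nlt 0 m) (band (allBelow (fun s => Nat.beq (itW w L m s) s) n)
    (allBelow (fun d => bite (Nat.beq d 0) true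
      (anyBelow (fun s => bite (Nat.beq (itW w L d s) s) false true) n)) m))

variable {D : ChevalleyDatum}

theorem w_eq_of_chk {P : Packed} (hD : Fast D P) {X : NAux} (hX : chkAux P X = true) :
    ∀ i < D.rank, ∀ s < D.nroots, X.w i s = D.reflectRoot i s := by
  have hl : P.l = D.rank := hD.bridge.rank.symm
  have hn : P.n = D.nroots := hD.bridge.nroots.symm
  have hacc : P.acc = acc D := hD.bridge.acc_eq.symm
  simp only [chkAux, band_eq_true, allBelow_iff, decide_eq_true_eq, nlt_iff, nbeq_iff, hacc, hl, hn] at hX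
  exact fun i hi s hs => (hX i hi s hs).1

/-- the product of the reflections of a word -/
def Good.wdP (G : Good D) (L : List (Fin D.rank)) : Equiv.Perm (Fin D.nroots) := (L.map fun i : Fin D.rank => G.wP i i.2).prod

theorem Good.wdP_apply (G : Good D) {w : ℕ → ℕ → ℕ} (hw : ∀ i < D.rank, ∀ s < D.nroots, w i s = D.reflectRoot i s)
    (L : List (Fin D.rank)) (s : Fin D.nroots) : ((G.wdP L s : Fin D.nroots) : ℕ) = apW w (L.map Fin.val) s := by
  induction L with
  | nil => rfl
  | cons i L ih =>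
    unfold Good.wdP at ih ⊢
    rw [List.map_cons, List.prod_cons, Equiv.Perm.mul_apply, G.wP_apply, List.map_cons, apW_cons, ← ih,
      hw i i.2 _ (Fin.is_lt _)]

theorem Good.wdP_pow_apply (G : Good D) {w : ℕ → ℕ → ℕ}
    (hw : ∀ i < D.rank, ∀ s < D.nroots, w i s = D.reflectRoot i s)
    (L : List (Fin D.rank)) (k : ℕ) (s : Fin D.nroots) :
    (((G.wdP L ^ k) s : Fin D.nroots) : ℕ) = itW w (L.map Fin.val) k s := by
  induction k with
  | zero => rfl
  | succ k ih =>
    rw [pow_succ', Equiv.Perm.mul_apply, G.wdP_apply hw, ih, itW_succ]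

theorem Good.orderOf_wordP (G : Good D) {w : ℕ → ℕ → ℕ}
    (hw : ∀ i < D.rank, ∀ s < D.nroots, w i s = D.reflectRoot i s)
    (L : List (Fin D.rank)) (m : ℕ) (h : chkOrd w D.nroots (L.map Fin.val) m = true) : orderOf (G.wdP L) = m := by
  unfold chkOrd at h
  rw [band_eq_true, band_eq_true, nlt_iff, allBelow_iff, allBelow_iff] at h
  obtain ⟨h0, h1, h2⟩ := h
  rw [orderOf_eq_iff h0]
  constructor
  · ext s
    rw [G.wdP_pow_apply hw]
    exact (nbeq_iff _ _).mp (h1 s s.2)
  · intro d hd hd0 hone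
    have h3 := h2 d hd
    have h4 : Nat.beq d 0 = false := by
      cases hb : Nat.beq d 0 with
      | true => rw [nbeq_iff] at hb; omega
      | false => rfl
    rw [h4, bite_false, anyBelow_iff] at h3
    obtain ⟨s, hs, h5⟩ := h3
    have h6 := G.wdP_pow_apply hw L d ⟨s, hs⟩
    rw [hone] at h6
    have h7 : Nat.beq (itW w (L.map Fin.val) d s) s = true := by
      rw [nbeq_iff]; exact h6.symm
    rw [h7, bite_true] at h5
    cases h5

end Cfsg.Agent.Chev
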