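import Cfsg.Agent.Chev.Gen
import Cfsg.Agent.Chev.Perf

/-!
# Generation by the monomial group and a few root subgroups: derivation certificates
-/

set_option autoImplicit false

namespace Cfsg.Agent.Chev
open Cfsg.Lie

/-- one step of a derivation: `(0, k, s)` reflects the derived root `s` in the node `k`; `(_, a, b)` takes
the commutator of the derived roots `a`, `b`, when it has a single term with constant `± m`. -/
def dstep (D : ChevalleyDatum) (m : ℕ) (vis : List ℕ) (e : ℕ × ℕ × ℕ) : List ℕ :=
  if e.1 = 0 then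
    (if vis.contains e.2.2 && decide (e.2.1 < D.rank ∧ e.2.2 < D.nroots) then D.reflectRoot e.2.1 e.2.2 :: vis else vis)
  else
    (if vis.contains e.2.1 && vis.contains e.2.2 &&
        decide (e.2.1 < D.nroots ∧ e.2.2 < D.nroots ∧ e.2.2 ≠ e.2.1 ∧ e.2.2 ≠ D.neg e.2.1) then
      (match D.commTerms e.2.1 e.2.2 with
        | [(v, c, 1, 1)] => if c.natAbs = m then v :: vis else vis
        | _ => vis)
    else vis)

def derive (D : ChevalleyDatum) (m : ℕ) (steps : List (ℕ × ℕ × ℕ)) (init : List ℕ) : List ℕ :=
  steps.foldl (dstep D m) init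

theorem derive_sound {D : ChevalleyDatum} (m : ℕ) (p : ℕ → Prop)
    (h1 : ∀ k < D.rank, ∀ s < D.nroots, p s → p (D.reflectRoot k s))
    (h2 : ∀ a < D.nroots, ∀ b < D.nroots, b ≠ a → b ≠ D.neg a → ∀ (v : ℕ) (c : ℤ), D.commTerms a b = [(v, c, 1, 1)] →
      c.natAbs = m → p a → p b → p v)
    (steps : List (ℕ × ℕ × ℕ)) : ∀ (init : List ℕ), (∀ x ∈ init, p x) → ∀ x ∈ derive D m steps init, p x := by
  induction steps with
  | nil => intro init h x hx; exact h x hx
  | cons e E ih =>
    intro init h
    unfold derive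
    rw [List.foldl_cons]
    apply ih
    intro x hx
    unfold dstep at hx
    split_ifs at hx with c1 c2 c3
    · simp only [Bool.and_eq_true, List.contains_iff_mem, decide_eq_true_eq] at c2
      rcases List.mem_cons.mp hx with rfl | hx
      · exact h1 _ c2.2.1 _ c2.2.2 (h _ c2.1)
      · exact h x hx
    · exact h x hx
    · simp only [Bool.and_eq_true, List.contains_iff_mem, decide_eq_true_eq] at c3
      split at hx
      · rename_i v c hc
        split_ifs at hx with c4
        · rcases List.mem_cons.mp hx with rfl | hx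
          · exact h2 _ c3.2.1 _ c3.2.2.1 c3.2.2.2.1 c3.2.2.2.2 _ c hc c4 (h _ c3.1.1) (h _ c3.1.2)
          · exact h x hx
        · exact h x hx
      · exact h x hx
    · exact h x hx

variable {F : Type*} [Field F] {D : ChevalleyDatum} {G : Good D}

namespace Rels
variable (R : Rels D G F)
include R

theorem group_le_of_derive (G2 : Good2 D) {M : Subgroup (GL D.Idx F)} (hN : D.monomialSubgroup F ≤ M) (m : ℕ)
    (hm : (m : F) ≠ 0) (steps : List (ℕ × ℕ × ℕ)) (init : List ℕ) (hinit : ∀ r ∈ init, ∀ t, R.xg r t ∈ M)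
    (hall : (List.range D.rank).all (fun j => (derive D m steps init).contains (D.simple j)) = true) :
    D.group F ≤ M := by
  have hrefl : ∀ k < D.rank, ∀ s < D.nroots, (∀ t, R.xg s t ∈ M) → ∀ t, R.xg (D.reflectRoot k s) t ∈ M := by
    intro i hi s hs ih t
    have h1 := R.ng_conj hi hs ((G.eta i s : F) * t)
    rw [← mul_assoc, R.eta_mul_self hi hs, one_mul] at h1
    rw [← h1]
    have hn : R.ng (D.simple i) 1 ∈ M := hN (R.ng_mem_N (G.simple_lt i hi))
    exact Subgroup.mul_mem _ (Subgroup.mul_mem _ hn (ih _)) (Subgroup.inv_mem _ hn)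
  have key := derive_sound (D := D) m (fun r => ∀ t, R.xg r t ∈ M) hrefl (by
    intro r hr s hs h1 h2 v c ht hc pa pb w
    have hc' : (c : F) ≠ 0 := by
      rcases Int.natAbs_eq c with h | h <;> rw [h, hc] <;> simpa using hm
    have h3 := R.comm_g hr hs h1 h2 (-1) (w / c)
    have h4 : R.wg (D.commWord F r s (-1) (w / c)) = R.xg v w := by
      unfold ChevalleyDatum.commWord
      rw [ht]
      simp only [wg, List.map_cons, List.map_nil, List.prod_cons, List.prod_nil, mul_one]
      congr 1
      field_simp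
    rw [h4] at h3
    have h6 : R.xg v w = (R.xg s (w / c))⁻¹ * ((R.xg r (-1))⁻¹ * R.xg s (w / c) * R.xg r (-1)) := by
      rw [h3]; group
    rw [h6]
    exact M.mul_mem (M.inv_mem (pb _)) (M.mul_mem (M.mul_mem (M.inv_mem (pa _)) (pb _)) (pa _))) steps init hinit
  apply R.group_le
  apply G2.root_ind (fun r => ∀ t, R.xg r t ∈ M)
  · intro i hi
    rw [List.all_eq_true] at hall
    have := hall i (List.mem_range.mpr hi)
    rw [List.contains_iff_mem] at this
    exact key _ this
  · exact hrefl

end Rels

end Cfsg.Agent.Chev
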