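import Cfsg.Agent.Chev.FldFix
import Cfsg.Prelude.Def_ChevAutomorphisms

/-!
# Fixed points of a field automorphism: the subfield subgroup
-/

set_option autoImplicit false
set_option linter.unusedSectionVars false
set_option linter.unusedVariables false
set_option linter.style.haveILetI false

namespace Cfsg.Agent.Chev
open Cfsg.Lie
open scoped MatrixGroups

theorem exists_fixed_field {F : Type*} [Field F] [Fintype F] (σ : F ≃+* F) :
    ∃ (F₀ : Type) (_ : Field F₀) (_ : Fintype F₀) (ι : F₀ →+* F),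
      Fintype.card F = Fintype.card F₀ ^ orderOf σ ∧ ∀ t, σ t = t ↔ t ∈ Set.range ι := by
  classical
  let Gσ : Subgroup (RingAut F) := Subgroup.zpowers σ
  have : Finite (RingAut F) := Finite.of_injective (fun e : RingAut F => (e : F → F)) DFunLike.coe_injective
  letI : Fintype Gσ := Fintype.ofFinite _
  let F₁ : Subfield F := FixedPoints.subfield Gσ F
  have h1 : Module.finrank F₁ F = Fintype.card Gσ := FixedPoints.finrank_eq_card Gσ F
  have h2 : Fintype.card Gσ = orderOf σ := by
    rw [← Nat.card_eq_fintype_card]; exact Nat.card_zpowers σ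
  have h3 : Fintype.card F = Fintype.card F₁ ^ Module.finrank F₁ F := Module.card_eq_pow_finrank
  have hmem : ∀ t, σ t = t ↔ t ∈ F₁ := by
    intro t
    constructor
    · intro h g
      have hs : Gσ ≤ MulAction.stabilizer (RingAut F) t := by
        rw [Subgroup.zpowers_le]
        exact h
      exact hs g.2
    · intro h
      exact h ⟨σ, Subgroup.mem_zpowers σ⟩
  refine ⟨Shrink.{0} F₁, inferInstance, Fintype.ofEquiv _ (equivShrink.{0} F₁),
    F₁.subtype.comp ((Shrink.ringEquiv.{0} F₁ : Shrink.{0} F₁ ≃+* F₁) : Shrink.{0} F₁ →+* F₁), ?_, ?_⟩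
  · rw [h3, h1, h2]
    congr 1
    exact (Fintype.ofEquiv_card (equivShrink.{0} F₁)).symm
  · intro t
    rw [hmem]
    constructor
    · intro h
      exact ⟨(Shrink.ringEquiv.{0} F₁).symm ⟨t, h⟩, by simp⟩
    · rintro ⟨x, rfl⟩
      exact (Shrink.ringEquiv.{0} F₁ x).2

theorem field_fixed {D : ChevalleyDatum} {G : Good D} (G2 : Good2 D)
    {N : Matrix (Fin D.rank) (Fin D.rank) ℤ} (hN : cartanM D * N = 1)
    (RR : ∀ (F : Type) [Field F], Rels D G F)
    {F : Type*} [Field F] [Fintype F] (R : Rels D G F)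
    (φ : MulAut ↥(D.group F)) (hφ : D.IsFieldAut φ) (r : ℕ) (ho : orderOf φ = r) :
    ∃ (F₀ : Type) (_ : Field F₀) (_ : Fintype F₀), Fintype.card F = Fintype.card F₀ ^ r ∧
      Nonempty (↥((MulEquiv.toMonoidHom φ).eqLocus (MonoidHom.id ↥(D.group F))) ≃* ↥(D.group F₀)) := by
  obtain ⟨σ, hσ⟩ := hφ
  have hA : ∀ g : ↥(D.group F), ((φ g : ↥(D.group F)) : GL D.Idx F) =
      Matrix.GeneralLinearGroup.map (σ : F →+* F) (g : GL D.Idx F) := by
    let E : Subgroup ↥(D.group F) := MonoidHom.eqLocus ((D.group F).subtype.comp φ.toMonoidHom)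
      ((Matrix.GeneralLinearGroup.map (σ : F →+* F)).comp (D.group F).subtype)
    have hE : D.group F ≤ E.map (D.group F).subtype := by
      apply R.group_le
      intro s hs t
      refine ⟨⟨R.xg s t, R.xg_mem_group s t⟩, ?_, rfl⟩
      show ((φ ⟨R.xg s t, _⟩ : ↥(D.group F)) : GL D.Idx F) =
        Matrix.GeneralLinearGroup.map (σ : F →+* F) (R.xg s t)
      rw [R.frob_xg]
      exact (R.eq_xg_iff _ _ _).mp (hσ _ s t hs ((R.eq_xg_iff _ _ _).mpr rfl))
    intro g
    obtain ⟨g', hg', e⟩ := hE g.2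
    have : g' = g := Subtype.ext e
    subst this
    exact hg'
  have hAk : ∀ (k : ℕ) (g : ↥(D.group F)), (((φ ^ k) g : ↥(D.group F)) : GL D.Idx F) =
      Matrix.GeneralLinearGroup.map (((σ ^ k : F ≃+* F)) : F →+* F) (g : GL D.Idx F) := by
    intro k
    induction k with
    | zero =>
      intro g
      rw [pow_zero, pow_zero]
      apply Units.ext
      ext i j
      rfl
    | succ k ih =>
      intro g
      rw [pow_succ', pow_succ']
      show ((φ ((φ ^ k) g) : ↥(D.group F)) : GL D.Idx F) = _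
      rw [hA, ih]
      apply Units.ext
      ext i j
      rfl
  have hB : orderOf σ = orderOf φ := by
    rw [orderOf_eq_orderOf_iff]
    intro k
    constructor
    · intro h
      ext g
      rw [hAk, h]
      rfl
    · intro h
      ext t
      have hs := G.simple_lt 0 G.rank_pos
      have h1 := hAk k ⟨R.xg (D.simple 0) t, R.xg_mem_group _ _⟩
      rw [h] at h1
      have h2 : R.xg (D.simple 0) t = R.xg (D.simple 0) ((σ ^ k : F ≃+* F) t) := by
        rw [← RingEquiv.coe_toRingHom, ← R.frob_xg]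
        exact h1
      have h3 : R.xg (D.simple 0) (t - (σ ^ k : F ≃+* F) t) = 1 := by
        rw [sub_eq_add_neg, ← R.xg_add, ← R.xg_inv, ← h2, mul_inv_cancel]
      rw [R.xg_eq_one_iff hs] at h3
      exact (sub_eq_zero.mp h3).symm
  obtain ⟨F₀, i1, i2, ι, hc, hι⟩ := exists_fixed_field σ
  refine ⟨F₀, i1, i2, by rw [hc, hB, ho], ?_⟩
  have R0 : Rels D G F₀ := RR F₀
  let μ : GL D.Idx F₀ →* GL D.Idx F := Matrix.GeneralLinearGroup.map ι
  have hμ : Function.Injective μ := by
    intro a b h
    apply Units.ext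
    ext i j
    have := congrArg (fun g : GL D.Idx F => (g : Matrix D.Idx D.Idx F) i j) h
    exact ι.injective this
  have hμx : ∀ s t, μ (R0.xg s t) = R.xg s (ι t) := by
    intro s t
    apply Units.ext
    exact x_map2 D ι s t
  have key : ((MulEquiv.toMonoidHom φ).eqLocus (MonoidHom.id ↥(D.group F))).map (D.group F).subtype =
      (D.group F₀).map μ := by
    apply le_antisymm
    · rintro _ ⟨g, hg, rfl⟩
      have hfix : Matrix.GeneralLinearGroup.map (σ : F →+* F) (g : GL D.Idx F) = g := by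
        rw [← hA]
        exact congrArg Subtype.val hg
      refine R.fix_le G2 hN (σ : F →+* F) σ.surjective ?_ g.2 hfix
      intro s hs t ht
      obtain ⟨t0, rfl⟩ := (hι t).mp ht
      exact ⟨R0.xg s t0, R0.xg_mem_group s t0, hμx s t0⟩
    · rw [Subgroup.map_le_iff_le_comap]
      apply R0.group_le
      intro s hs t
      rw [Subgroup.mem_comap, hμx]
      refine ⟨⟨R.xg s (ι t), R.xg_mem_group _ _⟩, ?_, rfl⟩
      apply Subtype.ext
      show ((φ _ : ↥(D.group F)) : GL D.Idx F) = R.xg s (ι t)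
      rw [hA]
      show Matrix.GeneralLinearGroup.map (σ : F →+* F) (R.xg s (ι t)) = _
      rw [R.frob_xg]
      congr 1
      exact (hι _).mpr ⟨t, rfl⟩
  exact ⟨((Subgroup.equivMapOfInjective _ _ (Subgroup.subtype_injective _)).trans
    (MulEquiv.subgroupCongr key)).trans (Subgroup.equivMapOfInjective _ μ hμ).symm⟩

end Cfsg.Agent.Chev
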