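import Cfsg.Agent.Chev.FldFix2
import Cfsg.Agent.Chev.All2

/-!
# The inverse Cartan matrices of types `G₂`, `F₄`, `E₈`
-/

set_option autoImplicit false
set_option maxRecDepth 1000000

namespace Cfsg.Agent.Chev
open Cfsg.Lie

def cmAG2 : Matrix (Fin 2) (Fin 2) ℤ := cartanM chevG2
def cmIG2 : Matrix (Fin 2) (Fin 2) ℤ := !![2, 3; 1, 2]
theorem cmIG2_eq : cmAG2 * cmIG2 = 1 := by decide +kernel

def cmAF4 : Matrix (Fin 4) (Fin 4) ℤ := cartanM chevF4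
def cmIF4 : Matrix (Fin 4) (Fin 4) ℤ := !![2, 3, 4, 2; 3, 6, 8, 4; 2, 4, 6, 3; 1, 2, 3, 2]
theorem cmIF4_eq : cmAF4 * cmIF4 = 1 := by decide +kernel

def cmAE8 : Matrix (Fin 8) (Fin 8) ℤ := cartanM chevE8
def cmIE8 : Matrix (Fin 8) (Fin 8) ℤ := !![4, 5, 7, 10, 8, 6, 4, 2; 5, 8, 10, 15, 12, 9, 6, 3; 7, 10, 14, 20, 16, 12, 8, 4; 10, 15, 20, 30, 24, 18, 12, 6; 8, 12, 16, 24, 20, 15, 10, 5; 6, 9, 12, 18, 15, 12, 8, 4; 4, 6, 8, 12, 10, 8, 6, 3; 2, 3, 4, 6, 5, 4, 3, 2]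
theorem cmIE8_eq : cmAE8 * cmIE8 = 1 := by decide +kernel

end Cfsg.Agent.Chev
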