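import Cfsg.Agent.Chev.Thy8

/-!
# The group is generated by the fundamental root elements and their negatives
-/

set_option autoImplicit false

namespace Cfsg.Agent.Chev
open Cfsg.Lie

variable {F : Type*} [Field F] {D : ChevalleyDatum} {G : Good D}

namespace Rels
variable (R : Rels D G F)
include R

theorem group_le_of_simple (G2 : Good2 D) {K : Subgroup (GL D.Idx F)}
    (h : ∀ i < D.rank, ∀ t, R.xg (D.simple i) t ∈ K ∧ R.xg (D.neg (D.simple i)) t ∈ K) :
    D.group F ≤ K := by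
  apply R.group_le
  apply G2.root_ind (fun r => ∀ t, R.xg r t ∈ K)
  · intro i hi t
    exact (h i hi t).1
  · intro i hi s hs ih t
    have h1 := R.ng_conj hi hs ((G.eta i s : F) * t)
    rw [← mul_assoc, R.eta_mul_self hi hs, one_mul] at h1
    rw [← h1]
    have hn : R.ng (D.simple i) 1 ∈ K := by
      rw [R.ng_eq]
      exact K.mul_mem (K.mul_mem (h i hi _).1 (h i hi _).2) (h i hi _).1
    exact Subgroup.mul_mem _ (Subgroup.mul_mem _ hn (ih _)) (Subgroup.inv_mem _ hn)

/-- the root element as an element of the group -/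
def xG (r : ℕ) (t : F) : ↥(D.group F) := ⟨R.xg r t, R.xg_mem_group r t⟩

theorem coe_xG (r : ℕ) (t : F) : (((R.xG r t : ↥(D.group F)) : GL D.Idx F) : Matrix D.Idx D.Idx F) = D.x F r t := rfl

theorem eq_xG_iff (g : ↥(D.group F)) (r : ℕ) (t : F) :
    ((g : GL D.Idx F) : Matrix D.Idx D.Idx F) = D.x F r t ↔ g = R.xG r t := by
  rw [R.eq_xg_iff]
  exact ⟨fun h => Subtype.ext h, fun h => by rw [h]; rfl⟩

theorem hom_ext (G2 : Good2 D) {M : Type*} [Group M] (φ ψ : ↥(D.group F) →* M)
    (h : ∀ i < D.rank, ∀ t, φ (R.xG (D.simple i) t) = ψ (R.xG (D.simple i) t) ∧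
      φ (R.xG (D.neg (D.simple i)) t) = ψ (R.xG (D.neg (D.simple i)) t)) : φ = ψ := by
  have hle : D.group F ≤ (MonoidHom.eqLocus φ ψ).map (D.group F).subtype := by
    apply R.group_le_of_simple G2
    intro i hi t
    exact ⟨⟨R.xG _ t, (h i hi t).1, rfl⟩, ⟨R.xG _ t, (h i hi t).2, rfl⟩⟩
  ext g
  obtain ⟨g', hg', he⟩ := hle g.2
  have : g' = g := Subtype.ext he
  rw [← this]
  exact hg'

end Rels

end Cfsg.Agent.Chev
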