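import Cfsg.Agent.Chev.Graph2
import Cfsg.Agent.Chev.Gen
import Cfsg.Agent.Chev.Tab.D4Graph
import Cfsg.Agent.Chev.Tab.D4Graph2
import Cfsg.Agent.Chev.Tab.E6Graph
import Cfsg.Agent.Chev.Tab.E6Graph2
import Cfsg.Agent.Chev.Tab.D4Root2
import Cfsg.Agent.Chev.Tab.E6Root2
import Cfsg.Prelude.Def_ChevAutomorphisms

/-!
# All diagram symmetries of D4 and E6 and the signs of the graph automorphisms
-/

set_option autoImplicit false

namespace Cfsg.Agent.Chev
open Cfsg.Lie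

/-- the decidable facts tying a table to a permutation of the nodes -/
def GFacts (D : ChevalleyDatum) (π : Equiv.Perm (Fin D.rank)) (X : GAux) : Prop :=
  (∀ i : Fin D.rank, X.ρ (D.simple i) = D.simple (π i) ∧ X.ε (D.simple i) = 1 ∧
    X.ρ (D.neg (D.simple i)) = D.neg (D.simple (π i)) ∧ X.ε (D.neg (D.simple i)) = 1) ∧
  ∀ r : Fin D.nroots, X.ρ r = D.permRoot π r ∧ (X.ε r = 1 ∨ X.ε r = -1)

instance (D : ChevalleyDatum) (π : Equiv.Perm (Fin D.rank)) (X : GAux) : Decidable (GFacts D π X) := by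
  unfold GFacts; infer_instance

instance (D : ChevalleyDatum) (π : Equiv.Perm (Fin D.rank)) : Decidable (D.IsDiagramSymmetry π) := by
  unfold ChevalleyDatum.IsDiagramSymmetry; infer_instance

theorem symD4 : ∀ π : Equiv.Perm (Fin chevD4.rank), chevD4.IsDiagramSymmetry π →
    GFacts chevD4 π gauxD4i ∨ GFacts chevD4 π gauxD4a ∨ GFacts chevD4 π gauxD4b ∨
    GFacts chevD4 π gauxD4c ∨ GFacts chevD4 π gauxD4d ∨ GFacts chevD4 π gauxD4e := by
  decide +kernel

theorem symE6 : ∀ π : Equiv.Perm (Fin chevE6.rank), chevE6.IsDiagramSymmetry π →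
    GFacts chevE6 π gauxE6i ∨ GFacts chevE6 π gauxE6 := by
  decide +kernel

section
variable {F : Type*} [Field F] {D : ChevalleyDatum} {P : Packed} {G : Good D}

theorem graph_signs (R : Rels D G F) (G2 : Good2 D) (hD : Fast D P) {X Y : GAux} (hX : chkG P X = true)
    (hY : chkG P Y = true) (hXY : chkGInv P X Y = true) (hYX : chkGInv P Y X = true)
    (π : Equiv.Perm (Fin D.rank)) (hf : GFacts D π X) (φ : ↥(D.group F) ≃* ↥(D.group F))
    (hφ : ∀ (g : ↥(D.group F)) (i : Fin D.rank) (t : F),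
      (((g : GL D.Idx F) : Matrix D.Idx D.Idx F) = D.x F (D.simple i) t →
        ((φ g : GL D.Idx F) : Matrix D.Idx D.Idx F) = D.x F (D.simple (π i)) t) ∧
      (((g : GL D.Idx F) : Matrix D.Idx D.Idx F) = D.x F (D.neg (D.simple i)) t →
        ((φ g : GL D.Idx F) : Matrix D.Idx D.Idx F) = D.x F (D.neg (D.simple (π i))) t))
    (r : ℕ) (hr : r < D.nroots) :
    ∃ ε : F, (ε = 1 ∨ ε = -1) ∧ ∀ (g : ↥(D.group F)) (t : F),
      ((g : GL D.Idx F) : Matrix D.Idx D.Idx F) = D.x F r t →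
        ((φ g : GL D.Idx F) : Matrix D.Idx D.Idx F) = D.x F (D.permRoot π r) (ε * t) := by
  obtain ⟨α, hα⟩ := graph_aut (F := F) hD hX hY hXY hYX
  have key : φ.toMonoidHom = α.toMonoidHom := by
    apply R.hom_ext G2
    intro i hi t
    obtain ⟨h1, h2, h3, h4⟩ := hf.1 ⟨i, hi⟩
    have a1 := (hφ (R.xG (D.simple i) t) ⟨i, hi⟩ t).1 rfl
    have a2 := (hφ (R.xG (D.neg (D.simple i)) t) ⟨i, hi⟩ t).2 rfl
    have b1 := hα (R.xG (D.simple i) t) _ t (G.simple_lt i hi) rfl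
    have b2 := hα (R.xG (D.neg (D.simple i)) t) _ t (G.neg_lt (G.simple_lt i hi)) rfl
    rw [h1, h2, Int.cast_one, one_mul] at b1
    rw [h3, h4, Int.cast_one, one_mul] at b2
    exact ⟨Subtype.ext (Units.ext (a1.trans b1.symm)), Subtype.ext (Units.ext (a2.trans b2.symm))⟩
  obtain ⟨h1, h2⟩ := hf.2 ⟨r, hr⟩
  refine ⟨(X.ε r : F), ?_, ?_⟩
  · rcases h2 with h | h <;> rw [h] <;> simp
  · intro g t hg
    have : φ g = α g := DFunLike.congr_fun key g
    rw [this, hα g r t hr hg, h1]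

end

end Cfsg.Agent.Chev
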