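import Cfsg.Agent.Chev.Thy1
import Cfsg.Prelude.Def_ChevAutomorphisms

/-!
# Characters of the root lattice and conjugation of the root elements by their diagonal matrices
-/

set_option autoImplicit false
set_option linter.unusedSectionVars false
set_option linter.unusedVariables false

namespace Cfsg.Agent.Chev
open Cfsg.Lie

variable {D : ChevalleyDatum}

/-- consecutive members of a chain differ by one step -/
noncomputable def stepOK (ent : ℕ → List (ℕ × ℤ)) (L : List (ℕ × ℤ)) : Bool :=
  List.rec (motive := fun _ => Bool) true
    (fun e L' ih => band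
      (List.casesOn (motive := fun _ => Bool) L' true
        (fun e' _ => List.casesOn (motive := fun _ => Bool) (ent e.1) false (fun f _ => Nat.beq f.1 e'.1))) ih) L

theorem stepOK_cons (ent : ℕ → List (ℕ × ℤ)) (e : ℕ × ℤ) (L' : List (ℕ × ℤ)) :
    stepOK ent (e :: L') = band
      (List.casesOn (motive := fun _ => Bool) L' true
        (fun e' _ => List.casesOn (motive := fun _ => Bool) (ent e.1) false (fun f _ => Nat.beq f.1 e'.1)))
      (stepOK ent L') := rfl

theorem stepOK_spec (ent : ℕ → List (ℕ × ℤ)) (L : List (ℕ × ℤ)) (h : stepOK ent L = true) (k : ℕ) (e e' : ℕ × ℤ)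
    (he : L[k]? = some e) (he' : L[k+1]? = some e') : ((ent e.1)[0]?).map Prod.fst = some e'.1 := by
  induction L generalizing k with
  | nil => simp at he
  | cons x L ih =>
    rw [stepOK_cons, band_eq_true] at h
    cases k with
    | zero =>
      simp only [List.getElem?_cons_zero, Option.some.injEq] at he
      subst he
      simp only [zero_add, List.getElem?_cons_succ] at he'
      cases L with
      | nil => simp at he'
      | cons y L =>
        simp only [List.getElem?_cons_zero, Option.some.injEq] at he'
        subst he'
        have h1 := h.1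
        cases hx : ent x.1 with
        | nil => rw [hx] at h1; cases h1
        | cons f _ =>
          rw [hx] at h1
          have h1 : Nat.beq f.1 y.1 = true := h1
          rw [nbeq_iff] at h1
          simp [h1]
    | succ k =>
      simp only [List.getElem?_cons_succ] at he he'
      exact ih h.2 k he he'

noncomputable def chkStep (P : Packed) (r : ℕ) : Bool :=
  allBelow (fun s => stepOK (P.acc.ent r) (P.acc.ent r s)) P.n

/-- the chains are made of single steps -/
def Step (D : ChevalleyDatum) : Prop :=
  ∀ r < D.nroots, ∀ s < D.nroots, ∀ (k : ℕ) (e e' : ℕ × ℤ), (D.chainEntry r s)[k]? = some e →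
    (D.chainEntry r s)[k+1]? = some e' → D.chainRoot r e.1 1 = some e'.1

theorem Step.ofChk {P : Packed} (hD : Fast D P) (h : ∀ r < P.n, chkStep P r = true) : Step D := by
  have hn : P.n = D.nroots := hD.bridge.nroots.symm
  have hacc : P.acc = acc D := hD.bridge.acc_eq.symm
  intro r hr s hs k e e' he he'
  have h1 := (allBelow_iff _ _).mp (h r (hn ▸ hr)) s (hn ▸ hs)
  rw [hacc] at h1
  exact stepOK_spec _ _ h1 k e e' he he'

section general
variable {A : Type*} [AddCommGroup A]

/-- additive functions on the roots with values in a commutative group -/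
structure AddFnA (D : ChevalleyDatum) (f : ℕ → A) : Prop where
  neg : ∀ r < D.nroots, f (D.neg r) = - f r
  ent : ∀ r < D.nroots, ∀ s < D.nroots, ∀ (k : ℕ) (e : ℕ × ℤ), (D.chainEntry r s)[k]? = some e →
    f e.1 = f s + (k + 1) • f r

def wtcA (l : ℕ) (f : ℕ → A) (key : ℕ) : A := if key < l then 0 else f (key - l)

theorem chainD_addA {f : ℕ → A} (l : ℕ) (L : List (ℕ × ℤ)) (e0 : ℕ) (a b : A)
    (h : ∀ (k : ℕ) (e : ℕ × ℤ), L[k]? = some e → f e.1 = a + (k + e0) • b) :
    ∀ x ∈ chainD l L e0, wtcA l f x.k = a + x.e • b := by
  induction L generalizing e0 with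
  | nil => simp [chainD_nil]
  | cons y L ih =>
    rw [chainD_cons]
    intro x hx
    rcases List.mem_cons.mp hx with rfl | h'
    · have := h 0 y (by simp)
      simp only [wtcA, Nat.add_eq]
      rw [if_neg (by omega), show l + y.1 - l = y.1 by omega, this]
      simp
    · apply ih (Nat.succ e0) _ x h'
      intro k e he
      have := h (k + 1) e (by simpa using he)
      rw [this]
      congr 2
      simp only [Nat.succ_eq_add_one]; omega

theorem hD_addA {f : ℕ → A} (l : ℕ) (H : ℕ → ℤ) (m : ℕ) (hm : m ≤ l) (rest : Desc) (a b : A) (hab : a + b = 0)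
    (h : ∀ x ∈ rest, wtcA l f x.k = a + x.e • b) : ∀ x ∈ hD H m rest, wtcA l f x.k = a + x.e • b := by
  induction m with
  | zero => exact h
  | succ m ih =>
    rw [hD_succ]
    intro x hx
    rcases List.mem_cons.mp hx with rfl | h'
    · simp only [wtcA]
      rw [if_pos (by omega)]
      simp [hab]
    · exact ih (by omega) x h'

theorem desc_addA {f : ℕ → A} (hf : AddFnA D f) (r : ℕ) (hr : r < D.nroots) (key : ℕ) :
    ∀ x ∈ (acc D).desc r key, wtcA D.rank f x.k = wtcA D.rank f key + x.e • f r := by
  unfold Acc.desc
  have hl : (acc D).l = D.rank := rfl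
  have hn : (acc D).n = D.nroots := rfl
  rw [hl, hn]
  cases h1 : nlt key D.rank with
  | true =>
    rw [bite_true]
    rw [nlt_iff] at h1
    cases decide ((acc D).A key r = 0) with
    | true => simp
    | false =>
      rw [bite_false]
      intro x hx
      rw [List.mem_singleton] at hx
      subst hx
      simp only [wtcA, Nat.add_eq]
      rw [if_neg (by omega), if_pos h1, show D.rank + r - D.rank = r by omega]
      simp
  | false =>
    rw [bite_false]
    rw [nlt_false_iff] at h1
    cases h2 : nlt key (Nat.add D.rank D.nroots) with
    | false => simp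
    | true =>
      rw [bite_true]
      rw [nlt_iff] at h2
      have h2 : key < D.rank + D.nroots := h2
      cases h3 : Nat.beq (Nat.sub key D.rank) r with
      | true => simp
      | false =>
        rw [bite_false]
        cases h4 : Nat.beq (Nat.sub key D.rank) ((acc D).neg r) with
        | true =>
          rw [bite_true]
          rw [nbeq_iff] at h4
          have h4 : key - D.rank = D.neg r := h4
          have e1 : wtcA D.rank f key = - f r := by
            simp only [wtcA]; rw [if_neg h1, h4, hf.neg r hr]
          rw [e1]
          apply hD_addA _ _ _ (le_refl _) _ _ _ (by abel)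
          intro x hx
          rw [List.mem_singleton] at hx
          subst hx
          simp only [wtcA, Nat.add_eq]
          rw [if_neg (by omega), show D.rank + r - D.rank = r by omega]
          abel
        | false =>
          rw [bite_false]
          have e1 : wtcA D.rank f key = f (key - D.rank) := by
            simp only [wtcA]; rw [if_neg h1]
          rw [e1]
          apply chainD_addA
          intro k e he
          exact hf.ent r hr (key - D.rank) (by omega) k e he

end general

section char
variable {F : Type*} [Field F]

theorem addFnA_of_char (G : Good D) (S : Step D) {χ : ℕ → Fˣ} (hχ : D.IsRootCharacter χ) :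
    AddFnA D (fun r => Additive.ofMul (χ r)) where
  neg := fun r hr => by
    rw [hχ.1 r hr]; rfl
  ent := fun r hr s hs k => by
    induction k with
    | zero =>
      intro e he
      have : D.chainRoot r s 1 = some e.1 := by
        unfold ChevalleyDatum.chainRoot
        simp [he]
      rw [hχ.2 r s e.1 hr hs this, ofMul_mul]
      simp [add_comm]
    | succ k ih =>
      intro e' he'
      have hlen : k + 1 < (D.chainEntry r s).length := by
        by_contra hc
        rw [List.getElem?_eq_none (by omega)] at he'
        cases he'
      have he : (D.chainEntry r s)[k]? = some ((D.chainEntry r s)[k]'(by omega)) :=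
        List.getElem?_eq_getElem (by omega)
      have h1 := S r hr s hs k _ e' he he'
      have h2 := ih _ he
      have h3 := (G.ent_add r hr s hs k _ he).1
      rw [hχ.2 r _ e'.1 hr h3 h1, ofMul_mul, h2]
      rw [succ_nsmul _ (k + 1)]
      abel

/-- the value of a character at a coordinate -/
def chI (D : ChevalleyDatum) (χ : ℕ → Fˣ) : D.Idx → Fˣ := Sum.elim (fun _ => 1) (fun s => χ s)

theorem wtcA_code (χ : ℕ → Fˣ) (a : D.Idx) :
    wtcA D.rank (fun r => Additive.ofMul (χ r)) (code a) = Additive.ofMul (chI D χ a) := by
  rcases a with i | s
  · simp [wtcA, code, chI]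
  · simp [wtcA, code, chI]

theorem charDiag_mul_x (G : Good D) (S : Step D) {χ : ℕ → Fˣ} (hχ : D.IsRootCharacter χ) (s : ℕ)
    (hs : s < D.nroots) (t : F) :
    D.charDiag F χ * D.x F s t = D.x F s ((χ s : F) * t) * D.charDiag F χ := by
  have hcd : D.charDiag F χ = Matrix.diagonal (fun a => ((chI D χ a : Fˣ) : F)) := by
    unfold ChevalleyDatum.charDiag
    congr 1
    funext a
    rcases a with i | s <;> simp [chI]
  rw [hcd]
  ext row col
  rw [Matrix.diagonal_mul, Matrix.mul_diagonal, x_apply D G.wf s hs, x_apply D G.wf s hs, mul_add, add_mul]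
  congr 1
  · by_cases h : code col = code row
    · rw [if_pos h, code_injective h]; ring
    · rw [if_neg h]; ring
  · apply dsum_scale
    intro e he hk
    have := desc_addA (addFnA_of_char G S hχ) s hs (code col) e he
    rw [hk, wtcA_code, wtcA_code] at this
    have h2 : chI D χ row = chI D χ col * χ s ^ e.e := by
      apply Additive.ofMul.injective
      rw [this, ofMul_mul, ofMul_pow]
    rw [h2, mul_pow]
    push_cast
    ring

end char

end Cfsg.Agent.Chev
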