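import Cfsg.Agent.Chev.Card

/-!
# The order formula
-/

set_option autoImplicit false
set_option linter.unusedSectionVars false
set_option linter.unusedVariables false

namespace Cfsg.Agent.Chev
open Cfsg.Lie
open scoped MatrixGroups

variable {D : ChevalleyDatum} {G : Good D} {F : Type*} [Field F]

theorem Rels.order_formula (R : Rels D G F) (G2 : Good2 D) [Fintype F] {q dd l N : ℕ} (hq : Fintype.card F = q)
    (hN : D.nroots / 2 = N)
    (hH : dd * Nat.card (D.diagonalSubgroup F) = (q - 1) ^ l) {Rz : ℤ}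
    (hP : ((G.psum G.W q : ℕ) : ℤ) * ((q : ℤ) - 1) ^ l = Rz) :
    ((dd * Nat.card (D.group F) : ℕ) : ℤ) = (q : ℤ) ^ N * Rz := by
  have hq1 : 1 ≤ q := by rw [← hq]; exact Fintype.card_pos
  have h1 : dd * Nat.card (D.group F) = q ^ N * ((q - 1) ^ l * G.psum G.W q) := by
    rw [R.card_group G2, R.card_B G2, hq, hN, ← hH]; ring
  rw [h1, ← hP]
  push_cast [Nat.cast_sub hq1]
  ring

theorem cast_pow_sub_one {q : ℕ} (hq1 : 1 ≤ q) (d : ℕ) : ((q ^ d - 1 : ℕ) : ℤ) = (q : ℤ) ^ d - 1 := by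
  rw [Nat.cast_sub (Nat.one_le_pow _ _ hq1)]
  simp

end Cfsg.Agent.Chev
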