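import Cfsg.Agent.Chev.Para

/-!
# Levi decomposition and the normalizer of the unipotent radical
-/

set_option autoImplicit false

namespace Cfsg.Agent.Chev
open Cfsg.Lie

section level
variable {I : Type*} [Fintype I] [DecidableEq I] {F : Type*} [Field F]

/-- matrices preserving a grading -/
def Lv (w : I → ℤ) (M : Matrix I I F) : Prop := ∀ i j, M i j ≠ 0 → w i = w j

theorem Lv.one (w : I → ℤ) : Lv w (1 : Matrix I I F) := by
  intro i j h
  by_cases hij : i = j
  · rw [hij]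
  · exact absurd (Matrix.one_apply_ne hij) h

theorem Lv.mul {w : I → ℤ} {M N : Matrix I I F} (hM : Lv w M) (hN : Lv w N) : Lv w (M * N) := by
  intro i j h
  rw [Matrix.mul_apply] at h
  obtain ⟨k, _, hk⟩ := Finset.exists_ne_zero_of_sum_ne_zero h
  rw [hM i k (left_ne_zero_of_mul hk), hN k j (right_ne_zero_of_mul hk)]

/-- the invertible matrices preserving a grading -/
def LvGrp (F : Type*) [Field F] (w : I → ℤ) : Subgroup (GL I F) where
  carrier := {g | Lv w (g : Matrix I I F) ∧ Lv w ((g⁻¹ : GL I F) : Matrix I I F)}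
  one_mem' := ⟨by rw [Units.val_one]; exact Lv.one w, by rw [inv_one, Units.val_one]; exact Lv.one w⟩
  mul_mem' := by
    rintro a b ⟨ha, ha'⟩ ⟨hb, hb'⟩
    exact ⟨by rw [Units.val_mul]; exact ha.mul hb, by rw [_root_.mul_inv_rev, Units.val_mul]; exact hb'.mul ha'⟩
  inv_mem' := by
    rintro a ⟨ha, ha'⟩
    exact ⟨ha', by rw [inv_inv]; exact ha⟩

/-- matrices strictly raising a grading -/
def Up (w : I → ℤ) (M : Matrix I I F) : Prop := ∀ i j, M i j ≠ 0 → w j < w i

theorem Up.add {w : I → ℤ} {M N : Matrix I I F} (hM : Up w M) (hN : Up w N) : Up w (M + N) := by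
  intro i j h
  by_cases h1 : M i j = 0
  · apply hN
    rwa [Matrix.add_apply, h1, zero_add] at h
  · exact hM i j h1

theorem Up.mul {w : I → ℤ} {M N : Matrix I I F} (hM : Up w M) (hN : Up w N) : Up w (M * N) := by
  intro i j h
  rw [Matrix.mul_apply] at h
  obtain ⟨k, _, hk⟩ := Finset.exists_ne_zero_of_sum_ne_zero h
  exact lt_trans (hN k j (right_ne_zero_of_mul hk)) (hM i k (left_ne_zero_of_mul hk))

theorem Up.sub_one_mul {w : I → ℤ} {M N : Matrix I I F} (hM : Up w (M - 1)) (hN : Up w (N - 1)) :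
    Up w (M * N - 1) := by
  have : M * N - 1 = (M - 1) * (N - 1) + ((M - 1) + (N - 1)) := by noncomm_ring
  rw [this]
  exact (hM.mul hN).add (hM.add hN)

/-- the invertible matrices `g` with `g - 1` strictly raising a grading -/
def UpGrp (F : Type*) [Field F] (w : I → ℤ) : Subgroup (GL I F) where
  carrier := {g | Up w ((g : Matrix I I F) - 1) ∧ Up w (((g⁻¹ : GL I F) : Matrix I I F) - 1)}
  one_mem' := by
    constructor
    · rw [Units.val_one, sub_self]; intro i j h; exact absurd rfl h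
    · rw [inv_one, Units.val_one, sub_self]; intro i j h; exact absurd rfl h
  mul_mem' := by
    rintro a b ⟨ha, ha'⟩ ⟨hb, hb'⟩
    exact ⟨by rw [Units.val_mul]; exact ha.sub_one_mul hb,
      by rw [_root_.mul_inv_rev, Units.val_mul]; exact hb'.sub_one_mul ha'⟩
  inv_mem' := by
    rintro a ⟨ha, ha'⟩
    exact ⟨ha', by rw [inv_inv]; exact ha⟩

theorem UpGrp_inf_LvGrp (w : I → ℤ) : UpGrp F w ⊓ LvGrp F w = ⊥ := by
  rw [eq_bot_iff]
  rintro g ⟨h1, h2⟩
  rw [Subgroup.mem_bot]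
  apply Units.ext
  ext i j
  by_contra hne
  have h3 : ((g : Matrix I I F) - 1) i j ≠ 0 := by
    rw [Matrix.sub_apply]
    exact sub_ne_zero.mpr hne
  have h4 := h1.1 i j h3
  by_cases hij : i = j
  · subst hij; omega
  · have h5 : (g : Matrix I I F) i j ≠ 0 := by
      rwa [Matrix.sub_apply, Matrix.one_apply_ne hij, sub_zero] at h3
    have := h2.1 i j h5
    omega

end level

variable {D : ChevalleyDatum} {G : Good D} {F : Type*} [Field F]

namespace Rels
variable (R : Rels D G F)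
include R

theorem xg_mem_Lv {f : ℕ → ℤ} (hf : AddFn D f) {r : ℕ} (hr : r < D.nroots) (h0 : f r = 0) (t : F) :
    R.xg r t ∈ LvGrp F (wtI D f) := by
  have key : ∀ t : F, Lv (wtI D f) (D.x F r t) := by
    intro t i j h
    rcases x_support G hf r hr t i j h with h1 | ⟨e, _, h1⟩
    · rw [h1]
    · rw [h1, h0]; ring
  refine ⟨key t, ?_⟩
  rw [R.xg_inv]
  exact key (-t)

theorem xg_mem_Up {f : ℕ → ℤ} (hf : AddFn D f) {r : ℕ} (hr : r < D.nroots) (h0 : 0 < f r) (t : F) :
    R.xg r t ∈ UpGrp F (wtI D f) := by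
  have key : ∀ t : F, Up (wtI D f) (D.x F r t - 1) := by
    intro t i j h
    by_cases hij : i = j
    · subst hij
      rw [Matrix.sub_apply, x_diag G, Matrix.one_apply_eq, sub_self] at h
      exact absurd rfl h
    · rw [Matrix.sub_apply, Matrix.one_apply_ne hij, sub_zero] at h
      rcases x_support G hf r hr t i j h with h1 | ⟨e, he, h1⟩
      · exact absurd h1 hij
      · rw [h1]
        have : (1 : ℤ) ≤ e := by exact_mod_cast he
        nlinarith
  refine ⟨key t, ?_⟩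
  rw [R.xg_inv]
  exact key (-t)

theorem Tor_le_Lv (w : D.Idx → ℤ) : R.Tor ≤ LvGrp F w := by
  have key : ∀ g, R.IsTor g → Lv w (g : Matrix D.Idx D.Idx F) := by
    rintro g hg i j h
    by_cases hij : i = j
    · rw [hij]
    · exact absurd (IsTor.offdiag R hg i j hij) h
  intro g hg
  exact ⟨key g hg, key _ (IsTor.inv R hg)⟩

theorem UJ_le_Up (J : Set ℕ) : UU D F (G.pU J) ≤ UpGrp F (wtI D (G.fJ J)) :=
  R.UU_le (fun s hs u => R.xg_mem_Up (G.fJ_addFn J) hs.1 hs.2 u)

theorem LJ_le_Lv (J : Set ℕ) : D.diagonalSubgroup F ⊔ UU D F (G.pL J) ≤ LvGrp F (wtI D (G.fJ J)) :=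
  sup_le (R.H_le_Tor.trans (R.Tor_le_Lv _)) (R.UU_le (fun s hs u => R.xg_mem_Lv (G.fJ_addFn J) hs.1 hs.2 u))

theorem UJ_inf_LJ (J : Set ℕ) : UU D F (G.pU J) ⊓ (D.diagonalSubgroup F ⊔ UU D F (G.pL J)) = ⊥ := by
  rw [eq_bot_iff, ← UpGrp_inf_LvGrp (F := F) (wtI D (G.fJ J))]
  exact inf_le_inf (R.UJ_le_Up J) (R.LJ_le_Lv J)

/-- a root element of level zero normalizes the unipotent radical -/
theorem xg_normalizes_UJ (J : Set ℕ) {r : ℕ} (hr : G.pL J r) (t : F) :
    R.xg r t ∈ Subgroup.normalizer (UU D F (G.pU J) : Set (GL D.Idx F)) := by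
  apply R.xg_normalizes (G.pU J) r hr.1
  rintro s ⟨hs, hpos⟩
  refine ⟨hs, ?_, ?_, ?_⟩
  · rintro rfl
    have := hr.2
    omega
  · rintro rfl
    rw [(G.fJ_addFn J).neg r hr.1, hr.2] at hpos
    omega
  · intro c hc
    obtain ⟨h1, h2, h3, h4⟩ := commTerms_add G (G.fJ_addFn J) hr.1 hs c hc
    refine ⟨h1, ?_⟩
    rw [h4, hr.2, mul_zero, zero_add]
    have : (1 : ℤ) ≤ c.2.2.2 := by exact_mod_cast h3
    nlinarith

theorem P_le_normalizer (J : Set ℕ) :
    D.parabolicSubgroup F J ≤ Subgroup.normalizer (UU D F (G.pU J) : Set (GL D.Idx F)) := by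
  apply R.P_le
  · apply sup_le
    · rw [← UU_pos]
      apply R.UU_le
      intro s hs u
      obtain ⟨h1, h2⟩ := (G.isPosRoot_iff s).mp hs
      rcases (G.fJ_nonneg J h2 h1).eq_or_lt with h | h
      · exact R.xg_normalizes_UJ J ⟨h2, h.symm⟩ u
      · exact Subgroup.le_normalizer (R.xg_mem_UU (p := G.pU J) ⟨h2, h⟩ u)
    · intro g hg
      exact R.Tor_normalizes (G.pU J) (R.H_le_Tor hg)
  · intro j hj hJ
    have : UU D F (G.pL J) ≤ Subgroup.normalizer (UU D F (G.pU J) : Set (GL D.Idx F)) :=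
      R.UU_le (fun s hs u => R.xg_normalizes_UJ J hs u)
    exact this (R.nj_mem_UU J hj hJ)

theorem UJ_sup_LJ (hd : Descent D) (J : Set ℕ) :
    UU D F (G.pU J) ⊔ (D.diagonalSubgroup F ⊔ UU D F (G.pL J)) = D.parabolicSubgroup F J := by
  apply le_antisymm
  · rw [R.P_eq hd J]
    apply sup_le
    · exact le_trans (UU_mono (fun s hs => ⟨hs.1, hs.2.le⟩)) le_sup_right
    · exact sup_le_sup_left (UU_mono (fun s hs => ⟨hs.1, hs.2.ge⟩)) _
  · rw [R.P_eq hd J]
    apply sup_le (le_trans le_sup_left le_sup_right)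
    apply R.UU_le
    rintro s ⟨h1, h2⟩ u
    rcases h2.eq_or_lt with h | h
    · exact Subgroup.mem_sup_right (Subgroup.mem_sup_right (R.xg_mem_UU (p := G.pL J) ⟨h1, h.symm⟩ u))
    · exact Subgroup.mem_sup_left (R.xg_mem_UU (p := G.pU J) ⟨h1, h⟩ u)

theorem P_le_group (J : Set ℕ) : D.parabolicSubgroup F J ≤ D.group F :=
  R.P_le R.B_le_group (fun j hj _ => R.N_le_group (R.ng_mem_N (G.simple_lt j hj)))

/-- a nontrivial root element in the unipotent radical has positive level -/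
theorem level_pos_of_mem (J : Set ℕ) {s : ℕ} (hs : s < D.nroots) {c : F} (hc : c ≠ 0)
    (h : R.xg s c ∈ UU D F (G.pU J)) : 0 < G.fJ J s := by
  by_contra hle
  rcases (not_lt.mp hle).eq_or_lt with h0 | h0
  · have : R.xg s c ∈ UU D F (G.pU J) ⊓ (D.diagonalSubgroup F ⊔ UU D F (G.pL J)) :=
      ⟨h, Subgroup.mem_sup_right (R.xg_mem_UU (p := G.pL J) ⟨hs, h0⟩ c)⟩
    rw [R.UJ_inf_LJ, Subgroup.mem_bot, R.xg_eq_one_iff hs] at this
    exact hc this
  · have hneg : s < D.nroots / 2 := by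
      by_contra hp
      have := G.fJ_nonneg J hs (not_lt.mp hp)
      omega
    have hU : UU D F (G.pU J) ≤ D.posUnipotent F := by
      rw [← UU_pos]
      exact UU_mono (fun r hr => ((G.posNotJ_iff J r).mpr hr).1)
    have : R.xg s c ∈ D.borelSubgroup F ⊓ D.negUnipotent F := ⟨R.U_le_B (hU h), R.xg_mem_V _ hneg _⟩
    rw [R.B_inf_V, Subgroup.mem_bot, R.xg_eq_one_iff hs] at this
    exact hc this

theorem mono_mem_P (G2 : Good2 D) (J : Set ℕ) (k : ℕ) : ∀ σ ∈ G.W, G.nn σ = k →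
    (∀ r : Fin D.nroots, 0 < G.fJ J r → 0 < G.fJ J (σ r)) → ∀ n ∈ D.monomialSubgroup F, R.IsMono n σ →
    n ∈ D.parabolicSubgroup F J := by
  induction k with
  | zero =>
    intro σ hσ hk _ n hn hm
    have := R.W_eq_one G2 hσ hk
    subst this
    exact R.B_le_P J (R.H_le_B (R.mono_one_mem_H G2 hn hm))
  | succ k ih =>
    intro σ hσ hk hpres n hn hm
    obtain ⟨i, hi, hneg⟩ := G.exists_simple_neg hσ (by omega)
    have hiJ : i ∈ J := by
      by_contra hJ
      have h1 : 0 < G.fJ J (G.sF i hi) := by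
        show 0 < G.fJ J (D.simple i)
        rw [G.fJ_simple J hi, if_neg hJ]; norm_num
      have h2 := hpres _ h1
      have h3 := ((G.posNotJ_iff J _).mpr ⟨(σ (G.sF i hi)).2, h2⟩).1
      have := ((G.isPosRoot_iff _).mp h3).1
      omega
    have h1 := G.nn_mul_refl hσ i hi
    rw [if_pos hneg, if_neg (by omega)] at h1
    set ni := R.ng (D.simple i) 1 with hni
    have hn' : R.IsMono (n * ni⁻¹) (σ * G.wP i hi) := IsMono.mul R hm (IsMono.inv R (IsMono.ni R hi))
    have hniN : ni ∈ D.monomialSubgroup F := R.ng_mem_N (G.simple_lt i hi)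
    have h2 := ih (σ * G.wP i hi) (Subgroup.mul_mem _ hσ (G.wP_mem i hi)) (by omega) (by
      intro r hr
      rw [Equiv.Perm.mul_apply]
      apply hpres
      rw [G.wP_apply, G.fJ_refl J hi hiJ r.2]
      exact hr) (n * ni⁻¹) (Subgroup.mul_mem _ hn (Subgroup.inv_mem _ hniN)) hn'
    have : n = n * ni⁻¹ * ni := by group
    rw [this]
    exact Subgroup.mul_mem _ h2 (R.nj_mem_P J hi hiJ)

theorem normalizer_UJ (G2 : Good2 D) (J : Set ℕ) :
    Subgroup.normalizer (UU D F (G.pU J) : Set (GL D.Idx F)) ⊓ D.group F = D.parabolicSubgroup F J := by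
  apply le_antisymm
  · rintro g ⟨h1, h2⟩
    obtain ⟨n, hn, b, hb, b', hb', rfl⟩ := R.bruhat_GL G2 h2
    have hbN := R.P_le_normalizer J (R.B_le_P J hb)
    have hbN' := R.P_le_normalizer J (R.B_le_P J hb')
    have hnN : n ∈ Subgroup.normalizer (UU D F (G.pU J) : Set (GL D.Idx F)) := by
      have : n = b⁻¹ * (b * n * b') * b'⁻¹ := by group
      rw [this]
      exact Subgroup.mul_mem _ (Subgroup.mul_mem _ (Subgroup.inv_mem _ hbN) h1) (Subgroup.inv_mem _ hbN')
    obtain ⟨σ, hσ, hm⟩ := R.N_mono G2 hn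
    have hP := R.mono_mem_P G2 J _ σ hσ rfl (by
      intro r hr
      obtain ⟨c, hc, e⟩ := hm.conj r
      have h3 : R.xg r 1 ∈ UU D F (G.pU J) := R.xg_mem_UU (p := G.pU J) ⟨r.2, hr⟩ 1
      have h4 := (Subgroup.mem_normalizer_iff.mp hnN _).mp h3
      rw [e 1, mul_one] at h4
      exact R.level_pos_of_mem J (σ r).2 hc h4) n hn hm
    exact Subgroup.mul_mem _ (Subgroup.mul_mem _ (R.B_le_P J hb) hP) (R.B_le_P J hb')
  · exact le_inf (R.P_le_normalizer J) (R.P_le_group J)

end Rels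

end Cfsg.Agent.Chev
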