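import Cfsg.Agent.Chev.Card

/-!
# The Poincaré sum of the Weyl group, one fundamental coweight at a time
-/

set_option autoImplicit false
set_option linter.unusedSectionVars false
set_option linter.unusedVariables false

namespace Cfsg.Agent.Chev
open Cfsg.Lie

variable {D : ChevalleyDatum}

/-- the elements of the Weyl group fixing the coordinates in `L` -/
def Good.WL (G : Good D) (L : List ℕ) : Subgroup (Equiv.Perm (Fin D.nroots)) where
  carrier := {σ | σ ∈ G.W ∧ ∀ j ∈ L, j < D.rank → ∀ r : Fin D.nroots, G.rc (σ r) j = G.rc r j}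
  one_mem' := ⟨Subgroup.one_mem _, fun _ _ _ _ => rfl⟩
  mul_mem' := by
    rintro a b ⟨ha, ha'⟩ ⟨hb, hb'⟩
    exact ⟨Subgroup.mul_mem _ ha hb, fun j hj hj' r => by rw [Equiv.Perm.mul_apply, ha' j hj hj', hb' j hj hj']⟩
  inv_mem' := by
    rintro a ⟨ha, ha'⟩
    refine ⟨Subgroup.inv_mem _ ha, fun j hj hj' r => ?_⟩
    have := ha' j hj hj' (a⁻¹ r)
    rw [perm_apply_inv] at this
    exact this.symm

theorem Good.wP_mem_WL (G : Good D) (L : List ℕ) (j : ℕ) (hj : j < D.rank) (hL : j ∉ L) : G.wP j hj ∈ G.WL L := by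
  refine ⟨G.wP_mem j hj, fun k hk hk' r => ?_⟩
  rw [G.wP_apply, G.rc_refl j hj r r.2 k hk', if_neg (fun e : j = k => hL (by rw [e]; exact hk)), sub_zero]

theorem Good.wP_mul_self (G : Good D) (j : ℕ) (hj : j < D.rank) : G.wP j hj * G.wP j hj = 1 := by
  calc G.wP j hj * G.wP j hj = (G.wP j hj)⁻¹ * G.wP j hj := by rw [G.wP_inv]
    _ = 1 := inv_mul_cancel _

theorem Good.WL_simple_pos (G : Good D) {L : List ℕ} {σ : Equiv.Perm (Fin D.nroots)} (hσ : σ ∈ G.WL L) {j : ℕ}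
    (hj : j < D.rank) (hL : j ∈ L) : D.nroots / 2 ≤ (σ (G.sF j hj) : ℕ) := by
  apply G.pos_of_coord (σ _).2 hj
  rw [hσ.2 j hL hj]
  show 0 < G.rc (D.simple j) j
  rw [G.rc_simple j hj j hj, if_pos rfl]; norm_num

theorem Good.WL_ind (G : Good D) (hZ : ∀ σ ∈ G.W, G.nn σ = 0 → σ = 1) (L : List ℕ)
    {p : Equiv.Perm (Fin D.nroots) → Prop} (one : p 1)
    (mul : ∀ j (hj : j < D.rank), j ∉ L → ∀ σ ∈ G.WL L, p σ → p (σ * G.wP j hj)) : ∀ σ ∈ G.WL L, p σ := by
  have key : ∀ k, ∀ σ ∈ G.WL L, G.nn σ = k → p σ := by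
    intro k
    induction k with
    | zero =>
      intro σ hσ hk
      rw [hZ σ hσ.1 hk]; exact one
    | succ k ih =>
      intro σ hσ hk
      obtain ⟨i, hi, hneg⟩ := G.exists_simple_neg hσ.1 (by omega)
      have hiL : i ∉ L := by
        intro h
        have := G.WL_simple_pos hσ hi h
        omega
      have h1 := G.nn_mul_refl hσ.1 i hi
      rw [if_pos hneg, if_neg (by omega)] at h1
      have h2 := Subgroup.mul_mem _ hσ (G.wP_mem_WL L i hi hiL)
      have h3 := mul i hi hiL _ h2 (ih _ h2 (by omega))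
      rwa [mul_assoc, G.wP_mul_self, mul_one] at h3
  exact fun σ hσ => key _ σ hσ rfl

theorem Good.lt_half_of_rc_neg (G : Good D) {x i : ℕ} (hx : x < D.nroots) (hi : i < D.rank) (h : G.rc x i < 0) :
    x < D.nroots / 2 := by
  by_contra h1
  have := (G.rc_sign x hx i hi).1 (by omega)
  omega

/-- the length of `u ρ` -/
theorem Good.nn_mul (G : Good D) {L : List ℕ} {i : ℕ} (hi : i < D.rank) {u ρ : Equiv.Perm (Fin D.nroots)}
    (hu : u ∈ G.WL (i :: L)) (hρ : ρ ∈ G.W) {c : ℕ → ℤ} {d : ℕ}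
    (h1 : ∀ r : Fin D.nroots, G.rc (ρ r) i = G.lin c r)
    (h2 : ∀ s : Fin D.nroots, D.nroots / 2 ≤ (s : ℕ) → G.rc s i = 0 → D.nroots / 2 ≤ (ρ⁻¹ s : ℕ))
    (h3 : G.cnt (fun r => G.lin c r) = d) : G.nn (u * ρ) = d + G.nn u := by
  classical
  have hfix : ∀ r : Fin D.nroots, G.rc (u r) i = G.rc r i := hu.2 i List.mem_cons_self hi
  unfold Good.nn Good.cnt
  rw [← Finset.card_filter_add_card_filter_not (s := G.posF.filter (fun r => G.ht ((u * ρ) r) < 0))
    (fun r => G.rc (ρ r) i < 0)]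
  congr 1
  · rw [← h3]
    unfold Good.cnt
    congr 1
    ext r
    simp only [Finset.mem_filter]
    simp only [Equiv.Perm.mul_apply]
    constructor
    · rintro ⟨⟨a, _⟩, b⟩
      exact ⟨a, by rw [← h1]; exact b⟩
    · rintro ⟨a, b⟩
      rw [← h1] at b
      refine ⟨⟨a, ?_⟩, b⟩
      rw [G.ht_neg_iff (u (ρ r)).2]
      apply G.lt_half_of_rc_neg (u (ρ r)).2 hi
      rw [hfix]; exact b
  · apply Finset.card_bij (fun r _ => ρ r)
    · intro r hr
      simp only [Finset.mem_filter] at hr ⊢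
      simp only [Equiv.Perm.mul_apply, G.mem_posF, not_lt] at hr ⊢
      obtain ⟨⟨a, b⟩, c'⟩ := hr
      refine ⟨?_, b⟩
      rw [G.ht_neg_iff (u (ρ r)).2] at b
      have e1 := (G.rc_sign _ (u (ρ r)).2 i hi).2 b
      rw [hfix] at e1
      have e2 : G.rc (ρ r) i = 0 := le_antisymm e1 c'
      by_contra hlt
      have e3 := G.half_le_neg (r := ρ r) (by omega)
      have e4 := h2 (G.negF (ρ r)) e3 (by
        show G.rc (D.neg (ρ r)) i = 0
        rw [G.rc_neg _ (ρ r).2 i hi, e2, neg_zero])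
      rw [G.W_neg (Subgroup.inv_mem _ hρ), show ρ⁻¹ (ρ r) = r from ρ.symm_apply_apply r] at e4
      have e5 := G.neg_lt_half r.2 a
      simp only [Good.negF] at e4
      omega
    · intro a _ b _ h
      exact ρ.injective h
    · intro s hs
      simp only [Finset.mem_filter, G.mem_posF] at hs
      obtain ⟨a, b⟩ := hs
      have b' := (G.ht_neg_iff (u s).2).mp b
      have e1 := (G.rc_sign _ (u s).2 i hi).2 b'
      rw [hfix] at e1
      have e2 : G.rc s i = 0 := le_antisymm e1 ((G.rc_sign _ s.2 i hi).1 a)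
      refine ⟨ρ⁻¹ s, ?_, perm_apply_inv ρ s⟩
      simp only [Finset.mem_filter]
      simp only [Equiv.Perm.mul_apply, G.mem_posF, not_lt, perm_apply_inv]
      exact ⟨⟨h2 s a e2, b⟩, e2.ge⟩

/-- `c` is the image of the `i`-th coordinate function under an element `ρ` that is as short as possible -/
def Good.Rep (G : Good D) (L : List ℕ) (i : ℕ) (c : ℕ → ℤ) (d : ℕ) : Prop :=
  ∃ ρ ∈ G.WL L, (∀ r : Fin D.nroots, G.rc (ρ r) i = G.lin c r) ∧
    (∀ s : Fin D.nroots, D.nroots / 2 ≤ (s : ℕ) → G.rc s i = 0 → D.nroots / 2 ≤ (ρ⁻¹ s : ℕ)) ∧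
    G.cnt (fun r => G.lin c r) = d

theorem Good.lin_base (G : Good D) {i : ℕ} (hi : i < D.rank) {c : ℕ → ℤ}
    (hc : ∀ k < D.rank, c k = if k = i then 1 else 0) (r : ℕ) : G.lin c r = G.rc r i := by
  unfold Good.lin
  rw [Finset.sum_eq_single i]
  · rw [hc i hi, if_pos rfl, mul_one]
  · intro j hj hji
    rw [hc j (Finset.mem_range.mp hj), if_neg hji, mul_zero]
  · intro h; exact absurd (Finset.mem_range.mpr hi) h

theorem Good.Rep_base (G : Good D) (L : List ℕ) {i : ℕ} (hi : i < D.rank) {c : ℕ → ℤ}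
    (hc : ∀ k < D.rank, c k = if k = i then 1 else 0) : G.Rep L i c 0 := by
  refine ⟨1, Subgroup.one_mem _, fun r => (G.lin_base hi hc r).symm, fun s hs _ => hs, ?_⟩
  unfold Good.cnt
  rw [Finset.card_eq_zero, Finset.filter_eq_empty_iff]
  intro r hr
  show ¬ G.lin c r < 0
  rw [G.lin_base hi hc, not_lt]
  exact (G.rc_sign r r.2 i hi).1 ((G.mem_posF r).mp hr)

theorem Good.Rep_step (G : Good D) {L : List ℕ} {i : ℕ} (hi : i < D.rank) {c c' : ℕ → ℤ} {d : ℕ}
    (h : G.Rep L i c d) {j : ℕ} (hj : j < D.rank) (hL : j ∉ L) (hpos : 0 < c j)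
    (hc : ∀ k < D.rank, c' k = rv D j c k) : G.Rep L i c' (d + 1) := by
  obtain ⟨ρ, hρ, h1, h2, h3⟩ := h
  have hlin : ∀ r : Fin D.nroots, G.lin c' r = G.lin c (G.wP j hj r) := by
    intro r
    rw [G.lin_congr hc, G.wP_apply, G.lin_refl j hj c r r.2]
  refine ⟨ρ * G.wP j hj, Subgroup.mul_mem _ hρ (G.wP_mem_WL L j hj hL), ?_, ?_, ?_⟩
  · intro r
    rw [Equiv.Perm.mul_apply, h1, hlin]
  · intro s hs hs0
    rw [mul_inv_rev, G.wP_inv, Equiv.Perm.mul_apply, G.wP_apply]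
    have h4 := h2 s hs hs0
    refine (G.refl_pos hj (ρ⁻¹ s).2 h4 ?_).1
    intro e
    have e1 : ρ⁻¹ s = G.sF j hj := Fin.ext e
    have e2 := h1 (ρ⁻¹ s)
    rw [perm_apply_inv, hs0, e1] at e2
    have e3 : G.lin c (G.sF j hj) = c j := G.lin_simple c j hj
    rw [e3] at e2
    omega
  · have h5 := G.cnt_refl j hj (fun r => G.lin c r) ((G.lin_addFn c).neg _ (G.simple_lt j hj))
    have e3 : G.lin c (G.sF j hj) = c j := G.lin_simple c j hj
    simp only [e3] at h5
    rw [if_neg (by omega), if_pos hpos, h3, add_zero] at h5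
    rw [← h5]
    congr 1
    funext r
    exact hlin r

end Cfsg.Agent.Chev
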