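import Cfsg.Agent.Chev.Poin

/-!
# Orbit tables for the Poincaré sum
-/

set_option autoImplicit false
set_option linter.unusedSectionVars false
set_option linter.unusedVariables false

namespace Cfsg.Agent.Chev
open Cfsg.Lie

variable {D : ChevalleyDatum}

/-- an entry of an orbit table: the vector, its depth, the direction of its parent, the indices of its neighbours -/
structure OEnt where
  v : List ℤ
  d : ℕ
  pj : ℕ
  nb : List ℕ

def vf (v : List ℤ) : ℕ → ℤ := fun k => v.getD k 0

def rvL (l : ℕ) (C : ℕ → ℕ → ℤ) (j : ℕ) (v : List ℤ) : List ℤ :=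
  (List.range l).map fun k => v.getD k 0 - C j k * v.getD j 0

def baseL (l i : ℕ) : List ℤ := (List.range l).map fun k => if k = i then 1 else 0

def chkEntO (l : ℕ) (C : ℕ → ℕ → ℤ) (L : List ℕ) (i : ℕ) (O : List OEnt) (e : OEnt) : Bool :=
  (List.range l).all (fun j => L.contains j || (match O[e.nb.getD j 0]? with
      | some e' => decide (e'.v = rvL l C j e.v)
      | none => false)) &&
  (if e.d = 0 then decide (e.v = baseL l i) else
    match O[e.nb.getD e.pj 0]? with
    | some e' => decide (e.pj < l) && !L.contains e.pj && decide (e.d = e'.d + 1) &&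
        decide (0 < e'.v.getD e.pj 0) && decide (e.v = rvL l C e.pj e'.v)
    | none => false)

def chkOrb (l : ℕ) (C : ℕ → ℕ → ℤ) (L : List ℕ) (i : ℕ) (O : List OEnt) : Bool :=
  O.all (chkEntO l C L i O) && (match O.head? with | some e => decide (e.v = baseL l i) | none => false) &&
    decide ((O.map (·.v)).Nodup)

structure OrbOK (l : ℕ) (C : ℕ → ℕ → ℤ) (L : List ℕ) (i : ℕ) (O : List OEnt) : Prop where
  nbr : ∀ e ∈ O, ∀ j < l, j ∉ L → ∃ e' ∈ O, e'.v = rvL l C j e.v
  par : ∀ e ∈ O, (e.d = 0 ∧ e.v = baseL l i) ∨ (∃ e' ∈ O, e.pj < l ∧ e.pj ∉ L ∧ e.d = e'.d + 1 ∧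
    0 < e'.v.getD e.pj 0 ∧ e.v = rvL l C e.pj e'.v)
  base : ∃ e ∈ O, e.v = baseL l i
  nodup : (O.map (·.v)).Nodup

theorem OrbOK.of_chk {l : ℕ} {C : ℕ → ℕ → ℤ} {L : List ℕ} {i : ℕ} {O : List OEnt}
    (h : chkOrb l C L i O = true) : OrbOK l C L i O := by
  unfold chkOrb at h
  rw [Bool.and_eq_true, Bool.and_eq_true, List.all_eq_true, decide_eq_true_eq] at h
  obtain ⟨⟨h1, h2⟩, h3⟩ := h
  refine ⟨?_, ?_, ?_, h3⟩
  · intro e he j hj hjL
    have := h1 e he
    unfold chkEntO at this
    rw [Bool.and_eq_true, List.all_eq_true] at this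
    have h4 := this.1 j (List.mem_range.mpr hj)
    rw [Bool.or_eq_true] at h4
    rcases h4 with h4 | h4
    · exact absurd (List.contains_iff_mem.mp h4) hjL
    · cases hO : O[e.nb.getD j 0]? with
      | none => rw [hO] at h4; exact absurd h4 (by simp)
      | some e' =>
        rw [hO] at h4
        exact ⟨e', List.mem_of_getElem? hO, of_decide_eq_true h4⟩
  · intro e he
    have := h1 e he
    unfold chkEntO at this
    rw [Bool.and_eq_true] at this
    have h4 := this.2
    by_cases hd : e.d = 0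
    · rw [if_pos hd] at h4
      exact Or.inl ⟨hd, of_decide_eq_true h4⟩
    · rw [if_neg hd] at h4
      right
      cases hO : O[e.nb.getD e.pj 0]? with
      | none => rw [hO] at h4; exact absurd h4 (by simp)
      | some e' =>
        rw [hO] at h4
        simp only [Bool.and_eq_true, decide_eq_true_eq, Bool.not_eq_true', ] at h4
        obtain ⟨⟨⟨⟨a, b⟩, c⟩, d⟩, f⟩ := h4
        refine ⟨e', List.mem_of_getElem? hO, a, ?_, c, d, f⟩
        intro hm
        rw [List.contains_iff_mem.mpr hm] at b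
        exact absurd b (by simp)
  · cases hO : O.head? with
    | none => rw [hO] at h2; exact absurd h2 (by simp)
    | some e =>
      rw [hO] at h2
      exact ⟨e, List.mem_of_mem_head? hO, of_decide_eq_true h2⟩

theorem getD_map_range (l : ℕ) (f : ℕ → ℤ) (k : ℕ) (hk : k < l) : ((List.range l).map f).getD k 0 = f k := by
  simp [List.getD, hk]

theorem eq_of_vf {l : ℕ} {f g : ℕ → ℤ} (h : ∀ k < l, vf ((List.range l).map f) k = vf ((List.range l).map g) k) :
    (List.range l).map f = (List.range l).map g := by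
  apply List.map_congr_left
  intro k hk
  have hk' := List.mem_range.mp hk
  have := h k hk'
  unfold vf at this
  rwa [getD_map_range l f k hk', getD_map_range l g k hk'] at this

theorem Good.orb_step (G : Good D) (hZ : ∀ σ ∈ G.W, G.nn σ = 0 → σ = 1) (C : ℕ → ℕ → ℤ)
    (hC : ∀ j < D.rank, ∀ k < D.rank, D.cartan j (D.simple k) = C j k) (L : List ℕ) (i : ℕ) (O : List OEnt)
    (hi : i < D.rank) (h : OrbOK D.rank C L i O) (q : ℕ) :
    G.psum (G.WL L) q = (O.map fun e => q ^ e.d).sum * G.psum (G.WL (i :: L)) q := by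
  classical
  have hbase : ∀ k < D.rank, vf (baseL D.rank i) k = if k = i then 1 else 0 := fun k hk => getD_map_range _ _ k hk
  have hrv : ∀ j < D.rank, ∀ v : List ℤ, ∀ k < D.rank, vf (rvL D.rank C j v) k = rv D j (vf v) k := by
    intro j hj v k hk
    unfold vf rvL rv
    rw [getD_map_range _ _ k hk, hC j hj k hk]
  -- every entry is represented
  have hrep : ∀ d, ∀ e ∈ O, e.d = d → G.Rep L i (vf e.v) e.d := by
    intro d
    induction d with
    | zero =>
      intro e he hd
      rcases h.par e he with ⟨h1, h2⟩ | ⟨e', _, _, _, h1, _⟩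
      · rw [h1, h2]; exact G.Rep_base L hi hbase
      · omega
    | succ d ih =>
      intro e he hd
      rcases h.par e he with ⟨h1, h2⟩ | ⟨e', he', h1, h2, h3, h4, h5⟩
      · omega
      · rw [h3, h5]
        exact G.Rep_step hi (ih e' he' (by omega)) h1 h2 h4 (hrv _ h1 _)
  -- the table is closed
  have hcl : ∀ σ ∈ G.WL L, ∃ e ∈ O, ∀ r : Fin D.nroots, G.rc (σ r) i = G.lin (vf e.v) r := by
    apply G.WL_ind hZ L (p := fun σ => ∃ e ∈ O, ∀ r : Fin D.nroots, G.rc (σ r) i = G.lin (vf e.v) r)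
    · obtain ⟨e, he, hv⟩ := h.base
      refine ⟨e, he, fun r => ?_⟩
      rw [hv, G.lin_base hi hbase]; rfl
    · rintro j hj hjL σ hσ ⟨e, he, hv⟩
      obtain ⟨e', he', hv'⟩ := h.nbr e he j hj hjL
      refine ⟨e', he', fun r => ?_⟩
      rw [Equiv.Perm.mul_apply, hv, G.wP_apply, G.lin_refl j hj _ r r.2, hv']
      exact (G.lin_congr (hrv j hj e.v) r).symm
  have hlen : ∀ e ∈ O, ∃ f : ℕ → ℤ, e.v = (List.range D.rank).map f := by
    intro e he
    rcases h.par e he with ⟨_, h2⟩ | ⟨e', _, _, _, _, _, h5⟩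
    · exact ⟨_, h2⟩
    · exact ⟨_, h5⟩
  choose ρ hρ1 hρ2 hρ3 hρ4 using fun a : Fin O.length => hrep _ O[a] (List.getElem_mem a.2) rfl
  have hsub : G.WL (i :: L) ≤ G.WL L := fun u hu => ⟨hu.1, fun j hj => hu.2 j (List.mem_cons_of_mem _ hj)⟩
  unfold Good.psum
  rw [← Fin.sum_univ_fun_getElem O (fun e => q ^ e.d), Finset.sum_mul_sum, ← Finset.sum_product']
  symm
  apply Finset.sum_bij (fun x _ => x.2 * ρ x.1)
  · rintro ⟨a, u⟩ hx
    simp only [Finset.mem_product, Finset.mem_univ, true_and, Set.Finite.mem_toFinset, SetLike.mem_coe] at hx ⊢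
    exact Subgroup.mul_mem _ (hsub hx) (hρ1 a)
  · rintro ⟨a, u⟩ hx ⟨a', u'⟩ hx' e
    simp only [Finset.mem_product, Finset.mem_univ, true_and, Set.Finite.mem_toFinset, SetLike.mem_coe] at hx hx'
    simp only at e
    have h1 : ∀ r : Fin D.nroots, G.lin (vf O[a].v) r = G.lin (vf O[a'].v) r := by
      intro r
      rw [← hρ2 a r, ← hρ2 a' r, ← hx.2 i List.mem_cons_self hi (ρ a r), ← hx'.2 i List.mem_cons_self hi (ρ a' r),
        ← Equiv.Perm.mul_apply u, ← Equiv.Perm.mul_apply u', e]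
    have h2 : O[a].v = O[a'].v := by
      obtain ⟨f, hf⟩ := hlen O[a] (List.getElem_mem a.2)
      obtain ⟨g, hg⟩ := hlen O[a'] (List.getElem_mem a'.2)
      rw [hf, hg]
      apply eq_of_vf
      intro k hk
      have := h1 (G.sF k hk)
      rw [show G.lin (vf O[a].v) (G.sF k hk) = vf O[a].v k from G.lin_simple _ k hk,
        show G.lin (vf O[a'].v) (G.sF k hk) = vf O[a'].v k from G.lin_simple _ k hk, hf, hg] at this
      exact this
    have h3 : a = a' := by
      have := (List.Nodup.getElem_inj_iff h.nodup (i := a) (j := a') (hi := by simp) (hj := by simp)).mp (by simpa using h2)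
      exact Fin.ext this
    subst h3
    rw [mul_right_cancel e]
  · intro σ hσ
    simp only [Set.Finite.mem_toFinset, SetLike.mem_coe] at hσ
    obtain ⟨e, he, hv⟩ := hcl σ hσ
    obtain ⟨a, ha, rfl⟩ := List.getElem_of_mem he
    refine ⟨(⟨a, ha⟩, σ * (ρ ⟨a, ha⟩)⁻¹), ?_, by simp⟩
    simp only [Finset.mem_product, Finset.mem_univ, true_and, Set.Finite.mem_toFinset, SetLike.mem_coe]
    have h1 := Subgroup.mul_mem _ hσ (Subgroup.inv_mem _ (hρ1 ⟨a, ha⟩))
    refine ⟨h1.1, ?_⟩
    intro j hj hjr r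
    rcases List.mem_cons.mp hj with rfl | hj
    · rw [Equiv.Perm.mul_apply, hv]
      have := hρ2 ⟨a, ha⟩ ((ρ ⟨a, ha⟩)⁻¹ r)
      rw [perm_apply_inv] at this
      exact this.symm
    · exact h1.2 j hj hjr r
  · rintro ⟨a, u⟩ hx
    simp only [Finset.mem_product, Finset.mem_univ, true_and, Set.Finite.mem_toFinset, SetLike.mem_coe] at hx
    simp only
    rw [G.nn_mul hi hx (hρ1 a).1 (hρ2 a) (hρ3 a) (hρ4 a), pow_add]
    rfl

end Cfsg.Agent.Chev
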