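import Cfsg.Agent.Chev.Poin2

/-!
# End points of the chain, and list polynomials
-/

set_option autoImplicit false
set_option linter.unusedSectionVars false
set_option linter.unusedVariables false

namespace Cfsg.Agent.Chev
open Cfsg.Lie

variable {D : ChevalleyDatum}

theorem Good.WL_nil (G : Good D) : G.WL [] = G.W := by
  ext σ
  constructor
  · exact fun h => h.1
  · exact fun h => ⟨h, fun j hj => absurd hj (by simp)⟩

theorem Good.WL_full (G : Good D) (L : List ℕ) (hL : ∀ j < D.rank, j ∈ L) : G.WL L = ⊥ := by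
  rw [eq_bot_iff]
  intro σ hσ
  rw [Subgroup.mem_bot]
  ext r
  apply congrArg Fin.val
  apply Fin.ext
  apply G.ht_inj (σ r).2 r.2
  unfold Good.ht Good.lin
  apply Finset.sum_congr rfl
  intro j hj
  rw [hσ.2 j (hL j (Finset.mem_range.mp hj)) (Finset.mem_range.mp hj)]

theorem Good.psum_bot (G : Good D) (q : ℕ) : G.psum ((⊥ : Subgroup (Equiv.Perm (Fin D.nroots))) : Set _) q = 1 := by
  unfold Good.psum
  have : (Set.toFinite ((⊥ : Subgroup (Equiv.Perm (Fin D.nroots))) : Set (Equiv.Perm (Fin D.nroots)))).toFinset = {1} := by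
    ext σ
    simp
  rw [this, Finset.sum_singleton]
  have h0 : G.nn 1 = 0 := (G.nn_eq_zero_iff 1).mpr (fun r hr => hr)
  rw [h0, pow_zero]

/-! ### list polynomials -/

def pev (p : List ℤ) (x : ℤ) : ℤ := p.foldr (fun a acc => a + x * acc) 0

def lpadd : List ℤ → List ℤ → List ℤ
  | [], q => q
  | a :: p, [] => a :: p
  | a :: p, b :: q => (a + b) :: lpadd p q

def lpsmul (c : ℤ) (p : List ℤ) : List ℤ := p.map (c * ·)

def lpmul : List ℤ → List ℤ → List ℤ
  | [], _ => []
  | a :: p, q => lpadd (lpsmul a q) (0 :: lpmul p q)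

def pmono (d : ℕ) : List ℤ := List.replicate d 0 ++ [1]

/-- `x ^ d - 1` -/
def pxd (d : ℕ) : List ℤ := lpadd (pmono d) [-1]

theorem pev_nil (x : ℤ) : pev [] x = 0 := rfl
theorem pev_cons (a : ℤ) (p : List ℤ) (x : ℤ) : pev (a :: p) x = a + x * pev p x := rfl

theorem pev_lpadd (p q : List ℤ) (x : ℤ) : pev (lpadd p q) x = pev p x + pev q x := by
  induction p generalizing q with
  | nil => simp [lpadd, pev_nil]
  | cons a p ih =>
    cases q with
    | nil => simp [lpadd, pev_nil]
    | cons b q => simp only [lpadd, pev_cons, ih]; ring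

theorem pev_lpsmul (c : ℤ) (p : List ℤ) (x : ℤ) : pev (lpsmul c p) x = c * pev p x := by
  induction p with
  | nil => simp [lpsmul, pev_nil]
  | cons a p ih =>
    have : lpsmul c (a :: p) = (c * a) :: lpsmul c p := rfl
    rw [this, pev_cons, pev_cons, ih]; ring

theorem pev_lpmul (p q : List ℤ) (x : ℤ) : pev (lpmul p q) x = pev p x * pev q x := by
  induction p with
  | nil => simp [lpmul, pev_nil]
  | cons a p ih => simp only [lpmul, pev_lpadd, pev_lpsmul, pev_cons, ih]; ring

theorem pev_pmono (d : ℕ) (x : ℤ) : pev (pmono d) x = x ^ d := by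
  induction d with
  | zero => simp [pmono, pev]
  | succ d ih =>
    have : pmono (d + 1) = 0 :: pmono d := by simp [pmono, List.replicate_succ]
    rw [this, pev_cons, ih]; ring

theorem pev_pxd (d : ℕ) (x : ℤ) : pev (pxd d) x = x ^ d - 1 := by
  unfold pxd
  rw [pev_lpadd, pev_pmono]
  simp [pev]; ring

/-- the depth polynomial of an orbit table -/
def polyO (O : List OEnt) : List ℤ := O.foldr (fun e acc => lpadd (pmono e.d) acc) []

theorem pev_polyO (O : List OEnt) (q : ℕ) : pev (polyO O) (q : ℤ) = (((O.map fun e => q ^ e.d).sum : ℕ) : ℤ) := by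
  induction O with
  | nil => simp [polyO, pev_nil]
  | cons e O ih =>
    have : polyO (e :: O) = lpadd (pmono e.d) (polyO O) := rfl
    rw [this, pev_lpadd, pev_pmono, ih]
    simp

end Cfsg.Agent.Chev
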