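import Cfsg.Agent.Chev.Card
import Cfsg.Agent.Chev.Torus

/-!
# `U` is a Sylow `p`-subgroup
-/

set_option autoImplicit false
set_option linter.unusedSectionVars false
set_option linter.unusedVariables false

namespace Cfsg.Agent.Chev
open Cfsg.Lie
open scoped MatrixGroups

variable {D : ChevalleyDatum} {G : Good D} {F : Type*} [Field F]

namespace Rels
variable (R : Rels D G F)
include R

theorem psum_mod (G2 : Good2 D) (q : ℕ) : ∃ k : ℕ, G.psum G.W q = 1 + q * k := by
  classical
  unfold Good.psum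
  have h1 : (1 : Equiv.Perm (Fin D.nroots)) ∈ (Set.toFinite (G.W : Set (Equiv.Perm (Fin D.nroots)))).toFinset := by
    simp
  rw [← Finset.add_sum_erase _ _ h1]
  have h0 : G.nn 1 = 0 := (G.nn_eq_zero_iff 1).mpr (fun r hr => hr)
  rw [h0, pow_zero]
  have : q ∣ ∑ σ ∈ ((Set.toFinite (G.W : Set (Equiv.Perm (Fin D.nroots)))).toFinset.erase 1), q ^ G.nn σ := by
    apply Finset.dvd_sum
    intro σ hσ
    rw [Finset.mem_erase] at hσ
    have hW : σ ∈ G.W := by simpa using hσ.2
    apply dvd_pow_self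
    intro h
    exact hσ.1 (R.W_eq_one G2 hW h)
  obtain ⟨k, hk⟩ := this
  exact ⟨k, by rw [hk]⟩

theorem card_H_dvd [Fintype F] : Nat.card (D.diagonalSubgroup F) ∣ (Fintype.card F - 1) ^ D.rank := by
  classical
  rw [R.card_H]
  have h1 := Subgroup.card_range_dvd (zphi (cartanM D) : (Fin D.rank → Fˣ) →* _)
  have h2 : Nat.card (Fin D.rank → Fˣ) = (Fintype.card F - 1) ^ D.rank := by
    rw [Nat.card_eq_fintype_card, Fintype.card_fun, Fintype.card_fin, Fintype.card_units]
  rwa [h2] at h1

theorem U_sylow (G2 : Good2 D) [Fintype F] (p : ℕ) [Fact p.Prime] [CharP F p] :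
    ∃ P : Sylow p ↥(D.group F), (P : Subgroup ↥(D.group F)) = (D.posUnipotent F).subgroupOf (D.group F) := by
  classical
  obtain ⟨n, hp, hn⟩ := FiniteField.card F p
  have hle : D.posUnipotent F ≤ D.group F := le_trans R.U_le_B R.B_le_group
  have hcard : Nat.card ↥((D.posUnipotent F).subgroupOf (D.group F)) = Fintype.card F ^ (D.nroots / 2) := by
    rw [Nat.card_congr (Subgroup.subgroupOfEquivOfLe hle).toEquiv, R.card_U G2]
  have hpg : IsPGroup p ↥((D.posUnipotent F).subgroupOf (D.group F)) := by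
    apply IsPGroup.of_card (n := n * (D.nroots / 2))
    rw [hcard, hn, pow_mul]
  have hidx : ¬ p ∣ ((D.posUnipotent F).subgroupOf (D.group F)).index := by
    have h1 := ((D.posUnipotent F).subgroupOf (D.group F)).card_mul_index
    rw [hcard, R.card_group G2, R.card_B G2, mul_assoc] at h1
    have h2 := Nat.eq_of_mul_eq_mul_left (pow_pos Fintype.card_pos _) h1
    rw [h2]
    have hpq : p ∣ Fintype.card F := by rw [hn]; exact dvd_pow_self _ n.ne_zero
    intro h
    rcases (Nat.Prime.dvd_mul hp).mp h with h | h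
    · have h3 := hp.dvd_of_dvd_pow (dvd_trans h R.card_H_dvd)
      have h4 : 0 < Fintype.card F := Fintype.card_pos
      have h5 : p ∣ 1 := by
        have := (Nat.dvd_sub hpq h3)
        have e : Fintype.card F - (Fintype.card F - 1) = 1 := by omega
        rwa [e] at this
      exact hp.one_lt.ne' (Nat.dvd_one.mp h5)
    · obtain ⟨k, hk⟩ := R.psum_mod G2 (Fintype.card F)
      rw [hk] at h
      have h5 : p ∣ 1 := (Nat.dvd_add_left (dvd_mul_of_dvd_left hpq k)).mp h
      exact hp.one_lt.ne' (Nat.dvd_one.mp h5)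
  exact ⟨hpg.toSylow hidx, rfl⟩

end Rels

end Cfsg.Agent.Chev
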