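import Cfsg.Agent.Chev.Tw6
import Cfsg.Agent.Chev.Tab.E6Tw
import Cfsg.Agent.Chev.Tab.D4Tw
import Cfsg.Agent.Chev.All2
import Cfsg.Prelude.Def_LieTwisted

/-!
# Twisted groups: the two instances
-/

set_option autoImplicit false
set_option linter.unusedSectionVars false
set_option linter.unusedVariables false

namespace Cfsg.Agent.Chev
open Cfsg.Lie
open scoped MatrixGroups

variable {D : ChevalleyDatum} {G : Good D} {K : Type*} [Field K]

namespace TwS
variable {C : TwC} {O : TwOK D C} {R : Rels D G K} (S : TwS C O R)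
include S

theorem xs_e1 {c : ℕ} (h : C.e c = 1) (t : K) : S.xs c t = R.xg c t := by
  unfold xs; rw [h]; simp [List.range_succ]

theorem xs_e2 {c : ℕ} (h : C.e c = 2) (t : K) : S.xs c t = R.xg c t * R.xg (C.ρ c) (S.φ t) := by
  unfold xs; rw [h]; simp [List.range_succ]

theorem xs_e3 {c : ℕ} (h : C.e c = 3) (t : K) :
    S.xs c t = R.xg c t * R.xg (C.ρ c) (S.φ t) * R.xg (C.ρ (C.ρ c)) (S.φ (S.φ t)) := by
  unfold xs; rw [h]; simp [List.range_succ, mul_assoc]

theorem G1_eq_gen (W : Set (List (ℕ × K))) (h1 : ∀ w ∈ W, R.wg w ∈ S.gens)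
    (h2 : ∀ g ∈ S.gens, ∃ w ∈ W, g = R.wg w) : D.genSubgroup K W = S.G1 := by
  unfold ChevalleyDatum.genSubgroup G1
  congr 1
  ext g
  constructor
  · rintro ⟨w, hw, e⟩
    rw [(R.eq_wg_iff _ _).mp e]
    exact h1 w hw
  · intro hg
    obtain ⟨w, hw, e⟩ := h2 g hg
    exact ⟨w, hw, (R.eq_wg_iff _ _).mpr e⟩

end TwS

section E6
variable [Fintype K] {q : ℕ} (hq : IsPrimePow q) (hK : Fintype.card K = q ^ 2)

/-- the twisting of `E₆` -/
noncomputable def twsE6 : TwS twcE6 twokE6 (relsE6 K) :=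
  mkTwS fastE6 chkGE6 chkGE6 chkGInvE6 chkGInvE6 twokE6 rfl rfl (by decide) (relsE6 K) hq hK

theorem twsE6_q : (twsE6 hq hK).q = q := rfl

theorem twistedE6_eq : twistedE6 K q = (twsE6 hq hK).G1 := by
  set S := twsE6 hq hK with hS
  have hφ : ∀ a, S.φ a = a ^ q := S.phi_eq
  apply S.G1_eq_gen
  · rintro w (⟨t, ht, r, hr, rfl⟩ | ⟨t, rs, hrs, rfl⟩)
    · have ht' : S.φ^[1] t = t := by rw [Function.iterate_one, hφ, ht]
      simp only [List.mem_cons, List.not_mem_nil, or_false] at hr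
      have e : ∀ r, (relsE6 K).wg [(r, t)] = (relsE6 K).xg r t := by intro r; simp [Rels.wg]
      rw [e]
      rcases hr with rfl | rfl | rfl | rfl
      · exact ⟨1, by decide, by decide, t, ht', Or.inl (S.xs_e1 (by decide) t).symm⟩
      · exact ⟨1, by decide, by decide, t, ht', Or.inr (S.xs_e1 (by decide) t).symm⟩
      · exact ⟨3, by decide, by decide, t, ht', Or.inl (S.xs_e1 (by decide) t).symm⟩
      · exact ⟨3, by decide, by decide, t, ht', Or.inr (S.xs_e1 (by decide) t).symm⟩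
    · have ht' : S.φ^[2] t = t := S.phi_pow t
      simp only [List.mem_cons, List.not_mem_nil, or_false] at hrs
      have e : ∀ r s, (relsE6 K).wg [(r, t), (s, t ^ q)] = (relsE6 K).xg r t * (relsE6 K).xg s (S.φ t) := by
        intro r s; simp [Rels.wg, hφ]
      rw [e]
      rcases hrs with rfl | rfl | rfl | rfl
      · exact ⟨0, by decide, by decide, t, ht', Or.inl (S.xs_e2 (by decide) t).symm⟩
      · exact ⟨0, by decide, by decide, t, ht', Or.inr (S.xs_e2 (by decide) t).symm⟩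
      · exact ⟨2, by decide, by decide, t, ht', Or.inl (S.xs_e2 (by decide) t).symm⟩
      · exact ⟨2, by decide, by decide, t, ht', Or.inr (S.xs_e2 (by decide) t).symm⟩
  · rintro g ⟨i, hi, hh, t, ht, hg⟩
    have hi' : i < 6 := hi
    have e1 : ∀ r, (relsE6 K).wg [(r, t)] = (relsE6 K).xg r t := by intro r; simp [Rels.wg]
    have e2 : ∀ r s, (relsE6 K).wg [(r, t), (s, t ^ q)] = (relsE6 K).xg r t * (relsE6 K).xg s (S.φ t) := by
      intro r s; simp [Rels.wg, hφ]
    interval_cases i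
    · rcases hg with rfl | rfl
      · exact ⟨[(e6p1, t), (e6p6, t ^ q)], Or.inr ⟨t, (e6p1, e6p6), by simp, rfl⟩, by
          rw [e2]; exact S.xs_e2 (by decide) t⟩
      · exact ⟨[(e6m1, t), (e6m6, t ^ q)], Or.inr ⟨t, (e6m1, e6m6), by simp, rfl⟩, by
          rw [e2]; exact S.xs_e2 (by decide) t⟩
    · have ht' : t ^ q = t := by rw [← hφ]; exact ht
      rcases hg with rfl | rfl
      · exact ⟨[(e6p2, t)], Or.inl ⟨t, ht', e6p2, by simp, rfl⟩, by rw [e1]; exact S.xs_e1 (by decide) t⟩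
      · exact ⟨[(e6m2, t)], Or.inl ⟨t, ht', e6m2, by simp, rfl⟩, by rw [e1]; exact S.xs_e1 (by decide) t⟩
    · rcases hg with rfl | rfl
      · exact ⟨[(e6p3, t), (e6p5, t ^ q)], Or.inr ⟨t, (e6p3, e6p5), by simp, rfl⟩, by
          rw [e2]; exact S.xs_e2 (by decide) t⟩
      · exact ⟨[(e6m3, t), (e6m5, t ^ q)], Or.inr ⟨t, (e6m3, e6m5), by simp, rfl⟩, by
          rw [e2]; exact S.xs_e2 (by decide) t⟩
    · have ht' : t ^ q = t := by rw [← hφ]; exact ht
      rcases hg with rfl | rfl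
      · exact ⟨[(e6p4, t)], Or.inl ⟨t, ht', e6p4, by simp, rfl⟩, by rw [e1]; exact S.xs_e1 (by decide) t⟩
      · exact ⟨[(e6m4, t)], Or.inl ⟨t, ht', e6m4, by simp, rfl⟩, by rw [e1]; exact S.xs_e1 (by decide) t⟩
    · exact absurd hh (by decide)
    · exact absurd hh (by decide)

end E6

section D4
variable [Fintype K] {q : ℕ} (hq : IsPrimePow q) (hK : Fintype.card K = q ^ 3)

/-- the twisting of `D₄` -/
noncomputable def twsD4 : TwS twcD4 twokD4 (relsD4 K) :=
  mkTwS fastD4 chkGD4a chkGD4b chkGInvD4ab chkGInvD4ba twokD4 rfl rfl (by decide) (relsD4 K) hq hK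

theorem twsD4_q : (twsD4 hq hK).q = q := rfl

theorem twistedD4_eq : twistedD4 K q = (twsD4 hq hK).G1 := by
  set S := twsD4 hq hK with hS
  have hφ : ∀ a, S.φ a = a ^ q := S.phi_eq
  apply S.G1_eq_gen
  · rintro w (⟨t, ht, r, hr, rfl⟩ | ⟨t, rs, hrs, rfl⟩)
    · have ht' : S.φ^[1] t = t := by rw [Function.iterate_one, hφ, ht]
      simp only [List.mem_cons, List.not_mem_nil, or_false] at hr
      have e : ∀ r, (relsD4 K).wg [(r, t)] = (relsD4 K).xg r t := by intro r; simp [Rels.wg]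
      rw [e]
      rcases hr with rfl | rfl
      · exact ⟨1, by decide, by decide, t, ht', Or.inl (S.xs_e1 (by decide) t).symm⟩
      · exact ⟨1, by decide, by decide, t, ht', Or.inr (S.xs_e1 (by decide) t).symm⟩
    · have ht' : S.φ^[3] t = t := S.phi_pow t
      simp only [List.mem_cons, List.not_mem_nil, or_false] at hrs
      have e : ∀ r s u, (relsD4 K).wg [(r, t), (s, t ^ q), (u, t ^ (q ^ 2))] =
          (relsD4 K).xg r t * (relsD4 K).xg s (S.φ t) * (relsD4 K).xg u (S.φ (S.φ t)) := by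
        intro r s u; simp [Rels.wg, hφ, mul_assoc, ← pow_mul, sq]
      rw [e]
      rcases hrs with rfl | rfl
      · exact ⟨0, by decide, by decide, t, ht', Or.inl (S.xs_e3 (by decide) t).symm⟩
      · exact ⟨0, by decide, by decide, t, ht', Or.inr (S.xs_e3 (by decide) t).symm⟩
  · rintro g ⟨i, hi, hh, t, ht, hg⟩
    have hi' : i < 4 := hi
    have e1 : ∀ r, (relsD4 K).wg [(r, t)] = (relsD4 K).xg r t := by intro r; simp [Rels.wg]
    have e3 : ∀ r s u, (relsD4 K).wg [(r, t), (s, t ^ q), (u, t ^ (q ^ 2))] =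
        (relsD4 K).xg r t * (relsD4 K).xg s (S.φ t) * (relsD4 K).xg u (S.φ (S.φ t)) := by
      intro r s u; simp [Rels.wg, hφ, mul_assoc, ← pow_mul, sq]
    interval_cases i
    · rcases hg with rfl | rfl
      · exact ⟨[(d4p1, t), (d4p3, t ^ q), (d4p4, t ^ (q ^ 2))], Or.inr ⟨t, (d4p1, d4p3, d4p4), by simp, rfl⟩, by
          rw [e3]; exact S.xs_e3 (by decide) t⟩
      · exact ⟨[(d4m1, t), (d4m3, t ^ q), (d4m4, t ^ (q ^ 2))], Or.inr ⟨t, (d4m1, d4m3, d4m4), by simp, rfl⟩, by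
          rw [e3]; exact S.xs_e3 (by decide) t⟩
    · have ht' : t ^ q = t := by rw [← hφ]; exact ht
      rcases hg with rfl | rfl
      · exact ⟨[(d4p2, t)], Or.inl ⟨t, ht', d4p2, by simp, rfl⟩, by rw [e1]; exact S.xs_e1 (by decide) t⟩
      · exact ⟨[(d4m2, t)], Or.inl ⟨t, ht', d4m2, by simp, rfl⟩, by rw [e1]; exact S.xs_e1 (by decide) t⟩
    · exact absurd hh (by decide)
    · exact absurd hh (by decide)

end D4

end Cfsg.Agent.Chev
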