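import Cfsg.Agent.Chev.Tw12
import Cfsg.Agent.Chev.Tab.TwP

/-!
# Twisted groups: perfectness of the two instances
-/

set_option autoImplicit false

namespace Cfsg.Agent.Chev
open Cfsg.Lie

theorem exists_sq_ne_one {K : Type*} [Field K] [Fintype K] (h : 4 ≤ Fintype.card K) :
    ∃ a : K, a ≠ 0 ∧ a ^ 2 ≠ 1 := by
  classical
  by_contra hcon
  push Not at hcon
  have h1 : (Finset.univ : Finset K) ⊆ {0, 1, -1} := by
    intro a _
    by_cases ha : a = 0
    · simp [ha]
    · have h2 := hcon a ha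
      have h3 : (a - 1) * (a + 1) = 0 := by ring_nf; rw [h2]; ring
      rcases mul_eq_zero.mp h3 with h4 | h4
      · simp [sub_eq_zero.mp h4]
      · simp [eq_neg_of_add_eq_zero_left h4]
  have h2 := Finset.card_le_card h1
  have h3 : ({0, 1, -1} : Finset K).card ≤ 3 := Finset.card_le_three
  rw [Finset.card_univ] at h2
  omega

theorem four_le_pow {q d : ℕ} (hq : IsPrimePow q) (hd : 2 ≤ d) : 4 ≤ q ^ d := by
  have h2 : 2 ≤ q := hq.two_le
  calc 4 = 2 ^ 2 := by norm_num
    _ ≤ q ^ 2 := Nat.pow_le_pow_left h2 2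
    _ ≤ q ^ d := Nat.pow_le_pow_right (by omega) hd

theorem perfectE6 {K : Type*} [Field K] [Fintype K] {q : ℕ} (hq : IsPrimePow q) (hK : Fintype.card K = q ^ 2) :
    commutator ↥(twsE6 hq hK).G1 = ⊤ :=
  (twsE6 hq hK).perfect good2E6 twpE6 (exists_sq_ne_one (by rw [hK]; exact four_le_pow hq (le_refl _)))

theorem perfectD4 {K : Type*} [Field K] [Fintype K] {q : ℕ} (hq : IsPrimePow q) (hK : Fintype.card K = q ^ 3) :
    commutator ↥(twsD4 hq hK).G1 = ⊤ :=
  (twsD4 hq hK).perfect good2D4 twpD4 (exists_sq_ne_one (by rw [hK]; exact four_le_pow hq (by norm_num)))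

end Cfsg.Agent.Chev
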