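import Cfsg.Agent.Chev.Tw11
import Cfsg.Agent.Chev.Tw13
import Cfsg.Agent.Chev.Simple

/-!
# Twisted groups: simplicity
-/

set_option autoImplicit false
set_option linter.unusedSectionVars false
set_option linter.unusedVariables false

namespace Cfsg.Agent.Chev
open Cfsg.Lie
open scoped MatrixGroups

variable {D : ChevalleyDatum} {G : Good D} {K : Type*} [Field K]

/-- the twisted diagram is connected -/
def Conn1 (D : ChevalleyDatum) (C : TwC) : Prop :=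
  ∀ p : ℕ → Prop, (∀ i < D.rank, ∀ j < D.rank, D.simple i ∈ C.heads → D.simple j ∈ C.heads → p i →
    (∃ s < D.nroots, C.wJ D i (C.wJ D j s) ≠ C.wJ D j (C.wJ D i s)) → p j) →
    ∀ i < D.rank, ∀ j < D.rank, D.simple i ∈ C.heads → D.simple j ∈ C.heads → p i → p j

namespace TwS
variable {C : TwC} {O : TwOK D C} {R : Rels D G K} (S : TwS C O R)
include S

theorem wJ_comm_of_mem_B (G2 : Good2 D) {i j : ℕ} (hi : i < D.rank) (hj : j < D.rank)
    (h : S.nJ i * S.nJ j * (S.nJ i)⁻¹ * (S.nJ j)⁻¹ ∈ D.borelSubgroup K) (s : ℕ) (hs : s < D.nroots) :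
    C.wJ D i (C.wJ D j s) = C.wJ D j (C.wJ D i s) := by
  have hNi := S.nw_mem_N _ (O.Js_lt hi)
  have hNj := S.nw_mem_N _ (O.Js_lt hj)
  have hN : S.nJ i * S.nJ j * (S.nJ i)⁻¹ * (S.nJ j)⁻¹ ∈ D.monomialSubgroup K :=
    Subgroup.mul_mem _ (Subgroup.mul_mem _ (Subgroup.mul_mem _ hNi hNj) (Subgroup.inv_mem _ hNi))
      (Subgroup.inv_mem _ hNj)
  have h1 : _ ∈ D.borelSubgroup K ⊓ D.monomialSubgroup K := ⟨h, hN⟩
  rw [R.B_inf_N G2] at h1
  have h2 := Rels.IsMono.unique R (Rels.IsMono.of_tor R (R.H_le_Tor h1))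
    (Rels.IsMono.mul R (Rels.IsMono.mul R (Rels.IsMono.mul R (S.nJ_mono hi) (S.nJ_mono hj))
      (Rels.IsMono.inv R (S.nJ_mono hi))) (Rels.IsMono.inv R (S.nJ_mono hj)))
  set a := S.wl (C.Js D i) with ha
  set b := S.wl (C.Js D j) with hb
  have h3 : a * b = b * a := by
    calc a * b = (a * b * a⁻¹ * b⁻¹) * (b * a) := by group
      _ = _ := by rw [← h2, one_mul]
  have h4 := congrArg (fun σ : Equiv.Perm (Fin D.nroots) => ((σ ⟨s, hs⟩ : Fin D.nroots) : ℕ)) h3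
  simp only [Equiv.Perm.mul_apply, ha, hb, S.wJ_apply hi, S.wJ_apply hj] at h4
  exact h4

theorem irreducible1 (G2 : Good2 D) [Fintype K] (hC : Conn1 D C) : (S.bnPair1 G2).Irreducible := by
  intro J hJ hne hne'
  by_contra hcon
  push Not at hcon
  let p : ℕ → Prop := fun i => ∃ x : ↥S.G1, x ∈ J ∧ (x : GL D.Idx K) = S.nJ i
  have hstep : ∀ i < D.rank, ∀ j < D.rank, D.simple i ∈ C.heads → D.simple j ∈ C.heads → p i →
      (∃ s < D.nroots, C.wJ D i (C.wJ D j s) ≠ C.wJ D j (C.wJ D i s)) → p j := by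
    rintro i hi j hj hhi hhj ⟨x, hx, ex⟩ ⟨s, hs, hne⟩
    by_contra hnp
    let y : ↥S.G1 := ⟨S.nJ j, S.nJ_mem_G1 hj hhj⟩
    have hy : y ∈ (S.bnPair1 G2).S \ J := ⟨⟨j, hj, hhj, rfl⟩, fun h => hnp ⟨y, h, rfl⟩⟩
    have h3 := hcon x hx y hy
    have h4 : S.nJ i * S.nJ j * (S.nJ i)⁻¹ * (S.nJ j)⁻¹ ∈ D.borelSubgroup K := by
      have := (Subgroup.mem_subgroupOf.mp h3).1
      simp only [Subgroup.coe_mul, Subgroup.coe_inv, ex] at this
      exact this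
    exact hne (S.wJ_comm_of_mem_B G2 hi hj h4 s hs)
  obtain ⟨x, hx⟩ := hne
  obtain ⟨y, hy1, hy2⟩ := hne'
  obtain ⟨i, hi, hhi, ex⟩ := hJ hx
  obtain ⟨j, hj, hhj, ey⟩ := hy1
  obtain ⟨z, hz, ez⟩ := hC p hstep i hi j hj hhi hhj ⟨x, hx, ex⟩
  have : z = y := Subtype.ext (ez.trans ey.symm)
  exact hy2 (this ▸ hz)

theorem simple1 (G2 : Good2 D) [Fintype K] (hC : Conn1 D C) (hperf : commutator ↥S.G1 = ⊤)
    (hcore : ((D.borelSubgroup K ⊓ S.G1).subgroupOf S.G1).normalCore = ⊥) :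
    IsSimpleGroup ↥S.G1 ∧ ¬ IsMulCommutative ↥S.G1 := by
  have hsolv : Group.IsSolvable ↥(S.bnPair1 G2).B := by
    have h1 : Group.IsSolvable ↥(D.borelSubgroup K ⊓ S.G1) :=
      Tri.isSolvable_of_le (ordw_lt G) (inf_le_left.trans R.B_le_tri)
    exact Group.isSolvable_of_isSolvable_injective
      (f := (Subgroup.subgroupOfEquivOfLe (inf_le_right : D.borelSubgroup K ⊓ S.G1 ≤ S.G1)).toMonoidHom)
      (Subgroup.subgroupOfEquivOfLe (inf_le_right : D.borelSubgroup K ⊓ S.G1 ≤ S.G1)).injective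
  have hnt : Nontrivial ↥S.G1 := by
    obtain ⟨i, hi, hh, _⟩ := O.cover 0 G.rank_pos
    refine ⟨⟨S.nJ i, S.nJ_mem_G1 hi hh⟩, 1, ?_⟩
    intro h
    exact S.nJ_ne_one hi (congrArg Subtype.val h)
  have hs := Cfsg.Agent.S0319.result (S.bnPair1 G2) (S.irreducible1 G2 hC) hsolv hperf hcore
  refine ⟨hs, ?_⟩
  intro hcomm
  have h1 : commutator ↥S.G1 = ⊥ := by
    rw [commutator_def, Subgroup.commutator_eq_bot_iff_le_centralizer]
    intro a _ b _
    exact hcomm.is_comm.comm b a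
  rw [hperf] at h1
  exact top_ne_bot h1

end TwS

end Cfsg.Agent.Chev
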