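import Cfsg.Agent.Chev.Tw14
import Cfsg.Agent.Chev.Tw15

/-!
# Twisted groups: simplicity of the two instances
-/

set_option autoImplicit false

namespace Cfsg.Agent.Chev
open Cfsg.Lie

set_option maxHeartbeats 2000000 in
theorem conn1E6 : Conn1 chevE6 twcE6 := by
  intro p hstep i hi j hj hhi hhj hp
  have e02 : p 0 → p 2 := fun h => hstep 0 (by decide +kernel) 2 (by decide +kernel) (by decide +kernel) (by decide +kernel) h
    ⟨42, by decide +kernel, by decide +kernel⟩
  have e20 : p 2 → p 0 := fun h => hstep 2 (by decide +kernel) 0 (by decide +kernel) (by decide +kernel) (by decide +kernel) h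
    ⟨42, by decide +kernel, by decide +kernel⟩
  have e23 : p 2 → p 3 := fun h => hstep 2 (by decide +kernel) 3 (by decide +kernel) (by decide +kernel) (by decide +kernel) h
    ⟨42, by decide +kernel, by decide +kernel⟩
  have e32 : p 3 → p 2 := fun h => hstep 3 (by decide +kernel) 2 (by decide +kernel) (by decide +kernel) (by decide +kernel) h
    ⟨42, by decide +kernel, by decide +kernel⟩
  have e31 : p 3 → p 1 := fun h => hstep 3 (by decide +kernel) 1 (by decide +kernel) (by decide +kernel) (by decide +kernel) h
    ⟨46, by decide +kernel, by decide +kernel⟩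
  have e13 : p 1 → p 3 := fun h => hstep 1 (by decide +kernel) 3 (by decide +kernel) (by decide +kernel) (by decide +kernel) h
    ⟨46, by decide +kernel, by decide +kernel⟩
  have hi' : i < 6 := hi
  have hj' : j < 6 := hj
  interval_cases i <;> interval_cases j <;>
    first | exact absurd hhi (by decide +kernel) | exact absurd hhj (by decide +kernel) | tauto

set_option maxHeartbeats 2000000 in
theorem conn1D4 : Conn1 chevD4 twcD4 := by
  intro p hstep i hi j hj hhi hhj hp
  have e01 : p 0 → p 1 := fun h => hstep 0 (by decide +kernel) 1 (by decide +kernel) (by decide +kernel) (by decide +kernel) h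
    ⟨14, by decide +kernel, by decide +kernel⟩
  have e10 : p 1 → p 0 := fun h => hstep 1 (by decide +kernel) 0 (by decide +kernel) (by decide +kernel) (by decide +kernel) h
    ⟨14, by decide +kernel, by decide +kernel⟩
  have hi' : i < 4 := hi
  have hj' : j < 4 := hj
  interval_cases i <;> interval_cases j <;>
    first | exact absurd hhi (by decide +kernel) | exact absurd hhj (by decide +kernel) | tauto

end Cfsg.Agent.Chev
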