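import Cfsg.Agent.Chev.Tw9
import Cfsg.Agent.Chev.CoxChk

/-!
# Twisted groups: the Weyl group
-/

set_option autoImplicit false
set_option linter.unusedSectionVars false
set_option linter.unusedVariables false

namespace Cfsg.Agent.Chev
open Cfsg.Lie
open scoped MatrixGroups

variable {D : ChevalleyDatum} {G : Good D} {K : Type*} [Field K]

namespace TwS
variable {C : TwC} {O : TwOK D C} {R : Rels D G K} (S : TwS C O R)
include S

theorem wl_eq_wdP (L : List (Fin D.rank)) : S.wl (L.map Fin.val) = G.wdP L := by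
  unfold wl Good.wdP
  rw [List.map_map]
  congr 1
  apply List.map_congr_left
  intro i _
  simp only [Function.comp]
  rw [dif_pos i.2]

theorem wl_append (A B : List ℕ) : S.wl (A ++ B) = S.wl A * S.wl B := by
  unfold wl
  rw [List.map_append, List.prod_append]

theorem cox_main1 (G2 : Good2 D) [Fintype K] {B : Type*} (M : CoxeterMatrix B) (idx : B → ℕ)
    (hidx : ∀ b, idx b < D.rank ∧ D.simple (idx b) ∈ C.heads)
    (hsurj : ∀ i < D.rank, D.simple i ∈ C.heads → ∃ b, idx b = i) (hinj : Function.Injective idx)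
    (hord : ∀ a b, orderOf (S.wl (C.Js D (idx a)) * S.wl (C.Js D (idx b))) = M a b) :
    ∃ φ : ↥(D.monomialSubgroup K ⊓ S.G1) →* M.Group, Function.Surjective φ ∧
      φ.ker = (D.diagonalSubgroup K ⊓ S.G1).subgroupOf (D.monomialSubgroup K ⊓ S.G1) := by
  classical
  let P := S.bnPair1 G2
  have hN : ((P.B ⊓ P.N).subgroupOf P.N).Normal := by
    constructor
    intro t ht n
    rw [Subgroup.mem_subgroupOf] at ht ⊢
    refine ⟨P.conj_mem n n.2 t ht, ?_⟩
    exact P.N.mul_mem (P.N.mul_mem n.2 t.2) (P.N.inv_mem n.2)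
  obtain ⟨M', cs, hcs⟩ := Cfsg.Agent.S0320.result P
  have hle : D.monomialSubgroup K ⊓ S.G1 ≤ S.G1 := inf_le_right
  let ι : ↥(D.monomialSubgroup K ⊓ S.G1) →* ↥P.N := (Subgroup.subgroupOfEquivOfLe hle).symm.toMonoidHom
  have hι : ∀ n : ↥(D.monomialSubgroup K ⊓ S.G1), (((ι n : ↥P.N) : ↥S.G1) : GL D.Idx K) = n := fun n => rfl
  let mk : ↥P.N →* (↥P.N ⧸ (P.B ⊓ P.N).subgroupOf P.N) := QuotientGroup.mk' _
  let nn : B → ↥(D.monomialSubgroup K ⊓ S.G1) := fun b =>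
    ⟨S.nJ (idx b), S.nw_mem_N _ (O.Js_lt (hidx b).1), S.nJ_mem_G1 (hidx b).1 (hidx b).2⟩
  let ν : B → (↥P.N ⧸ (P.B ⊓ P.N).subgroupOf P.N) := fun i => mk (ι (nn i))
  have hker : ∀ n : ↥(D.monomialSubgroup K ⊓ S.G1), mk (ι n) = 1 ↔ (n : GL D.Idx K) ∈ D.diagonalSubgroup K := by
    intro n
    rw [QuotientGroup.mk'_apply, QuotientGroup.eq_one_iff, Subgroup.mem_subgroupOf, Subgroup.mem_inf]
    show (_ ∈ (D.borelSubgroup K ⊓ S.G1).subgroupOf S.G1 ∧ _ ∈ (D.monomialSubgroup K ⊓ S.G1).subgroupOf S.G1) ↔ _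
    rw [Subgroup.mem_subgroupOf, Subgroup.mem_subgroupOf, hι, ← R.B_inf_N G2]
    constructor
    · rintro ⟨h1, h2⟩
      exact ⟨h1.1, h2.1⟩
    · rintro ⟨h1, h2⟩
      exact ⟨⟨h1, n.2.2⟩, n.2⟩
  have hS : ∀ s : P.S, ∃ b : B, ((s : ↥S.G1) : GL D.Idx K) = S.nJ (idx b) := by
    rintro ⟨s, i, hi, hh, hs⟩
    obtain ⟨b, rfl⟩ := hsurj i hi hh
    exact ⟨b, hs⟩
  choose e he using hS
  let d : B → P.S := fun b => ⟨⟨S.nJ (idx b), S.nJ_mem_G1 (hidx b).1 (hidx b).2⟩, idx b, (hidx b).1, (hidx b).2, rfl⟩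
  have h1 : ∀ s, cs.simple s = ν (e s) := by
    intro s
    rw [hcs s]
    show _ = QuotientGroup.mk _
    congr 1
    apply Subtype.ext
    apply Subtype.ext
    exact he s
  have h2 : ∀ i, e (d i) = i := by
    intro i
    have h3 : S.nJ (idx i) = S.nJ (idx (e (d i))) := he (d i)
    apply hinj
    apply (S.nJ_inj G2 (hidx i).1 (hidx _).1 (hidx i).2 (hidx _).2 _).symm
    rw [← h3, inv_mul_cancel]
    exact Subgroup.one_mem _
  have h3 : ∀ i j, orderOf (ν i * ν j) = M i j := by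
    intro i j
    rw [← hord]
    rw [orderOf_eq_orderOf_iff]
    intro k
    have hm : R.IsMono ((nn i * nn j : ↥(D.monomialSubgroup K ⊓ S.G1)) : GL D.Idx K)
        (S.wl (C.Js D (idx i)) * S.wl (C.Js D (idx j))) :=
      Rels.IsMono.mul R (S.nJ_mono (hidx i).1) (S.nJ_mono (hidx j).1)
    have : (ν i * ν j) ^ k = mk (ι ((nn i * nn j) ^ k)) := by
      simp only [ν, map_mul, map_pow]
    rw [this, hker, Subgroup.coe_pow]
    exact R.mono_mem_H_iff G2 (Subgroup.pow_mem _ (nn i * nn j).2.1 k) (Rels.IsMono.pow R hm k)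
  obtain ⟨ψ, hψ⟩ := coxeter_transfer cs M e d ν h1 h2 h3
  refine ⟨ψ.toMonoidHom.comp (mk.comp ι), ?_, ?_⟩
  · intro x
    obtain ⟨y, hy⟩ := QuotientGroup.mk'_surjective _ (ψ.symm x)
    obtain ⟨z, hz⟩ := (Subgroup.subgroupOfEquivOfLe hle).symm.surjective y
    refine ⟨z, ?_⟩
    show ψ (mk (ι z)) = x
    have : ι z = y := hz
    rw [this]
    show ψ (QuotientGroup.mk' _ y) = x
    rw [hy, MulEquiv.apply_symm_apply]
  · ext n
    rw [MonoidHom.mem_ker, Subgroup.mem_subgroupOf]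
    have : (n : GL D.Idx K) ∈ D.diagonalSubgroup K ⊓ S.G1 ↔ (n : GL D.Idx K) ∈ D.diagonalSubgroup K :=
      ⟨fun h => h.1, fun h => ⟨h, n.2.2⟩⟩
    rw [this, ← hker]
    show ψ (mk (ι n)) = 1 ↔ _
    rw [map_eq_one_iff ψ ψ.injective]

end TwS

end Cfsg.Agent.Chev
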