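import Cfsg.Agent.Chev.Tw10
import Cfsg.Agent.Chev.Tw17
import Cfsg.Agent.Chev.Tab.Cox

/-!
# Twisted groups: the Weyl groups of the two instances
-/

set_option autoImplicit false
set_option maxRecDepth 1000000

namespace Cfsg.Agent.Chev
open Cfsg.Lie

def idxE6 : Fin 4 → ℕ := fun b => ([1, 3, 2, 0] : List ℕ).getD b.val 0

def jsE6 : Fin 4 → List (Fin 6) := fun b => ([[1], [3], [2, 4], [0, 5]] : List (List (Fin 6))).getD b.val []

theorem jsE6_eq : ∀ b : Fin 4, twcE6.Js chevE6 (idxE6 b) = (jsE6 b).map Fin.val := by decide +kernel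

theorem cordTwE6 : ∀ a b : Fin 4, chkOrd nauxE6.w 72 ((jsE6 a ++ jsE6 b).map Fin.val)
    ((CoxeterMatrix.F₄ : CoxeterMatrix (Fin 4)) a b) = true := by
  decide +kernel

def idxD4 : Fin 2 → ℕ := fun b => ([0, 1] : List ℕ).getD b.val 0

def jsD4 : Fin 2 → List (Fin 4) := fun b => ([[0, 2, 3], [1]] : List (List (Fin 4))).getD b.val []

theorem jsD4_eq : ∀ b : Fin 2, twcD4.Js chevD4 (idxD4 b) = (jsD4 b).map Fin.val := by decide +kernel

theorem cordTwD4 : ∀ a b : Fin 2, chkOrd nauxD4.w 24 ((jsD4 a ++ jsD4 b).map Fin.val)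
    ((CoxeterMatrix.G₂ : CoxeterMatrix (Fin 2)) a b) = true := by
  decide +kernel

theorem weylE6 {K : Type*} [Field K] [Fintype K] {q : ℕ} (hq : IsPrimePow q) (hK : Fintype.card K = q ^ 2) :
    ∃ φ : ↥(chevE6.monomialSubgroup K ⊓ (twsE6 hq hK).G1) →* (CoxeterMatrix.F₄).Group, Function.Surjective φ ∧
      φ.ker = (chevE6.diagonalSubgroup K ⊓ (twsE6 hq hK).G1).subgroupOf
        (chevE6.monomialSubgroup K ⊓ (twsE6 hq hK).G1) := by
  apply (twsE6 hq hK).cox_main1 good2E6 CoxeterMatrix.F₄ idxE6 (by decide +kernel) (by decide +kernel)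
    (by decide +kernel)
  intro a b
  rw [jsE6_eq, jsE6_eq, ← TwS.wl_append, ← List.map_append]
  have e : (twsE6 hq hK).wl (List.map Fin.val (jsE6 a ++ jsE6 b)) = goodE6.wdP (jsE6 a ++ jsE6 b) :=
    (twsE6 hq hK).wl_eq_wdP (jsE6 a ++ jsE6 b)
  rw [e]
  exact goodE6.orderOf_wordP (w_eq_of_chk fastE6 chkAuxE6) _ _ (cordTwE6 a b)

theorem weylD4 {K : Type*} [Field K] [Fintype K] {q : ℕ} (hq : IsPrimePow q) (hK : Fintype.card K = q ^ 3) :
    ∃ φ : ↥(chevD4.monomialSubgroup K ⊓ (twsD4 hq hK).G1) →* (CoxeterMatrix.G₂).Group, Function.Surjective φ ∧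
      φ.ker = (chevD4.diagonalSubgroup K ⊓ (twsD4 hq hK).G1).subgroupOf
        (chevD4.monomialSubgroup K ⊓ (twsD4 hq hK).G1) := by
  apply (twsD4 hq hK).cox_main1 good2D4 CoxeterMatrix.G₂ idxD4 (by decide +kernel) (by decide +kernel)
    (by decide +kernel)
  intro a b
  rw [jsD4_eq, jsD4_eq, ← TwS.wl_append, ← List.map_append]
  have e : (twsD4 hq hK).wl (List.map Fin.val (jsD4 a ++ jsD4 b)) = goodD4.wdP (jsD4 a ++ jsD4 b) :=
    (twsD4 hq hK).wl_eq_wdP (jsD4 a ++ jsD4 b)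
  rw [e]
  exact goodD4.orderOf_wordP (w_eq_of_chk fastD4 chkAuxD4) _ _ (cordTwD4 a b)

end Cfsg.Agent.Chev
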