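import Cfsg.Agent.Chev.TwF9

/-!
# The Ree groups `²F₄`: the diagonal subgroup `H¹`
-/

set_option autoImplicit false
set_option linter.unusedSectionVars false
set_option linter.unusedVariables false
set_option maxRecDepth 1000000

namespace Cfsg.Agent.Chev
open Cfsg.Lie
open scoped MatrixGroups

namespace Ree4
variable {K : Type*} [Field K] [Fintype K] [CharP K 2] (S : Ree4 K)

/-- an orthogonal pair together with its negative -/
structure A2N (r rb nr nrb : ℕ) : Prop where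
  hnr : chevF4.neg r = nr
  hnrb : chevF4.neg rb = nrb
  pos : A2C r rb
  neg : A2C nr nrb
  c1 : CommOK r nrb
  c2 : CommOK nr rb

omit [Fintype K] in
theorem ng_char2 (r : ℕ) (t : K) :
    (relsF4 K).ng r t = (relsF4 K).xg r t * (relsF4 K).xg (chevF4.neg r) t⁻¹ * (relsF4 K).xg r t := by
  rw [(relsF4 K).ng_eq, CharTwo.neg_eq]

omit [Fintype K] in
theorem ng_comm {r rb nr nrb : ℕ} (h : A2N r rb nr nrb) (t u : K) : Commute ((relsF4 K).ng r t) ((relsF4 K).ng rb u) := by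
  rw [ng_char2, ng_char2, h.hnr, h.hnrb]
  have a1 : ∀ x y : K, Commute ((relsF4 K).xg r x) ((relsF4 K).xg rb y) := comm_of_ok h.pos.comm
  have a2 : ∀ x y : K, Commute ((relsF4 K).xg r x) ((relsF4 K).xg nrb y) := comm_of_ok h.c1
  have a3 : ∀ x y : K, Commute ((relsF4 K).xg nr x) ((relsF4 K).xg rb y) := comm_of_ok h.c2
  have a4 : ∀ x y : K, Commute ((relsF4 K).xg nr x) ((relsF4 K).xg nrb y) := comm_of_ok h.neg.comm
  exact Commute.mul_left (Commute.mul_left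
    (Commute.mul_right (Commute.mul_right (a1 _ _) (a2 _ _)) (a1 _ _))
    (Commute.mul_right (Commute.mul_right (a3 _ _) (a4 _ _)) (a3 _ _)))
    (Commute.mul_right (Commute.mul_right (a1 _ _) (a2 _ _)) (a1 _ _))

omit [Fintype K] in
theorem nA_eq {r rb nr nrb : ℕ} (h : A2N r rb nr nrb) (c : K) :
    S.xA r rb c * S.xA nr nrb c⁻¹ * S.xA r rb c = (relsF4 K).ng r (S.φ c) * (relsF4 K).ng rb c := by
  rw [ng_char2, ng_char2, h.hnr, h.hnrb]
  unfold xA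
  rw [map_inv₀]
  have c1 : Commute ((relsF4 K).xg nr (S.φ c)⁻¹) ((relsF4 K).xg rb c) := comm_of_ok h.c2 _ _
  have c2 : Commute ((relsF4 K).xg r (S.φ c)) ((relsF4 K).xg nrb c⁻¹) := comm_of_ok h.c1 _ _
  have c3 : Commute ((relsF4 K).xg r (S.φ c)) ((relsF4 K).xg rb c) := comm_of_ok h.pos.comm _ _
  generalize (relsF4 K).xg r (S.φ c) = X33 at *
  generalize (relsF4 K).xg rb c = X24 at *
  generalize (relsF4 K).xg nr (S.φ c)⁻¹ = X14 at *
  generalize (relsF4 K).xg nrb c⁻¹ = X23 at *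
  calc X33 * X24 * (X14 * X23) * (X33 * X24) = X33 * (X24 * X14) * (X23 * X33) * X24 := by group
    _ = X33 * (X14 * X24) * (X33 * X23) * X24 := by rw [c1.eq, c2.eq]
    _ = X33 * X14 * (X24 * X33) * X23 * X24 := by group
    _ = X33 * X14 * (X33 * X24) * X23 * X24 := by rw [c3.eq]
    _ = _ := by group

omit [Fintype K] in
theorem hA_eq {r rb nr nrb : ℕ} (h : A2N r rb nr nrb) (c : K) :
    (relsF4 K).hg r (S.φ c) * (relsF4 K).hg rb c =
      (S.xA r rb c * S.xA nr nrb c⁻¹ * S.xA r rb c) * (S.xA r rb 1 * S.xA nr nrb 1⁻¹ * S.xA r rb 1) := by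
  rw [S.nA_eq h, S.nA_eq h, (relsF4 K).hg_eq, (relsF4 K).hg_eq, CharTwo.neg_eq, map_one]
  have c1 := ng_comm h (1 : K) c
  generalize (relsF4 K).ng r (S.φ c) = A at *
  generalize (relsF4 K).ng r 1 = B at *
  generalize (relsF4 K).ng rb c = C at *
  generalize (relsF4 K).ng rb 1 = E at *
  calc A * B * (C * E) = A * (B * C) * E := by group
    _ = A * (C * B) * E := by rw [c1.eq]
    _ = _ := by group

omit [Fintype K] in
theorem xA_mem_E {r rb : ℕ} (h : A2C r rb) (t : K) : S.xA r rb t ∈ S.E [r, rb] :=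
  ⟨Subgroup.mul_mem _ ((relsF4 K).xg_mem_UU (by simp) _) ((relsF4 K).xg_mem_UU (by simp) _),
      S.xA_mem_GG _ _ _, S.xA_fixed h t⟩

omit [Fintype K] in
theorem hA_mem {r rb nr nrb : ℕ} (h : A2N r rb nr nrb) (h1 : S.E [r, rb] ≤ S.G1) (h2 : S.E [nr, nrb] ≤ S.G1) (c : K) :
    (relsF4 K).hg r (S.φ c) * (relsF4 K).hg rb c ∈ S.G1 := by
  rw [S.hA_eq h]
  exact Subgroup.mul_mem _
    (Subgroup.mul_mem _ (Subgroup.mul_mem _ (h1 (S.xA_mem_E h.pos _)) (h2 (S.xA_mem_E h.neg _))) (h1 (S.xA_mem_E h.pos _)))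
    (Subgroup.mul_mem _ (Subgroup.mul_mem _ (h1 (S.xA_mem_E h.pos _)) (h2 (S.xA_mem_E h.neg _))) (h1 (S.xA_mem_E h.pos _)))

theorem E0n_le : S.E [14, 23] ≤ S.G1 := S.E_le_1 (by decide +kernel) (by decide) S.E0_le
theorem E6n_le : S.E [10, 15] ≤ S.G1 := S.E_le_2 (by decide +kernel) (by decide) S.E0n_le

end Ree4

theorem a2c6n : Ree4.A2C 10 15 := ⟨by decide, by decide, by decide, by decide +kernel⟩
theorem a2n0 : Ree4.A2N 33 24 14 23 :=
  ⟨by decide +kernel, by decide +kernel, Ree4.a2cPos, Ree4.a2cNeg, by decide +kernel, by decide +kernel⟩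
theorem a2n6 : Ree4.A2N 37 32 10 15 :=
  ⟨by decide +kernel, by decide +kernel, a2c6, a2c6n, by decide +kernel, by decide +kernel⟩

namespace Ree4
variable {K : Type*} [Field K] [Fintype K] [CharP K 2] (S : Ree4 K)

theorem hR_one_mem {c : K} (hc : c ≠ 0) : S.hR c 1 ∈ S.G1 := by
  have h := S.hA_mem a2n0 S.E0_le S.E0n_le c
  rw [hg33_eq (S.phi_ne_zero hc), hg24_eq hc, TF4_mul (S.phi_ne_zero hc) one_ne_zero one_ne_zero one_ne_zero
    one_ne_zero one_ne_zero one_ne_zero hc] at h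
  unfold hR
  rw [map_one]
  simpa using h

theorem hR_two_mem {c : K} (hc : c ≠ 0) : S.hR c (S.φ c ^ 2 * c ^ 2) ∈ S.G1 := by
  have h := S.hA_mem a2n6 S.E6_le S.E6n_le c
  have h' := S.phi_ne_zero hc
  rw [hg37_eq h', hg32_eq hc, TF4_mul h' (pow_ne_zero _ h') (pow_ne_zero _ h') one_ne_zero
    one_ne_zero hc (pow_ne_zero _ hc) hc] at h
  unfold hR
  rw [map_mul, map_pow, map_pow, S.phi_phi, mul_comm c]
  simpa using h

theorem hR_mem_G1 {y z : K} (hy : y ≠ 0) (hz : z ≠ 0) : S.hR y z ∈ S.G1 := by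
  have hz' := S.phi_ne_zero hz
  set c := z * (S.φ z)⁻¹ with hc
  have hc0 : c ≠ 0 := mul_ne_zero hz (inv_ne_zero hz')
  have e : S.φ c ^ 2 * c ^ 2 = z := by
    rw [hc, map_mul, map_inv₀, mul_pow, inv_pow, S.phi_phi, mul_pow, inv_pow]
    field_simp
  have h1 := S.hR_two_mem hc0
  rw [e] at h1
  have h2 := S.hR_one_mem (c := c⁻¹ * y) (mul_ne_zero (inv_ne_zero hc0) hy)
  have h3 := Subgroup.mul_mem _ h1 h2
  rw [S.hR_mul hc0 hz (mul_ne_zero (inv_ne_zero hc0) hy) one_ne_zero, mul_one, mul_inv_cancel_left₀ hc0] at h3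
  exact h3

theorem mem_H1_iff (g : GL chevF4.Idx K) :
    g ∈ chevF4.diagonalSubgroup K ⊓ S.G1 ↔ ∃ y z : K, y ≠ 0 ∧ z ≠ 0 ∧ g = S.hR y z := by
  constructor
  · intro h
    exact S.H_fixed ⟨h.1, S.G1_le_Γ h.2⟩
  · rintro ⟨y, z, hy, hz, rfl⟩
    exact ⟨S.hR_mem_H hy hz, S.hR_mem_G1 hy hz⟩

theorem H_inf_G1 : chevF4.diagonalSubgroup K ⊓ S.G1 = chevF4.diagonalSubgroup K ⊓ S.Γ := by
  apply le_antisymm (inf_le_inf_left _ S.G1_le_Γ)
  intro g hg
  obtain ⟨y, z, hy, hz, rfl⟩ := S.H_fixed hg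
  exact ⟨hg.1, S.hR_mem_G1 hy hz⟩

theorem card_H1 : Nat.card ↥(chevF4.diagonalSubgroup K ⊓ S.G1) = (Fintype.card K - 1) ^ 2 := by
  let ψ : Kˣ × Kˣ → ↥(chevF4.diagonalSubgroup K ⊓ S.G1) := fun y =>
    ⟨S.hR (y.1 : K) (y.2 : K), (S.mem_H1_iff _).mpr ⟨_, _, y.1.ne_zero, y.2.ne_zero, rfl⟩⟩
  have hψ : Function.Bijective ψ := by
    constructor
    · rintro ⟨y, z⟩ ⟨y', z'⟩ h
      obtain ⟨h1, h2⟩ := S.hR_inj y.ne_zero z.ne_zero y'.ne_zero z'.ne_zero (congrArg Subtype.val h)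
      rw [Units.ext h1, Units.ext h2]
    · rintro ⟨g, hg⟩
      obtain ⟨y, z, hy, hz, rfl⟩ := (S.mem_H1_iff g).mp hg
      exact ⟨(Units.mk0 y hy, Units.mk0 z hz), rfl⟩
  rw [← Nat.card_congr (Equiv.ofBijective ψ hψ), Nat.card_prod, Nat.card_units, Nat.card_eq_fintype_card]
  ring

end Ree4

end Cfsg.Agent.Chev
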