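import Cfsg.Agent.Chev.TwF10
import Mathlib.GroupTheory.SpecificGroups.Dihedral

/-!
# The Ree groups `²F₄`: the Weyl group
-/

set_option autoImplicit false
set_option linter.unusedSectionVars false
set_option linter.unusedVariables false
set_option maxRecDepth 1000000

namespace Cfsg.Agent.Chev
open Cfsg.Lie
open scoped MatrixGroups

theorem Good.neg_of_simple_neg {D : ChevalleyDatum} (G : Good D) {σ : Equiv.Perm (Fin D.nroots)} (hσ : σ ∈ G.W)
    {r : Fin D.nroots} (hr : D.nroots / 2 ≤ (r : ℕ))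
    (h : ∀ k (hk : k < D.rank), 0 < G.rc r k → (σ (G.sF k hk) : ℕ) < D.nroots / 2) : (σ r : ℕ) < D.nroots / 2 := by
  obtain ⟨lam', h1⟩ := G.W_lin hσ (wgt D.rank)
  rw [← G.ht_neg_iff (σ r).2]
  have h2 : G.ht (σ r) = G.lin lam' r := h1 r
  rw [h2]
  have h5 : 0 < G.lin (fun k => - lam' k) r := by
    apply G.lin_pos r.2 hr
    intro k hk hpos
    have h3 : G.ht (σ (G.sF k hk)) = G.lin lam' (G.sF k hk) := h1 _
    have h4 : G.lin lam' (G.sF k hk) = lam' k := G.lin_simple lam' k hk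
    have h6 := (G.ht_neg_iff (σ (G.sF k hk)).2).mpr (h k hk hpos)
    rw [h3, h4] at h6
    show 0 < - lam' k
    omega
  have h7 : G.lin (fun k => - lam' k) r = - G.lin lam' r := by
    unfold Good.lin
    rw [← Finset.sum_neg_distrib]
    apply Finset.sum_congr rfl
    intro j _
    ring
  omega

/-- the Weyl group of the twisted group -/
def W1F4 : Subgroup (Equiv.Perm (Fin chevF4.nroots)) where
  carrier := {w | w ∈ goodF4.W ∧ rhoPF4 * w * rhoPF4⁻¹ = w}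
  one_mem' := ⟨Subgroup.one_mem _, by group⟩
  mul_mem' := fun {a b} ha hb => ⟨Subgroup.mul_mem _ ha.1 hb.1, by
    calc rhoPF4 * (a * b) * rhoPF4⁻¹ = (rhoPF4 * a * rhoPF4⁻¹) * (rhoPF4 * b * rhoPF4⁻¹) := by group
      _ = a * b := by rw [ha.2, hb.2]⟩
  inv_mem' := fun {a} ha => ⟨Subgroup.inv_mem _ ha.1, by
    calc rhoPF4 * a⁻¹ * rhoPF4⁻¹ = (rhoPF4 * a * rhoPF4⁻¹)⁻¹ := by group
      _ = a⁻¹ := by rw [ha.2]⟩

theorem wJ1_mem_W : wJ1 ∈ goodF4.W := Subgroup.mul_mem _ (goodF4.wP_mem _ _) (goodF4.wP_mem _ _)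
theorem wJ2_mem_W : wJ2 ∈ goodF4.W :=
  Subgroup.mul_mem _ (Subgroup.mul_mem _ (Subgroup.mul_mem _ (goodF4.wP_mem _ _) (goodF4.wP_mem _ _))
    (goodF4.wP_mem _ _)) (goodF4.wP_mem _ _)

theorem wJ1_mem : wJ1 ∈ W1F4 := by
  refine ⟨wJ1_mem_W, ?_⟩
  ext s
  rw [rhoPF4_inv, Equiv.Perm.mul_apply, Equiv.Perm.mul_apply, rhoPF4_apply, wJ1_apply, wJ1_apply, rhoPF4_apply]
  have key : ∀ s : Fin 48, rhoF4 (w1f (rhoF4 s)) = w1f s := by decide +kernel
  exact key s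

theorem wJ2_mem : wJ2 ∈ W1F4 := by
  refine ⟨wJ2_mem_W, ?_⟩
  ext s
  rw [rhoPF4_inv, Equiv.Perm.mul_apply, Equiv.Perm.mul_apply, rhoPF4_apply, wJ2_apply, wJ2_apply, rhoPF4_apply]
  have key : ∀ s : Fin 48, rhoF4 (w2f (rhoF4 s)) = w2f s := by decide +kernel
  exact key s

theorem wJ1_sq : wJ1 * wJ1 = 1 := by
  ext s
  rw [Equiv.Perm.mul_apply, wJ1_apply, wJ1_apply]
  have key : ∀ s : Fin 48, w1f (w1f s) = s := by decide +kernel
  exact key s

theorem wJ2_sq : wJ2 * wJ2 = 1 := by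
  ext s
  rw [Equiv.Perm.mul_apply, wJ2_apply, wJ2_apply]
  have key : ∀ s : Fin 48, w2f (w2f s) = s := by decide +kernel
  exact key s

theorem W1_comm {w : Equiv.Perm (Fin chevF4.nroots)} (hw : w ∈ W1F4) (s : Fin chevF4.nroots) :
    w (rhoPF4 s) = rhoPF4 (w s) := by
  have : rhoPF4 * w = w * rhoPF4 := by
    calc rhoPF4 * w = (rhoPF4 * w * rhoPF4⁻¹) * rhoPF4 := by group
      _ = _ := by rw [hw.2]
  have h2 := congrArg (fun σ : Equiv.Perm (Fin chevF4.nroots) => σ s) this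
  simp only [Equiv.Perm.mul_apply] at h2
  exact h2.symm

theorem W1_neg_pair {w : Equiv.Perm (Fin chevF4.nroots)} (hw : w ∈ W1F4) {j : ℕ} (hj : j < chevF4.rank)
    (hj' : 3 - j < chevF4.rank) (h : (w (goodF4.sF j hj) : ℕ) < chevF4.nroots / 2) :
    (w (goodF4.sF (3 - j) hj') : ℕ) < chevF4.nroots / 2 := by
  have e : goodF4.sF (3 - j) hj' = rhoPF4 (goodF4.sF j hj) := by
    apply Fin.ext
    rw [rhoPF4_apply]
    have key2 : ∀ i < 4, rhoF4 (chevF4.simple i) = chevF4.simple (3 - i) := by decide +kernel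
    exact (key2 j hj).symm
  rw [e, W1_comm hw, rhoPF4_apply]
  exact rhoF4_negative _ h

theorem nn_step {w : Equiv.Perm (Fin chevF4.nroots)} (hw : w ∈ goodF4.W) (i : ℕ) (hi : i < chevF4.rank)
    (h : (w (goodF4.sF i hi) : ℕ) < chevF4.nroots / 2) : goodF4.nn (w * goodF4.wP i hi) + 1 = goodF4.nn w := by
  have h1 := goodF4.nn_mul_refl hw i hi
  rw [if_pos h, if_neg (by omega)] at h1
  exact h1

theorem nn_wJ1 {w : Equiv.Perm (Fin chevF4.nroots)} (hw : w ∈ goodF4.W)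
    (h0 : (w (goodF4.sF 0 (by decide)) : ℕ) < chevF4.nroots / 2)
    (h3 : (w (goodF4.sF 3 (by decide)) : ℕ) < chevF4.nroots / 2) : goodF4.nn (w * wJ1) + 2 = goodF4.nn w := by
  have a1 := nn_step hw 0 (by decide) h0
  have a2 := nn_step (Subgroup.mul_mem _ hw (goodF4.wP_mem 0 (by decide))) 3 (by decide) (by
    rw [Equiv.Perm.mul_apply]
    have e : goodF4.wP 0 (by decide) (goodF4.sF 3 (by decide)) = goodF4.sF 3 (by decide) := by
      apply Fin.ext
      rw [goodF4.wP_apply]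
      decide +kernel
    rw [e]
    exact h3)
  unfold wJ1
  rw [← mul_assoc]
  omega

theorem negB2 {w : Equiv.Perm (Fin chevF4.nroots)} (hw : w ∈ goodF4.W)
    (h1 : (w (goodF4.sF 1 (by decide)) : ℕ) < chevF4.nroots / 2)
    (h2 : (w (goodF4.sF 2 (by decide)) : ℕ) < chevF4.nroots / 2) (r : Fin chevF4.nroots)
    (hr : r.1 ∈ [27, 25, 28, 30]) : (w r : ℕ) < chevF4.nroots / 2 := by
  have k1 : ∀ r ∈ [27, 25, 28, 30], 24 ≤ r := by decide
  have k2 : ∀ r ∈ [27, 25, 28, 30], ∀ k < 4, 0 < goodF4.rc r k → k = 1 ∨ k = 2 := by decide +kernel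
  apply goodF4.neg_of_simple_neg hw (k1 _ hr)
  intro k hk hpos
  rcases k2 _ hr k hk hpos with rfl | rfl
  · exact h1
  · exact h2

theorem nn_wJ2 {w : Equiv.Perm (Fin chevF4.nroots)} (hw : w ∈ goodF4.W)
    (h1 : (w (goodF4.sF 1 (by decide)) : ℕ) < chevF4.nroots / 2)
    (h2 : (w (goodF4.sF 2 (by decide)) : ℕ) < chevF4.nroots / 2) : goodF4.nn (w * wJ2) + 4 = goodF4.nn w := by
  have m1 := Subgroup.mul_mem _ hw (goodF4.wP_mem 1 (by decide))
  have m2 := Subgroup.mul_mem _ m1 (goodF4.wP_mem 2 (by decide))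
  have m3 := Subgroup.mul_mem _ m2 (goodF4.wP_mem 1 (by decide))
  have a1 := nn_step hw 1 (by decide) h1
  have a2 := nn_step m1 2 (by decide) (by
    rw [Equiv.Perm.mul_apply]
    apply negB2 hw h1 h2
    rw [goodF4.wP_apply]
    decide +kernel)
  have a3 := nn_step m2 1 (by decide) (by
    rw [Equiv.Perm.mul_apply, Equiv.Perm.mul_apply]
    apply negB2 hw h1 h2
    rw [goodF4.wP_apply, goodF4.wP_apply]
    decide +kernel)
  have a4 := nn_step m3 2 (by decide) (by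
    rw [Equiv.Perm.mul_apply, Equiv.Perm.mul_apply, Equiv.Perm.mul_apply]
    apply negB2 hw h1 h2
    rw [goodF4.wP_apply, goodF4.wP_apply, goodF4.wP_apply]
    decide +kernel)
  unfold wJ2
  rw [← mul_assoc, ← mul_assoc, ← mul_assoc]
  omega

theorem W1_cases {w : Equiv.Perm (Fin chevF4.nroots)} (hw : w ∈ W1F4) (h0 : goodF4.nn w ≠ 0) :
    goodF4.nn (w * wJ1) + 2 = goodF4.nn w ∨ goodF4.nn (w * wJ2) + 4 = goodF4.nn w := by
  obtain ⟨j, hj, hneg⟩ := goodF4.exists_simple_neg hw.1 h0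
  have hj4 : j < 4 := hj
  have h' := W1_neg_pair hw hj (by show 3 - j < 4; omega) hneg
  interval_cases j
  · exact Or.inl (nn_wJ1 hw.1 hneg h')
  · exact Or.inr (nn_wJ2 hw.1 hneg h')
  · exact Or.inr (nn_wJ2 hw.1 h' hneg)
  · exact Or.inl (nn_wJ1 hw.1 h' hneg)

theorem W1_ind {p : Equiv.Perm (Fin chevF4.nroots) → Prop} (one : p 1)
    (m1 : ∀ w ∈ W1F4, p w → p (w * wJ1)) (m2 : ∀ w ∈ W1F4, p w → p (w * wJ2)) : ∀ w ∈ W1F4, p w := by
  have key : ∀ k, ∀ w ∈ W1F4, goodF4.nn w = k → p w := by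
    intro k
    induction k using Nat.strong_induction_on with
    | _ k ih =>
      intro w hw hk
      by_cases h0 : goodF4.nn w = 0
      · rw [(relsF4 ℚ).W_eq_one good2F4 hw.1 h0]; exact one
      · rcases W1_cases hw h0 with h | h
        · have h2 := Subgroup.mul_mem _ hw wJ1_mem
          have h3 := m1 _ h2 (ih _ (by omega) _ h2 rfl)
          rwa [mul_assoc, wJ1_sq, mul_one] at h3
        · have h2 := Subgroup.mul_mem _ hw wJ2_mem
          have h3 := m2 _ h2 (ih _ (by omega) _ h2 rfl)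
          rwa [mul_assoc, wJ2_sq, mul_one] at h3
  exact fun w hw => key _ w hw rfl

/-! ### the dihedral group -/

def RF4 : Equiv.Perm (Fin chevF4.nroots) := wJ1 * wJ2
def Rf (s : ℕ) : ℕ := w1f (w2f s)

theorem RF4_apply (s : Fin chevF4.nroots) : ((RF4 s : Fin chevF4.nroots) : ℕ) = Rf s := by
  unfold RF4 Rf
  rw [Equiv.Perm.mul_apply, wJ1_apply, wJ2_apply]

theorem RF4_pow_apply (k : ℕ) (s : Fin chevF4.nroots) : (((RF4 ^ k) s : Fin chevF4.nroots) : ℕ) = Rf^[k] s := by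
  induction k generalizing s with
  | zero => rfl
  | succ k ih => rw [pow_succ, Equiv.Perm.mul_apply, ih, RF4_apply, Function.iterate_succ_apply]

theorem RF4_pow8 : RF4 ^ 8 = 1 := by
  ext s
  rw [RF4_pow_apply]
  have key : ∀ s : Fin 48, Rf^[8] s = s := by decide +kernel
  exact key s

def PF4 (i : ZMod 8) : Equiv.Perm (Fin chevF4.nroots) := RF4 ^ i.val

theorem PF4_add (i j : ZMod 8) : PF4 (i + j) = PF4 i * PF4 j := by
  unfold PF4
  rw [ZMod.val_add, ← pow_add, ← pow_eq_pow_mod _ RF4_pow8]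

theorem PF4_sub (i j : ZMod 8) : PF4 (j - i) = (PF4 i)⁻¹ * PF4 j := by
  rw [eq_inv_mul_iff_mul_eq, ← PF4_add, add_sub_cancel]

theorem wJ1_inv : wJ1⁻¹ = wJ1 := inv_eq_of_mul_eq_one_left wJ1_sq
theorem wJ2_inv : wJ2⁻¹ = wJ2 := inv_eq_of_mul_eq_one_left wJ2_sq

theorem PF4_conj (i : ZMod 8) : PF4 i * wJ1 = wJ1 * (PF4 i)⁻¹ := by
  unfold PF4
  have h : SemiconjBy wJ1 RF4⁻¹ RF4 := by
    show wJ1 * RF4⁻¹ = RF4 * wJ1
    unfold RF4
    rw [mul_inv_rev, wJ1_inv, wJ2_inv, mul_assoc]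
  have := (h.pow_right i.val).eq
  rw [inv_pow] at this
  exact this.symm

def psiD : DihedralGroup 8 → Equiv.Perm (Fin chevF4.nroots)
  | .r i => PF4 i
  | .sr i => wJ1 * PF4 i

theorem psiD_mul (a b : DihedralGroup 8) : psiD (a * b) = psiD a * psiD b := by
  rcases a with i | i <;> rcases b with j | j
  · show PF4 (i + j) = PF4 i * PF4 j
    exact PF4_add i j
  · show wJ1 * PF4 (j - i) = PF4 i * (wJ1 * PF4 j)
    rw [PF4_sub, ← mul_assoc (PF4 i), PF4_conj]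
    group
  · show wJ1 * PF4 (i + j) = wJ1 * PF4 i * PF4 j
    rw [PF4_add, mul_assoc]
  · show PF4 (j - i) = wJ1 * PF4 i * (wJ1 * PF4 j)
    rw [PF4_sub, mul_assoc wJ1, ← mul_assoc (PF4 i), PF4_conj, ← mul_assoc, ← mul_assoc, wJ1_sq, one_mul]

def psiH : DihedralGroup 8 →* Equiv.Perm (Fin chevF4.nroots) := MonoidHom.mk' psiD psiD_mul

theorem psiH_inj : Function.Injective psiH := by
  rw [injective_iff_map_eq_one]
  intro a ha
  rcases a with i | i
  · have h1 : PF4 i = 1 := ha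
    have h2 := RF4_pow_apply i.val ⟨33, by decide⟩
    unfold PF4 at h1
    rw [h1] at h2
    have key : ∀ k < 8, Rf^[k] 33 = 33 → k = 0 := by decide +kernel
    have h3 := key i.val (ZMod.val_lt i) h2.symm
    rw [ZMod.val_eq_zero] at h3
    rw [h3]; rfl
  · exfalso
    have h1 : wJ1 * PF4 i = 1 := ha
    have key : ∀ k < 8, ¬ (w1f (Rf^[k] 33) = 33 ∧ w1f (Rf^[k] 27) = 27) := by decide +kernel
    apply key i.val (ZMod.val_lt i)
    unfold PF4 at h1
    constructor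
    · have := congrArg (fun σ : Equiv.Perm (Fin chevF4.nroots) => ((σ ⟨33, by decide⟩ : Fin chevF4.nroots) : ℕ)) h1
      simp only [Equiv.Perm.mul_apply, wJ1_apply, RF4_pow_apply] at this
      exact this
    · have := congrArg (fun σ : Equiv.Perm (Fin chevF4.nroots) => ((σ ⟨27, by decide⟩ : Fin chevF4.nroots) : ℕ)) h1
      simp only [Equiv.Perm.mul_apply, wJ1_apply, RF4_pow_apply] at this
      exact this

theorem psiH_sr0 : psiH (.sr 0) = wJ1 := by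
  show wJ1 * PF4 0 = wJ1
  unfold PF4
  simp

theorem psiH_sr1 : psiH (.sr 1) = wJ2 := by
  show wJ1 * PF4 1 = wJ2
  unfold PF4 RF4
  rw [show (1 : ZMod 8).val = 1 from rfl, pow_one, ← mul_assoc, wJ1_sq, one_mul]

theorem W1_range {w : Equiv.Perm (Fin chevF4.nroots)} (hw : w ∈ W1F4) : ∃ d, psiH d = w := by
  refine W1_ind (p := fun w => ∃ d, psiH d = w) ⟨1, map_one _⟩ ?_ ?_ w hw
  · rintro w _ ⟨d, rfl⟩
    exact ⟨d * .sr 0, by rw [map_mul, psiH_sr0]⟩
  · rintro w _ ⟨d, rfl⟩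
    exact ⟨d * .sr 1, by rw [map_mul, psiH_sr1]⟩

theorem psiH_mem (d : DihedralGroup 8) : psiH d ∈ W1F4 := by
  have hP : ∀ i, PF4 i ∈ W1F4 := fun i => Subgroup.pow_mem _ (Subgroup.mul_mem _ wJ1_mem wJ2_mem) _
  rcases d with i | i
  · exact hP i
  · exact Subgroup.mul_mem _ wJ1_mem (hP i)

namespace Ree4
variable {K : Type*} [Field K] [Fintype K] [CharP K 2] (S : Ree4 K)

omit [Fintype K] in
theorem mono_comm {n : GL chevF4.Idx K} {w : Equiv.Perm (Fin chevF4.nroots)} (hn : n ∈ chevF4.monomialSubgroup K ⊓ S.Γ)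
    (hm : (relsF4 K).IsMono n w) : rhoPF4 * w * rhoPF4⁻¹ = w := by
  have h1 := S.sg_mono hn.1 hm
  rw [hn.2.2] at h1
  exact Rels.IsMono.unique (relsF4 K) h1 hm

omit [Fintype K] in
theorem N_type {n : GL chevF4.Idx K} (hn : n ∈ chevF4.monomialSubgroup K ⊓ S.Γ) :
    ∃ d, (relsF4 K).IsMono n (psiH d) := by
  obtain ⟨w, hw, hm⟩ := (relsF4 K).N_mono good2F4 hn.1
  obtain ⟨d, rfl⟩ := W1_range ⟨hw, S.mono_comm hn hm⟩
  exact ⟨d, hm⟩

omit [Fintype K] in
theorem exists_N1 (d : DihedralGroup 8) : ∃ n ∈ chevF4.monomialSubgroup K ⊓ S.G1, (relsF4 K).IsMono n (psiH d) := by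
  have h1 : nJ1 K ∈ chevF4.monomialSubgroup K ⊓ S.G1 := ⟨nJ1_mem_N K, S.nJ1_mem⟩
  have h2 : nJ2 K ∈ chevF4.monomialSubgroup K ⊓ S.G1 := ⟨nJ2_mem_N K, S.nJ2_mem⟩
  have hP : ∀ k : ℕ, (relsF4 K).IsMono ((nJ1 K * nJ2 K) ^ k) (RF4 ^ k) := by
    intro k
    induction k with
    | zero => exact Rels.IsMono.of_tor (relsF4 K) (Rels.IsTor.one (relsF4 K))
    | succ k ih =>
      rw [pow_succ, pow_succ]
      exact Rels.IsMono.mul (relsF4 K) ih (Rels.IsMono.mul (relsF4 K) (nJ1_mono K) (nJ2_mono K))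
  rcases d with i | i
  · exact ⟨_, Subgroup.pow_mem _ (Subgroup.mul_mem _ h1 h2) i.val, hP i.val⟩
  · exact ⟨_, Subgroup.mul_mem _ h1 (Subgroup.pow_mem _ (Subgroup.mul_mem _ h1 h2) i.val),
      Rels.IsMono.mul (relsF4 K) (nJ1_mono K) (hP i.val)⟩

omit [Fintype K] in
theorem weyl : ∃ φ : ↥(chevF4.monomialSubgroup K ⊓ S.G1) →* DihedralGroup 8, Function.Surjective φ ∧
    φ.ker = (chevF4.diagonalSubgroup K ⊓ S.G1).subgroupOf (chevF4.monomialSubgroup K ⊓ S.G1) := by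
  have hex : ∀ n : ↥(chevF4.monomialSubgroup K ⊓ S.G1), ∃ d, (relsF4 K).IsMono (n : GL chevF4.Idx K) (psiH d) :=
    fun n => S.N_type ⟨n.2.1, S.G1_le_Γ n.2.2⟩
  let f : ↥(chevF4.monomialSubgroup K ⊓ S.G1) → DihedralGroup 8 := fun n => Classical.choose (hex n)
  have hf : ∀ n : ↥(chevF4.monomialSubgroup K ⊓ S.G1), (relsF4 K).IsMono (n : GL chevF4.Idx K) (psiH (f n)) :=
    fun n => Classical.choose_spec (hex n)
  have huniq : ∀ (n : ↥(chevF4.monomialSubgroup K ⊓ S.G1)) d, (relsF4 K).IsMono (n : GL chevF4.Idx K) (psiH d) → f n = d :=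
    fun n d h => psiH_inj (Rels.IsMono.unique (relsF4 K) (hf n) h)
  have hmul : ∀ a b, f (a * b) = f a * f b := by
    intro a b
    apply huniq
    rw [map_mul]
    exact Rels.IsMono.mul (relsF4 K) (hf a) (hf b)
  refine ⟨MonoidHom.mk' f hmul, ?_, ?_⟩
  · intro d
    obtain ⟨n, hn, hm⟩ := S.exists_N1 d
    exact ⟨⟨n, hn⟩, huniq _ _ hm⟩
  · ext n
    rw [MonoidHom.mem_ker, Subgroup.mem_subgroupOf, MonoidHom.mk'_apply]
    constructor
    · intro h
      have h1 := hf n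
      rw [h, map_one] at h1
      exact ⟨(relsF4 K).mono_one_mem_H good2F4 n.2.1 h1, n.2.2⟩
    · intro h
      apply huniq
      rw [map_one]
      exact Rels.IsMono.of_tor (relsF4 K) ((relsF4 K).H_le_Tor h.1)

end Ree4

end Cfsg.Agent.Chev
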