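import Cfsg.Agent.Chev.TwF11

/-!
# The Ree groups `²F₄`: the decomposition of the fixed points, and the order
-/

set_option autoImplicit false
set_option linter.unusedSectionVars false
set_option linter.unusedVariables false
set_option maxRecDepth 1000000

namespace Cfsg.Agent.Chev
open Cfsg.Lie
open scoped MatrixGroups

theorem negP_rhoF4 {w : Equiv.Perm (Fin chevF4.nroots)} (hw : w ∈ W1F4) (s : ℕ) (hs : negP chevF4 w s) :
    s < 48 ∧ negP chevF4 w (rhoF4 s) := by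
  obtain ⟨h1, h2, h3⟩ := hs
  refine ⟨h1, rhoF4_lt s h1, rhoF4_pos s h1 h2, ?_⟩
  have h4 := W1_comm hw ⟨s, h1⟩
  have h5 : (⟨rhoF4 s, rhoF4_lt s h1⟩ : Fin chevF4.nroots) = rhoPF4 ⟨s, h1⟩ := rfl
  rw [h5, h4, rhoPF4_apply]
  exact rhoF4_negative _ h3

theorem Um_le_UF4 (K : Type*) [Field K] (w : Equiv.Perm (Fin chevF4.nroots)) :
    UU chevF4 K (negP chevF4 w) ≤ chevF4.posUnipotent K := by
  rw [← UU_pos]
  exact UU_mono (fun s hs => (goodF4.isPosRoot_iff s).mpr ⟨hs.2.1, hs.1⟩)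

namespace Ree4
variable {K : Type*} [Field K] [Fintype K] [CharP K 2] (S : Ree4 K)

/-- the decomposition of a fixed element -/
theorem fixed_decomp {g : GL chevF4.Idx K} (hg : g ∈ S.Γ) : ∃ w ∈ W1F4,
    ∃ u1 ∈ chevF4.posUnipotent K ⊓ S.Γ, ∃ n ∈ chevF4.monomialSubgroup K ⊓ S.Γ, (relsF4 K).IsMono n w ∧
      ∃ u ∈ UU chevF4 K (negP chevF4 w) ⊓ S.Γ, g = u1 * n * u := by
  obtain ⟨b, hb, n, hn, w, hw, hm, u, hu, e⟩ := (relsF4 K).normal_form_exists good2F4 hg.1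
  have huU : u ∈ chevF4.posUnipotent K := Um_le_UF4 K w hu
  have hbG := (relsF4 K).B_le_group hb
  have hnG := (relsF4 K).N_le_group hn
  have huG := (relsF4 K).U_le_group huU
  have e2 : b * n * u = S.sg b * S.sg n * S.sg u := by
    rw [← S.sg_mul hbG hnG, ← S.sg_mul (Subgroup.mul_mem _ hbG hnG) huG, ← e, hg.2]
  have h1 := (relsF4 K).bruhat_unique_GL good2F4 hn (S.sg_N n hn) hb ((relsF4 K).U_le_B huU) (S.sg_B b hb)
    ((relsF4 K).U_le_B (S.sg_U u huU)) e2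
  have hm2 : (relsF4 K).IsMono (S.sg n) w := by
    have := Rels.IsMono.mul (relsF4 K) hm (Rels.IsMono.of_tor (relsF4 K) ((relsF4 K).H_le_Tor h1))
    rwa [mul_one, mul_inv_cancel_left] at this
  have hc := Rels.IsMono.unique (relsF4 K) (S.sg_mono hn hm) hm2
  have hw1 : w ∈ W1F4 := ⟨hw, hc⟩
  refine ⟨w, hw1, ?_⟩
  have h2 : S.sg n * n⁻¹ ∈ chevF4.diagonalSubgroup K := by
    have := (Subgroup.mem_normalizer_iff.mp ((relsF4 K).N_le_normalizer_H good2F4 hn) _).mp h1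
    have e3 : n * (n⁻¹ * S.sg n) * n⁻¹ = S.sg n * n⁻¹ := by group
    rwa [e3] at this
  have hsu : S.sg u ∈ UU chevF4 K (negP chevF4 w) := S.sg_UU (negP_rhoF4 hw1) u hu
  have e3 : b * n * u = (S.sg b * (S.sg n * n⁻¹)) * n * S.sg u := by rw [e2]; group
  obtain ⟨e4, e5⟩ := (relsF4 K).normal_form_unique hb
    (Subgroup.mul_mem _ (S.sg_B b hb) ((relsF4 K).H_le_B h2)) hm hu hsu e3
  obtain ⟨u1, hu1, h, hh, rfl⟩ := exists_mul_of_mem_sup (relsF4 K).H_le_normalizer_U hb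
  have hu1G := (relsF4 K).U_le_group hu1
  have hhG := (relsF4 K).H_le_group hh
  rw [S.sg_mul hu1G hhG] at e4
  have e6 : u1⁻¹ * S.sg u1 = h * (S.sg h * (S.sg n * n⁻¹))⁻¹ := by
    calc u1⁻¹ * S.sg u1 = u1⁻¹ * (S.sg u1 * S.sg h * (S.sg n * n⁻¹)) * (S.sg h * (S.sg n * n⁻¹))⁻¹ := by group
      _ = _ := by rw [← e4]; group
  have h3 : u1⁻¹ * S.sg u1 ∈ chevF4.posUnipotent K ⊓ chevF4.diagonalSubgroup K :=
    ⟨Subgroup.mul_mem _ (Subgroup.inv_mem _ hu1) (S.sg_U u1 hu1),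
      e6 ▸ Subgroup.mul_mem _ hh (Subgroup.inv_mem _ (Subgroup.mul_mem _ (S.sg_H h hh) h2))⟩
  rw [(relsF4 K).U_inf_H, Subgroup.mem_bot] at h3
  have hu1Γ : u1 ∈ S.Γ := ⟨hu1G, (inv_mul_eq_one.mp h3).symm⟩
  have huΓ : u ∈ S.Γ := ⟨huG, e5.symm⟩
  have hnΓ : h * n ∈ S.Γ := by
    have := Subgroup.mul_mem _ (Subgroup.mul_mem _ (Subgroup.inv_mem _ hu1Γ) hg) (Subgroup.inv_mem _ huΓ)
    have e7 : u1⁻¹ * g * u⁻¹ = h * n := by rw [e]; group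
    rwa [e7] at this
  refine ⟨u1, ⟨hu1, hu1Γ⟩, h * n, ⟨Subgroup.mul_mem _ ((relsF4 K).H_le_N hh) hn, hnΓ⟩, ?_, u, ⟨hu, huΓ⟩, ?_⟩
  · have := Rels.IsMono.mul (relsF4 K) (Rels.IsMono.of_tor (relsF4 K) ((relsF4 K).H_le_Tor hh)) hm
    rwa [one_mul] at this
  · rw [e]; group

theorem N_fixed_le : chevF4.monomialSubgroup K ⊓ S.Γ ≤ S.G1 := by
  intro n hn
  obtain ⟨d, hm⟩ := S.N_type hn
  obtain ⟨n', hn', hm'⟩ := S.exists_N1 d
  have h1 : n * n'⁻¹ ∈ chevF4.diagonalSubgroup K := by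
    apply (relsF4 K).mono_one_mem_H good2F4 (Subgroup.mul_mem _ hn.1 (Subgroup.inv_mem _ hn'.1))
    have := Rels.IsMono.mul (relsF4 K) hm (Rels.IsMono.inv (relsF4 K) hm')
    rwa [mul_inv_cancel] at this
  have h2 : n * n'⁻¹ ∈ chevF4.diagonalSubgroup K ⊓ S.G1 := by
    rw [S.H_inf_G1]
    exact ⟨h1, Subgroup.mul_mem _ hn.2 (Subgroup.inv_mem _ (S.G1_le_Γ hn'.2))⟩
  have := Subgroup.mul_mem _ h2.2 hn'.2
  rwa [inv_mul_cancel_right] at this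

theorem Γ_eq : S.Γ = S.G1 := by
  apply le_antisymm _ S.G1_le_Γ
  intro g hg
  obtain ⟨w, hw, u1, hu1, n, hn, hm, u, hu, rfl⟩ := S.fixed_decomp hg
  exact Subgroup.mul_mem _ (Subgroup.mul_mem _ (S.U_fixed_le hu1) (S.N_fixed_le hn))
    (S.U_fixed_le ⟨Um_le_UF4 K w hu.1, hu.2⟩)

theorem B1_decomp {g : GL chevF4.Idx K} (hg : g ∈ chevF4.borelSubgroup K ⊓ S.G1) :
    ∃ u ∈ chevF4.posUnipotent K ⊓ S.G1, ∃ h ∈ chevF4.diagonalSubgroup K ⊓ S.G1, g = u * h := by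
  obtain ⟨hg, hg1⟩ := hg
  obtain ⟨u, hu, h, hh, rfl⟩ := exists_mul_of_mem_sup (relsF4 K).H_le_normalizer_U hg
  have hfix := (S.G1_le_Γ hg1).2
  rw [S.sg_mul ((relsF4 K).U_le_group hu) ((relsF4 K).H_le_group hh)] at hfix
  have e2 : u⁻¹ * S.sg u = h * (S.sg h)⁻¹ := by
    calc u⁻¹ * S.sg u = u⁻¹ * (S.sg u * S.sg h) * (S.sg h)⁻¹ := by group
      _ = _ := by rw [hfix]; group
  have h1 : u⁻¹ * S.sg u ∈ chevF4.posUnipotent K ⊓ chevF4.diagonalSubgroup K :=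
    ⟨Subgroup.mul_mem _ (Subgroup.inv_mem _ hu) (S.sg_U u hu),
      e2 ▸ Subgroup.mul_mem _ hh (Subgroup.inv_mem _ (S.sg_H h hh))⟩
  rw [(relsF4 K).U_inf_H, Subgroup.mem_bot] at h1
  have hu1 : u ∈ S.G1 := S.U_fixed_le ⟨hu, (relsF4 K).U_le_group hu, (inv_mul_eq_one.mp h1).symm⟩
  have hh1 : h ∈ S.G1 := by
    have := Subgroup.mul_mem _ (Subgroup.inv_mem _ hu1) hg1
    rwa [inv_mul_cancel_left] at this
  exact ⟨u, ⟨hu, hu1⟩, h, ⟨hh, hh1⟩, rfl⟩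

theorem card_B1 : Nat.card ↥(chevF4.borelSubgroup K ⊓ S.G1) = Fintype.card K ^ 12 * (Fintype.card K - 1) ^ 2 := by
  rw [← S.card_U1, ← S.card_H1]
  let ψ : ↥(chevF4.posUnipotent K ⊓ S.G1) × ↥(chevF4.diagonalSubgroup K ⊓ S.G1) → ↥(chevF4.borelSubgroup K ⊓ S.G1) :=
    fun x => ⟨x.1.1 * x.2.1, Subgroup.mul_mem _ ((relsF4 K).U_le_B x.1.2.1) ((relsF4 K).H_le_B x.2.2.1),
      Subgroup.mul_mem _ x.1.2.2 x.2.2.2⟩
  have hψ : Function.Bijective ψ := by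
    constructor
    · rintro ⟨u, h⟩ ⟨u', h'⟩ e
      have e1 : u.1 * h.1 = u'.1 * h'.1 := congrArg Subtype.val e
      have e2 : u'.1⁻¹ * u.1 = h'.1 * h.1⁻¹ := by
        calc u'.1⁻¹ * u.1 = u'.1⁻¹ * (u.1 * h.1) * h.1⁻¹ := by group
          _ = _ := by rw [e1]; group
      have h1 : u'.1⁻¹ * u.1 ∈ chevF4.posUnipotent K ⊓ chevF4.diagonalSubgroup K :=
        ⟨Subgroup.mul_mem _ (Subgroup.inv_mem _ u'.2.1) u.2.1,
          e2 ▸ Subgroup.mul_mem _ h'.2.1 (Subgroup.inv_mem _ h.2.1)⟩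
      rw [(relsF4 K).U_inf_H, Subgroup.mem_bot] at h1
      have h2 : u = u' := Subtype.ext (inv_mul_eq_one.mp h1).symm
      have h3 : h = h' := by
        apply Subtype.ext
        rw [h1] at e2
        exact (mul_inv_eq_one.mp e2.symm).symm
      rw [h2, h3]
    · rintro ⟨g, hg⟩
      obtain ⟨u, hu, h, hh, rfl⟩ := S.B1_decomp hg
      exact ⟨⟨⟨u, hu⟩, ⟨h, hh⟩⟩, rfl⟩
  rw [← Nat.card_congr (Equiv.ofBijective ψ hψ), Nat.card_prod]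

theorem card_G1 : Nat.card ↥S.G1 = Nat.card ↥(chevF4.borelSubgroup K ⊓ S.G1) *
    ∑ d : DihedralGroup 8, Nat.card ↥(UU chevF4 K (negP chevF4 (psiH d)) ⊓ S.Γ) := by
  classical
  choose rep hrepN hrep using fun d : DihedralGroup 8 => S.exists_N1 d
  let ψ : (Σ d : DihedralGroup 8, ↥(chevF4.borelSubgroup K ⊓ S.G1) × ↥(UU chevF4 K (negP chevF4 (psiH d)) ⊓ S.Γ)) →
      ↥S.G1 := fun x =>
    ⟨x.2.1.1 * rep x.1 * x.2.2.1, Subgroup.mul_mem _ (Subgroup.mul_mem _ x.2.1.2.2 (hrepN x.1).2)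
      (S.Γ_eq.le x.2.2.2.2)⟩
  have hψ : Function.Bijective ψ := by
    constructor
    · rintro ⟨σ, b, u⟩ ⟨σ', b', u'⟩ h
      have e : b.1 * rep σ * u.1 = b'.1 * rep σ' * u'.1 := congrArg Subtype.val h
      have h1 := (relsF4 K).bruhat_unique_GL good2F4 (hrepN σ).1 (hrepN σ').1 b.2.1 ((relsF4 K).Um_le_B _ u.2.1) b'.2.1
        ((relsF4 K).Um_le_B _ u'.2.1) e
      have h2 := Rels.IsMono.unique (relsF4 K) (Rels.IsMono.of_tor (relsF4 K) ((relsF4 K).H_le_Tor h1))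
        (Rels.IsMono.mul (relsF4 K) (Rels.IsMono.inv (relsF4 K) (hrep σ)) (hrep σ'))
      have h3 : σ = σ' := psiH_inj (inv_mul_eq_one.mp h2.symm)
      subst h3
      obtain ⟨e1, e2⟩ := (relsF4 K).normal_form_unique b.2.1 b'.2.1 (hrep σ) u.2.1 u'.2.1 e
      have e1' : b = b' := Subtype.ext e1
      have e2' : u = u' := Subtype.ext e2
      rw [e1', e2']
    · rintro ⟨g, hg⟩
      obtain ⟨w, hw, u1, hu1, n, hn, hm, u, hu, e⟩ := S.fixed_decomp (S.G1_le_Γ hg)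
      obtain ⟨d, rfl⟩ := W1_range hw
      have h1 : n * (rep d)⁻¹ ∈ chevF4.diagonalSubgroup K := by
        apply (relsF4 K).mono_one_mem_H good2F4 (Subgroup.mul_mem _ hn.1 (Subgroup.inv_mem _ (hrepN _).1))
        have := Rels.IsMono.mul (relsF4 K) hm (Rels.IsMono.inv (relsF4 K) (hrep d))
        rwa [mul_inv_cancel] at this
      refine ⟨⟨d, ⟨u1 * (n * (rep d)⁻¹), Subgroup.mul_mem _ ((relsF4 K).U_le_B hu1.1) ((relsF4 K).H_le_B h1),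
        Subgroup.mul_mem _ (S.U_fixed_le hu1) (Subgroup.mul_mem _ (S.N_fixed_le hn) (Subgroup.inv_mem _ (hrepN _).2))⟩,
        ⟨u, hu⟩⟩, ?_⟩
      apply Subtype.ext
      simp only [ψ]
      rw [e]; group
  rw [← Nat.card_congr (Equiv.ofBijective ψ hψ), Nat.card_sigma, Finset.mul_sum]
  apply Finset.sum_congr rfl
  intro σ _
  rw [Nat.card_prod]

end Ree4

end Cfsg.Agent.Chev
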