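import Cfsg.Agent.Chev.TwF12

/-!
# The Ree groups `²F₄`: the order
-/

set_option autoImplicit false
set_option linter.unusedSectionVars false
set_option linter.unusedVariables false
set_option maxRecDepth 1000000

namespace Cfsg.Agent.Chev
open Cfsg.Lie
open scoped MatrixGroups

/-- the elements of the twisted Weyl group, on indices -/
def natWx (b : Bool) (k : ℕ) (s : ℕ) : ℕ := if b then w1f (Rf^[k] s) else Rf^[k] s

/-- the classes made negative -/
def invCx (b : Bool) (k : ℕ) : List (List ℕ) := clsF4.filter (fun C => decide (natWx b k (C.headD 0) < 24))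

def expx (b : Bool) (k : ℕ) : ℕ := ((invCx b k).map fun C => C.length / 2).sum

theorem invCx_ok : ∀ b : Bool, ∀ k < 8, ∀ s < 48, (24 ≤ s ∧ natWx b k s < 24) ↔ s ∈ (invCx b k).flatten := by
  decide +kernel

theorem invCx_shape : ∀ b : Bool, ∀ k < 8, (∃ j < 9, invCx b k = clsF4.drop j) ∨
    (∃ j < 9, (invCx b k).reverse = clsF4.reverse.drop j) := by decide +kernel

theorem expx_false : (List.range 8).map (expx false) = [0, 3, 6, 9, 12, 9, 6, 3] := by decide +kernel
theorem expx_true : (List.range 8).map (expx true) = [1, 2, 5, 8, 11, 10, 7, 4] := by decide +kernel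

def dB : DihedralGroup 8 → Bool
  | .r _ => false
  | .sr _ => true

def dK : DihedralGroup 8 → ℕ
  | .r i => i.val
  | .sr i => i.val

theorem dK_lt (d : DihedralGroup 8) : dK d < 8 := by
  rcases d with i | i <;> exact ZMod.val_lt i

theorem psiH_apply (d : DihedralGroup 8) (s : Fin chevF4.nroots) :
    ((psiH d s : Fin chevF4.nroots) : ℕ) = natWx (dB d) (dK d) s := by
  rcases d with i | i
  · show (((RF4 ^ i.val) s : Fin chevF4.nroots) : ℕ) = _
    rw [RF4_pow_apply]
    rfl
  · show (((wJ1 * RF4 ^ i.val) s : Fin chevF4.nroots) : ℕ) = _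
    rw [Equiv.Perm.mul_apply, wJ1_apply, RF4_pow_apply]
    rfl

theorem negP_psiH (d : DihedralGroup 8) (s : ℕ) : negP chevF4 (psiH d) s ↔ s ∈ (invCx (dB d) (dK d)).flatten := by
  constructor
  · rintro ⟨h1, h2, h3⟩
    rw [psiH_apply] at h3
    exact (invCx_ok _ _ (dK_lt d) s h1).mp ⟨h2, h3⟩
  · intro h
    have hs : s < 48 := by
      obtain ⟨C, hC, hs⟩ := List.mem_flatten.mp h
      have hC' : C ∈ clsF4 := (List.mem_filter.mp hC).1
      exact ((mem_LF4 s).mp (cls_sub hC' s hs)).2
    obtain ⟨h2, h3⟩ := (invCx_ok _ _ (dK_lt d) s hs).mpr h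
    exact ⟨hs, h2, by rw [psiH_apply]; exact h3⟩

def dihEquiv : ZMod 8 ⊕ ZMod 8 ≃ DihedralGroup 8 where
  toFun
    | .inl j => .r j
    | .inr j => .sr j
  invFun
    | .r j => .inl j
    | .sr j => .inr j
  left_inv := by rintro (x | x) <;> rfl
  right_inv := by rintro (x | x) <;> rfl

theorem sum_dih (f : DihedralGroup 8 → ℕ) :
    ∑ d, f d = (∑ i : Fin 8, f (.r (i : ZMod 8))) + ∑ i : Fin 8, f (.sr (i : ZMod 8)) := by
  rw [← Fintype.sum_equiv dihEquiv (fun x => f (dihEquiv x)) f (fun _ => rfl), Fintype.sum_sum_type]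
  rfl

namespace Ree4
variable {K : Type*} [Field K] [Fintype K] [CharP K 2] (S : Ree4 K)

theorem card_Uw (d : DihedralGroup 8) :
    Nat.card ↥(UU chevF4 K (negP chevF4 (psiH d)) ⊓ S.Γ) = Fintype.card K ^ expx (dB d) (dK d) := by
  rw [UU_congr (negP_psiH d)]
  rcases invCx_shape (dB d) (dK d) (dK_lt d) with ⟨j, _, e⟩ | ⟨j, _, e⟩
  · unfold expx
    rw [e]
    exact S.card_blocks' admF4 (clsF4.drop j) (clsF4.take j).flatten
      (by rw [← List.flatten_append, List.take_append_drop]; rfl) (fun C h => List.mem_of_mem_drop h)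
  · have h1 : UU chevF4 K (fun s => s ∈ (invCx (dB d) (dK d)).flatten) =
        UU chevF4 K (fun s => s ∈ (invCx (dB d) (dK d)).reverse.flatten) := by
      apply UU_congr
      intro s
      simp only [List.mem_flatten, List.mem_reverse]
    have h2 : expx (dB d) (dK d) = ((invCx (dB d) (dK d)).reverse.map fun C => C.length / 2).sum := by
      unfold expx
      rw [List.map_reverse, List.sum_reverse]
    rw [h1, h2, e]
    exact S.card_blocks' admF4r (clsF4.reverse.drop j) (clsF4.reverse.take j).flatten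
      (by rw [← List.flatten_append, List.take_append_drop]; rfl)
      (fun C h => List.mem_reverse.mp (List.mem_of_mem_drop h))

theorem sum_Uw : ∑ d : DihedralGroup 8, Nat.card ↥(UU chevF4 K (negP chevF4 (psiH d)) ⊓ S.Γ) =
    (1 + Fintype.card K) * (1 + Fintype.card K ^ 2) * (1 + Fintype.card K ^ 3) * (1 + Fintype.card K ^ 6) := by
  have h1 := expx_false
  have h2 := expx_true
  simp only [List.range_succ, List.range_zero, List.nil_append, List.cons_append, List.map_cons, List.map_nil,
    List.cons.injEq, and_true] at h1 h2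
  obtain ⟨a0, a1, a2, a3, a4, a5, a6, a7⟩ := h1
  obtain ⟨b0, b1, b2, b3, b4, b5, b6, b7⟩ := h2
  rw [Finset.sum_congr rfl (fun d _ => S.card_Uw d), sum_dih, Fin.sum_univ_eight, Fin.sum_univ_eight]
  show Fintype.card K ^ expx false 0 + Fintype.card K ^ expx false 1 + Fintype.card K ^ expx false 2 +
    Fintype.card K ^ expx false 3 + Fintype.card K ^ expx false 4 + Fintype.card K ^ expx false 5 +
    Fintype.card K ^ expx false 6 + Fintype.card K ^ expx false 7 +
    (Fintype.card K ^ expx true 0 + Fintype.card K ^ expx true 1 + Fintype.card K ^ expx true 2 +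
    Fintype.card K ^ expx true 3 + Fintype.card K ^ expx true 4 + Fintype.card K ^ expx true 5 +
    Fintype.card K ^ expx true 6 + Fintype.card K ^ expx true 7) = _
  rw [a0, a1, a2, a3, a4, a5, a6, a7, b0, b1, b2, b3, b4, b5, b6, b7]
  ring

theorem card_G1' : Nat.card ↥S.G1 = Fintype.card K ^ 12 * (Fintype.card K - 1) * (Fintype.card K ^ 3 + 1) *
    (Fintype.card K ^ 4 - 1) * (Fintype.card K ^ 6 + 1) := by
  rw [S.card_G1, S.card_B1, S.sum_Uw]
  obtain ⟨q, hq⟩ : ∃ q, Fintype.card K = q + 1 := ⟨Fintype.card K - 1, by have := Fintype.card_pos (α := K); omega⟩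
  rw [hq, Nat.add_sub_cancel]
  have e : (q + 1) ^ 4 - 1 = q * (1 + (q + 1)) * (1 + (q + 1) ^ 2) := by
    have : (q + 1) ^ 4 = q * (1 + (q + 1)) * (1 + (q + 1) ^ 2) + 1 := by ring
    omega
  rw [e]
  ring

end Ree4

end Cfsg.Agent.Chev
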