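import Cfsg.Agent.Chev.TwF13

/-!
# The Ree groups `²F₄`: the (B, N)-pair
-/

set_option autoImplicit false
set_option linter.unusedSectionVars false
set_option linter.unusedVariables false
set_option maxRecDepth 1000000

namespace Cfsg.Agent.Chev
open Cfsg.Lie
open scoped MatrixGroups

/-- words in the fundamental reflections -/
def wlF (L : List ℕ) : Equiv.Perm (Fin chevF4.nroots) :=
  (L.map fun j => if h : j < chevF4.rank then goodF4.wP j h else 1).prod

theorem wlF_mem (L : List ℕ) : wlF L ∈ goodF4.W := by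
  apply Subgroup.list_prod_mem
  intro x hx
  obtain ⟨j, _, rfl⟩ := List.mem_map.mp hx
  split_ifs with h
  · exact goodF4.wP_mem j h
  · exact Subgroup.one_mem _

theorem wlF_cons (j : ℕ) (hj : j < chevF4.rank) (L : List ℕ) : wlF (j :: L) = goodF4.wP j hj * wlF L := by
  unfold wlF
  rw [List.map_cons, List.prod_cons, dif_pos hj]

theorem wlF_apply (L : List ℕ) (hL : ∀ j ∈ L, j < chevF4.rank) (s : Fin chevF4.nroots) :
    ((wlF L s : Fin chevF4.nroots) : ℕ) = L.foldr chevF4.reflectRoot s := by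
  induction L with
  | nil => rfl
  | cons j L ih =>
    rw [wlF_cons j (hL j List.mem_cons_self), Equiv.Perm.mul_apply, goodF4.wP_apply, List.foldr_cons,
      ih (fun k hk => hL k (List.mem_cons_of_mem _ hk))]

def SubOK (L : List ℕ) : Prop := ∀ L' ∈ L.sublists,
  (∀ s < 48, rhoF4 (L'.foldr chevF4.reflectRoot (rhoF4 s)) = L'.foldr chevF4.reflectRoot s) →
    (∀ s < 48, L'.foldr chevF4.reflectRoot s = s) ∨
    (∀ s < 48, L'.foldr chevF4.reflectRoot s = L.foldr chevF4.reflectRoot s)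

theorem subOK1 : SubOK [0, 3] := by unfold SubOK; decide +kernel
theorem subOK2 : SubOK [1, 2, 1, 2] := by unfold SubOK; decide +kernel

theorem sub_cases {L : List ℕ} (hL : ∀ j ∈ L, j < chevF4.rank) (h : SubOK L) {L' : List ℕ} (hs : L'.Sublist L)
    (hw : wlF L' ∈ W1F4) : wlF L' = 1 ∨ wlF L' = wlF L := by
  have hL' : ∀ j ∈ L', j < chevF4.rank := fun j hj => hL j (hs.subset hj)
  rcases h L' (List.mem_sublists.mpr hs) (by
    intro s hs
    have h1 := W1_comm hw ⟨rhoF4 s, rhoF4_lt s hs⟩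
    have h2 := congrArg (fun x : Fin chevF4.nroots => (x : ℕ)) h1
    simp only [rhoPF4_apply, wlF_apply _ hL', rhoF4_rho s hs] at h2
    exact h2.symm) with h1 | h1
  · left
    ext s
    rw [wlF_apply _ hL', h1 s s.2]
    rfl
  · right
    ext s
    rw [wlF_apply _ hL', wlF_apply _ hL, h1 s s.2]

theorem wJ1_eq_wl : wJ1 = wlF [0, 3] := by
  rw [wlF_cons 0 (by decide), wlF_cons 3 (by decide)]
  unfold wJ1 wlF
  simp

theorem wJ2_eq_wl : wJ2 = wlF [1, 2, 1, 2] := by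
  rw [wlF_cons 1 (by decide), wlF_cons 2 (by decide), wlF_cons 1 (by decide), wlF_cons 2 (by decide)]
  unfold wJ2 wlF
  simp [mul_assoc]

section
variable (K : Type*) [Field K]

/-- words in the `n_i` -/
def nwF (L : List ℕ) : GL chevF4.Idx K := (L.map fun j => (relsF4 K).ng (chevF4.simple j) 1).prod

theorem nwF_mono (L : List ℕ) (hL : ∀ j ∈ L, j < chevF4.rank) : (relsF4 K).IsMono (nwF K L) (wlF L) := by
  induction L with
  | nil => exact Rels.IsMono.of_tor (relsF4 K) (Rels.IsTor.one (relsF4 K))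
  | cons j L ih =>
    unfold nwF wlF
    rw [List.map_cons, List.prod_cons, List.map_cons, List.prod_cons, dif_pos (hL j List.mem_cons_self)]
    exact Rels.IsMono.mul (relsF4 K) (Rels.IsMono.ni (relsF4 K) _) (ih (fun k hk => hL k (List.mem_cons_of_mem _ hk)))

theorem nwF_mem_N (L : List ℕ) (hL : ∀ j ∈ L, j < chevF4.rank) : nwF K L ∈ chevF4.monomialSubgroup K := by
  apply Subgroup.list_prod_mem
  intro x hx
  obtain ⟨j, hj, rfl⟩ := List.mem_map.mp hx
  exact (relsF4 K).ng_mem_N (goodF4.simple_lt j (hL j hj))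

theorem nwF_cons (j : ℕ) (L : List ℕ) : nwF K (j :: L) = (relsF4 K).ng (chevF4.simple j) 1 * nwF K L := by
  unfold nwF
  rw [List.map_cons, List.prod_cons]

theorem nJ1_eq_nw : nJ1 K = nwF K [0, 3] := by
  unfold nJ1 nwF
  simp only [List.map_cons, List.map_nil, List.prod_cons, List.prod_nil, mul_one]
  rfl

theorem nJ2_eq_nw : nJ2 K = nwF K [1, 2, 1, 2] := by
  unfold nJ2 nwF
  simp only [List.map_cons, List.map_nil, List.prod_cons, List.prod_nil, mul_one, mul_assoc]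
  rfl

variable {K}

/-- the iterated double coset axiom -/
theorem bn_iterF (L : List ℕ) (hL : ∀ j ∈ L, j < chevF4.rank) {n b : GL chevF4.Idx K}
    (hn : n ∈ chevF4.monomialSubgroup K) (hb : b ∈ chevF4.borelSubgroup K) :
    ∃ L', L'.Sublist L ∧ ∃ b1 ∈ chevF4.borelSubgroup K, ∃ b2 ∈ chevF4.borelSubgroup K,
      nwF K L * b * n = b1 * (nwF K L' * n) * b2 := by
  induction L with
  | nil =>
    refine ⟨[], List.Sublist.refl _, b, hb, 1, Subgroup.one_mem _, ?_⟩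
    simp [nwF]
  | cons j L ih =>
    obtain ⟨L', hs, b1, hb1, b2, hb2, e⟩ := ih (fun k hk => hL k (List.mem_cons_of_mem _ hk))
    have hL' : ∀ k ∈ L', k < chevF4.rank := fun k hk => hL k (List.mem_cons_of_mem _ (hs.subset hk))
    have hm : nwF K L' * n ∈ chevF4.monomialSubgroup K := Subgroup.mul_mem _ (nwF_mem_N K L' hL') hn
    obtain ⟨c1, hc1, c2, hc2, h⟩ := (relsF4 K).bn_axiom good2F4 (hL j List.mem_cons_self) hm hb1
    have e0 : nwF K (j :: L) * b * n = (relsF4 K).ng (chevF4.simple j) 1 * b1 * (nwF K L' * n) * b2 := by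
      rw [nwF_cons]
      calc (relsF4 K).ng (chevF4.simple j) 1 * nwF K L * b * n
          = (relsF4 K).ng (chevF4.simple j) 1 * (nwF K L * b * n) := by group
        _ = _ := by rw [e]; group
    rcases h with h | h
    · refine ⟨j :: L', hs.cons_cons j, c1, hc1, c2 * b2, Subgroup.mul_mem _ hc2 hb2, ?_⟩
      rw [e0, h, nwF_cons]; group
    · refine ⟨L', hs.cons j, c1, hc1, c2 * b2, Subgroup.mul_mem _ hc2 hb2, ?_⟩
      rw [e0, h]; group

end

namespace Ree4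
variable {K : Type*} [Field K] [Fintype K] [CharP K 2] (S : Ree4 K)

theorem H1_of_types {n n' : GL chevF4.Idx K} {w : Equiv.Perm (Fin chevF4.nroots)}
    (hn : n ∈ chevF4.monomialSubgroup K ⊓ S.G1) (hn' : n' ∈ chevF4.monomialSubgroup K ⊓ S.G1)
    (hm : (relsF4 K).IsMono n w) (hm' : (relsF4 K).IsMono n' w) : n' * n⁻¹ ∈ chevF4.diagonalSubgroup K ⊓ S.G1 := by
  refine ⟨?_, Subgroup.mul_mem _ hn'.2 (Subgroup.inv_mem _ hn.2)⟩
  apply (relsF4 K).mono_one_mem_H good2F4 (Subgroup.mul_mem _ hn'.1 (Subgroup.inv_mem _ hn.1))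
  have := Rels.IsMono.mul (relsF4 K) hm' (Rels.IsMono.inv (relsF4 K) hm)
  rwa [mul_inv_cancel] at this

/-- the double coset axiom in the twisted group -/
theorem bn_axiom1 {L : List ℕ} (hL : ∀ j ∈ L, j < chevF4.rank) (hok : SubOK L) (hs : nwF K L ∈ S.G1)
    {n b : GL chevF4.Idx K} (hn : n ∈ chevF4.monomialSubgroup K ⊓ S.G1) (hb : b ∈ chevF4.borelSubgroup K ⊓ S.G1) :
    ∃ b1 ∈ chevF4.borelSubgroup K ⊓ S.G1, ∃ b2 ∈ chevF4.borelSubgroup K ⊓ S.G1,
      nwF K L * b * n = b1 * (nwF K L * n) * b2 ∨ nwF K L * b * n = b1 * n * b2 := by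
  have hg : nwF K L * b * n ∈ S.G1 := Subgroup.mul_mem _ (Subgroup.mul_mem _ hs hb.2) hn.2
  obtain ⟨L', hs', c1, hc1, c2, hc2, e⟩ := bn_iterF L hL hn.1 hb.1
  have hL' : ∀ k ∈ L', k < chevF4.rank := fun k hk => hL k (hs'.subset hk)
  obtain ⟨w', hw', u1, hu1, n', hn', hm', u, hu, e'⟩ := S.fixed_decomp (S.G1_le_Γ hg)
  obtain ⟨w, hw, hm⟩ := (relsF4 K).N_mono good2F4 hn.1
  have hw1 : w ∈ W1F4 := ⟨hw, S.mono_comm ⟨hn.1, S.G1_le_Γ hn.2⟩ hm⟩
  have huU := Um_le_UF4 K w' hu.1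
  have h1 := (relsF4 K).bruhat_unique_GL good2F4 (Subgroup.mul_mem _ (nwF_mem_N K L' hL') hn.1) hn'.1 hc1 hc2
    ((relsF4 K).U_le_B hu1.1) ((relsF4 K).U_le_B huU) (e.symm.trans e')
  have hm2 : (relsF4 K).IsMono n' (wlF L' * w) := by
    have := Rels.IsMono.mul (relsF4 K) (Rels.IsMono.mul (relsF4 K) (nwF_mono K L' hL') hm)
      (Rels.IsMono.of_tor (relsF4 K) ((relsF4 K).H_le_Tor h1))
    rwa [mul_one, mul_inv_cancel_left] at this
  have e3 := Rels.IsMono.unique (relsF4 K) hm' hm2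
  have hwl : wlF L' ∈ W1F4 := by
    have := Subgroup.mul_mem _ hw' (Subgroup.inv_mem _ hw1)
    rwa [e3, mul_inv_cancel_right] at this
  have hn1' : n' ∈ chevF4.monomialSubgroup K ⊓ S.G1 := ⟨hn'.1, S.N_fixed_le hn'⟩
  have hu1' : u1 ∈ chevF4.borelSubgroup K ⊓ S.G1 := ⟨(relsF4 K).U_le_B hu1.1, S.U_fixed_le hu1⟩
  have hu' : u ∈ chevF4.borelSubgroup K ⊓ S.G1 := ⟨(relsF4 K).U_le_B huU, S.U_fixed_le ⟨huU, hu.2⟩⟩
  rcases sub_cases hL hok hs' hwl with h | h
  · rw [h, one_mul] at hm2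
    have h2 := S.H1_of_types hn hn1' hm hm2
    refine ⟨u1 * (n' * n⁻¹), Subgroup.mul_mem _ hu1' ⟨(relsF4 K).H_le_B h2.1, h2.2⟩, u, hu', Or.inr ?_⟩
    rw [e']; group
  · rw [h] at hm2
    have h2 := S.H1_of_types (n := nwF K L * n) ⟨Subgroup.mul_mem _ (nwF_mem_N K L hL) hn.1, Subgroup.mul_mem _ hs hn.2⟩
      hn1' (Rels.IsMono.mul (relsF4 K) (nwF_mono K L hL) hm) hm2
    refine ⟨u1 * (n' * (nwF K L * n)⁻¹), Subgroup.mul_mem _ hu1' ⟨(relsF4 K).H_le_B h2.1, h2.2⟩, u, hu', Or.inl ?_⟩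
    rw [e']; group

theorem B1_sup_N1 : (chevF4.borelSubgroup K ⊓ S.G1) ⊔ (chevF4.monomialSubgroup K ⊓ S.G1) = S.G1 := by
  apply le_antisymm (sup_le inf_le_right inf_le_right)
  intro g hg
  obtain ⟨w, hw, u1, hu1, n, hn, hm, u, hu, rfl⟩ := S.fixed_decomp (S.G1_le_Γ hg)
  have huU := Um_le_UF4 K w hu.1
  exact Subgroup.mul_mem _ (Subgroup.mul_mem _
    (Subgroup.mem_sup_left ⟨(relsF4 K).U_le_B hu1.1, S.U_fixed_le hu1⟩)
    (Subgroup.mem_sup_right ⟨hn.1, S.N_fixed_le hn⟩))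
    (Subgroup.mem_sup_left ⟨(relsF4 K).U_le_B huU, S.U_fixed_le ⟨huU, hu.2⟩⟩)

/-- the reflections -/
def refl (K : Type*) [Field K] : Set (GL chevF4.Idx K) := {nJ1 K, nJ2 K}

omit [Fintype K] in
theorem exists_N1' (d : DihedralGroup 8) : ∃ n ∈ Subgroup.closure (refl K), (relsF4 K).IsMono n (psiH d) := by
  have h1 : nJ1 K ∈ Subgroup.closure (refl K) := Subgroup.subset_closure (Or.inl rfl)
  have h2 : nJ2 K ∈ Subgroup.closure (refl K) := Subgroup.subset_closure (Or.inr rfl)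
  have hP : ∀ k : ℕ, (relsF4 K).IsMono ((nJ1 K * nJ2 K) ^ k) (RF4 ^ k) := by
    intro k
    induction k with
    | zero => exact Rels.IsMono.of_tor (relsF4 K) (Rels.IsTor.one (relsF4 K))
    | succ k ih =>
      rw [pow_succ, pow_succ]
      exact Rels.IsMono.mul (relsF4 K) ih (Rels.IsMono.mul (relsF4 K) (nJ1_mono K) (nJ2_mono K))
  rcases d with i | i
  · exact ⟨_, Subgroup.pow_mem _ (Subgroup.mul_mem _ h1 h2) i.val, hP i.val⟩
  · exact ⟨_, Subgroup.mul_mem _ h1 (Subgroup.pow_mem _ (Subgroup.mul_mem _ h1 h2) i.val),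
      Rels.IsMono.mul (relsF4 K) (nJ1_mono K) (hP i.val)⟩

omit [Fintype K] in
theorem refl_le : Subgroup.closure (refl K) ≤ chevF4.monomialSubgroup K ⊓ S.G1 := by
  rw [Subgroup.closure_le]
  rintro g (rfl | rfl)
  · exact ⟨nJ1_mem_N K, S.nJ1_mem⟩
  · exact ⟨nJ2_mem_N K, S.nJ2_mem⟩

omit [Fintype K] in
theorem N1_le : chevF4.monomialSubgroup K ⊓ S.G1 ≤ Subgroup.closure (refl K) ⊔ (chevF4.diagonalSubgroup K ⊓ S.G1) := by
  intro n hn
  obtain ⟨d, hm⟩ := S.N_type ⟨hn.1, S.G1_le_Γ hn.2⟩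
  obtain ⟨n', hn', hm'⟩ := exists_N1' (K := K) d
  have hn1' := S.refl_le hn'
  have h2 : n'⁻¹ * n ∈ chevF4.diagonalSubgroup K ⊓ S.G1 := by
    refine ⟨?_, Subgroup.mul_mem _ (Subgroup.inv_mem _ hn1'.2) hn.2⟩
    apply (relsF4 K).mono_one_mem_H good2F4 (Subgroup.mul_mem _ (Subgroup.inv_mem _ hn1'.1) hn.1)
    have := Rels.IsMono.mul (relsF4 K) (Rels.IsMono.inv (relsF4 K) hm') hm
    rwa [inv_mul_cancel] at this
  have e : n = n' * (n'⁻¹ * n) := by group
  rw [e]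
  exact Subgroup.mul_mem _ (Subgroup.mem_sup_left hn') (Subgroup.mem_sup_right h2)

omit [Fintype K] [CharP K 2] in
theorem nJ1_sq : nJ1 K * nJ1 K ∈ chevF4.diagonalSubgroup K := by
  apply (relsF4 K).mono_one_mem_H good2F4 (Subgroup.mul_mem _ (nJ1_mem_N K) (nJ1_mem_N K))
  have h := Rels.IsMono.mul (relsF4 K) (nJ1_mono K) (nJ1_mono K)
  rwa [wJ1_sq] at h

omit [Fintype K] [CharP K 2] in
theorem nJ2_sq : nJ2 K * nJ2 K ∈ chevF4.diagonalSubgroup K := by
  apply (relsF4 K).mono_one_mem_H good2F4 (Subgroup.mul_mem _ (nJ2_mem_N K) (nJ2_mem_N K))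
  have h := Rels.IsMono.mul (relsF4 K) (nJ2_mono K) (nJ2_mono K)
  rwa [wJ2_sq] at h

theorem wJ1_ne_wJ2 : wJ1 ≠ wJ2 := by
  intro h
  have h1 := congrArg (fun σ : Equiv.Perm (Fin chevF4.nroots) => ((σ ⟨33, by decide⟩ : Fin chevF4.nroots) : ℕ)) h
  simp only [wJ1_apply, wJ2_apply] at h1
  revert h1
  decide +kernel

omit [Fintype K] [CharP K 2] in
theorem nJ_ne {n n' : GL chevF4.Idx K} {w w' : Equiv.Perm (Fin chevF4.nroots)} (hn : n ∈ chevF4.monomialSubgroup K)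
    (hn' : n' ∈ chevF4.monomialSubgroup K) (hm : (relsF4 K).IsMono n w) (hm' : (relsF4 K).IsMono n' w')
    (h : n⁻¹ * n' ∈ chevF4.borelSubgroup K) : w = w' := by
  have h1 : n⁻¹ * n' ∈ chevF4.borelSubgroup K ⊓ chevF4.monomialSubgroup K :=
    ⟨h, Subgroup.mul_mem _ (Subgroup.inv_mem _ hn) hn'⟩
  rw [(relsF4 K).B_inf_N good2F4] at h1
  have h2 := Rels.IsMono.unique (relsF4 K) (Rels.IsMono.of_tor (relsF4 K) ((relsF4 K).H_le_Tor h1))
    (Rels.IsMono.mul (relsF4 K) (Rels.IsMono.inv (relsF4 K) hm) hm')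
  exact inv_mul_eq_one.mp h2.symm

omit [Fintype K] [CharP K 2] in
/-- a criterion for `s B s ≠ B` -/
theorem conj_ne_aux {s x : GL chevF4.Idx K} {w : Equiv.Perm (Fin chevF4.nroots)} (hm : (relsF4 K).IsMono s w)
    (hsq : s * s ∈ chevF4.diagonalSubgroup K) {C : List ℕ} (hlt : ∀ r ∈ C, r < 48)
    (hneg : ∀ r : Fin chevF4.nroots, r.1 ∈ C → (w r).1 < 24) (hx : x ∈ UU chevF4 K (fun r => r ∈ C)) (hx1 : x ≠ 1)
    (h : s * x * s ∈ chevF4.borelSubgroup K) : False := by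
  have h1 : s * x * s⁻¹ ∈ chevF4.borelSubgroup K := by
    have h4 := Subgroup.mul_mem _ h (Subgroup.inv_mem _ ((relsF4 K).H_le_B hsq))
    have e : s * x * s * (s * s)⁻¹ = s * x * s⁻¹ := by group
    rwa [e] at h4
  have h2 : s * x * s⁻¹ ∈ chevF4.borelSubgroup K ⊓ chevF4.negUnipotent K :=
    ⟨h1, Rels.IsMono.conj_UU (relsF4 K) hm (p := fun r => r ∈ C) (q := chevF4.IsNegRoot) hlt
      (fun r hr => (goodF4.isNegRoot_iff _).mpr (hneg r hr)) x hx⟩
  rw [(relsF4 K).B_inf_V, Subgroup.mem_bot] at h2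
  apply hx1
  have e : x = s⁻¹ * (s * x * s⁻¹) * s := by group
  rw [e, h2]; group

theorem xA1_ne_one : S.xA 33 24 1 ≠ 1 := by
  intro h
  have h0 : S.xA 33 24 0 = 1 := by
    unfold xA
    rw [map_zero, (relsF4 K).xg_zero, (relsF4 K).xg_zero, one_mul]
  exact one_ne_zero (two_inj (r := 33) (rb := 24) (by decide) (h.trans h0.symm)).2

theorem xB2_ne_one : S.xB 27 25 28 30 1 0 ≠ 1 := by
  intro h
  have h0 : S.xB 27 25 28 30 0 0 = 1 := by
    unfold xB
    simp [(relsF4 K).xg_zero]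
  exact one_ne_zero (four_inj (a := 27) (b := 25) (c := 28) (d := 30) (by decide) (h.trans h0.symm)).2.1

/-- the (B, N)-pair of the twisted group -/
def bnPair1 : Cfsg.BNPair ↥S.G1 where
  B := (chevF4.borelSubgroup K ⊓ S.G1).subgroupOf S.G1
  N := (chevF4.monomialSubgroup K ⊓ S.G1).subgroupOf S.G1
  S := {n : ↥S.G1 | (n : GL chevF4.Idx K) ∈ refl K}
  sup_eq_top := by
    rw [← Subgroup.subgroupOf_sup inf_le_right inf_le_right, S.B1_sup_N1, Subgroup.subgroupOf_self]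
  conj_mem := by
    rintro n hn t ht
    obtain ⟨ht1, ht2⟩ := Subgroup.mem_inf.mp ht
    rw [Subgroup.mem_subgroupOf] at hn ht1 ht2 ⊢
    have h1 : (t : GL chevF4.Idx K) ∈ chevF4.borelSubgroup K ⊓ chevF4.monomialSubgroup K := ⟨ht1.1, ht2.1⟩
    rw [(relsF4 K).B_inf_N good2F4] at h1
    have := (Subgroup.mem_normalizer_iff.mp ((relsF4 K).N_le_normalizer_H good2F4 hn.1) _).mp h1
    exact ⟨(relsF4 K).H_le_B this, (n * t * n⁻¹).2⟩
  subset := by
    rintro n hn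
    show n ∈ (chevF4.monomialSubgroup K ⊓ S.G1).subgroupOf S.G1
    rw [Subgroup.mem_subgroupOf]
    exact S.refl_le (Subgroup.subset_closure hn)
  sq_mem := by
    rintro n hn
    rw [Subgroup.mem_subgroupOf]
    refine ⟨?_, (n * n).2⟩
    rw [Subgroup.coe_mul]
    rcases hn with hn | hn
    · rw [hn]; exact (relsF4 K).H_le_B nJ1_sq
    · rw [hn]; exact (relsF4 K).H_le_B nJ2_sq
  inj := by
    rintro s hs s' hs' h
    rw [Subgroup.mem_subgroupOf, Subgroup.coe_mul, Subgroup.coe_inv] at h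
    rcases hs with hs | hs <;> rcases hs' with hs' | hs'
    · exact Subtype.ext (hs.trans hs'.symm)
    · rw [hs, hs'] at h
      exact absurd (nJ_ne (nJ1_mem_N K) (nJ2_mem_N K) (nJ1_mono K) (nJ2_mono K) h.1) wJ1_ne_wJ2
    · rw [hs, hs'] at h
      exact absurd (nJ_ne (nJ2_mem_N K) (nJ1_mem_N K) (nJ2_mono K) (nJ1_mono K) h.1).symm wJ1_ne_wJ2
    · exact Subtype.ext (hs.trans hs'.symm)
  closure_sup := by
    apply le_antisymm
    · apply sup_le
      · rw [Subgroup.closure_le]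
        rintro n hn
        show n ∈ (chevF4.monomialSubgroup K ⊓ S.G1).subgroupOf S.G1
        rw [Subgroup.mem_subgroupOf]
        exact S.refl_le (Subgroup.subset_closure hn)
      · exact inf_le_right
    · intro n hn
      rw [Subgroup.mem_subgroupOf] at hn
      set T : Subgroup ↥S.G1 := Subgroup.closure {n : ↥S.G1 | (n : GL chevF4.Idx K) ∈ refl K} ⊔
        ((chevF4.borelSubgroup K ⊓ S.G1).subgroupOf S.G1 ⊓ (chevF4.monomialSubgroup K ⊓ S.G1).subgroupOf S.G1) with hT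
      have h1 : Subgroup.closure (refl K) ⊔ (chevF4.diagonalSubgroup K ⊓ S.G1) ≤ T.map S.G1.subtype := by
        apply sup_le
        · rw [Subgroup.closure_le]
          intro g hg
          exact ⟨⟨g, (S.refl_le (Subgroup.subset_closure hg)).2⟩,
            Subgroup.mem_sup_left (Subgroup.subset_closure hg), rfl⟩
        · intro g hg
          refine ⟨⟨g, hg.2⟩, ?_, rfl⟩
          exact Subgroup.mem_sup_right ⟨Subgroup.mem_subgroupOf.mpr ⟨(relsF4 K).H_le_B hg.1, hg.2⟩,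
            Subgroup.mem_subgroupOf.mpr ⟨(relsF4 K).H_le_N hg.1, hg.2⟩⟩
      obtain ⟨m, hm', e⟩ := h1 (S.N1_le hn)
      have : m = n := Subtype.ext e
      rwa [← this]
  mul_mem_union := by
    rintro s hs n hn b hb
    rw [Subgroup.mem_subgroupOf] at hn hb
    have key : ∃ b1 ∈ chevF4.borelSubgroup K ⊓ S.G1, ∃ b2 ∈ chevF4.borelSubgroup K ⊓ S.G1,
        (s : GL chevF4.Idx K) * b * n = b1 * (s * n) * b2 ∨ (s : GL chevF4.Idx K) * b * n = b1 * n * b2 := by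
      rcases hs with hs | hs
      · rw [hs, nJ1_eq_nw]
        exact S.bn_axiom1 (by decide) subOK1 (by rw [← nJ1_eq_nw]; exact S.nJ1_mem) hn hb
      · rw [hs, nJ2_eq_nw]
        exact S.bn_axiom1 (by decide) subOK2 (by rw [← nJ2_eq_nw]; exact S.nJ2_mem) hn hb
    obtain ⟨b1, hb1, b2, hb2, h⟩ := key
    rcases h with h | h
    · left
      rw [DoubleCoset.mem_doubleCoset]
      refine ⟨⟨b1, hb1.2⟩, Subgroup.mem_subgroupOf.mpr hb1, ⟨b2, hb2.2⟩, Subgroup.mem_subgroupOf.mpr hb2, ?_⟩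
      apply Subtype.ext
      simp only [Subgroup.coe_mul]
      exact h
    · right
      rw [DoubleCoset.mem_doubleCoset]
      refine ⟨⟨b1, hb1.2⟩, Subgroup.mem_subgroupOf.mpr hb1, ⟨b2, hb2.2⟩, Subgroup.mem_subgroupOf.mpr hb2, ?_⟩
      apply Subtype.ext
      simp only [Subgroup.coe_mul]
      exact h
  conj_ne := by
    rintro s hs heq
    rcases hs with hs | hs
    · have hxG := S.xA1_mem 1
      have hxU := (S.xA_mem_E a2cPos 1).1
      have hx : (⟨S.xA 33 24 1, hxG⟩ : ↥S.G1) ∈ ((chevF4.borelSubgroup K ⊓ S.G1).subgroupOf S.G1 : Set ↥S.G1) :=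
        Subgroup.mem_subgroupOf.mpr ⟨(relsF4 K).U_le_B (UUl_le_U admF4 (cls_sub (C := [33, 24]) (by decide)) hxU), hxG⟩
      have h1 : s * ⟨S.xA 33 24 1, hxG⟩ * s ∈ ((chevF4.borelSubgroup K ⊓ S.G1).subgroupOf S.G1 : Set ↥S.G1) := by
        rw [← heq]; exact ⟨_, hx, rfl⟩
      have h2 := (Subgroup.mem_subgroupOf.mp h1).1
      simp only [Subgroup.coe_mul, hs] at h2
      exact conj_ne_aux (nJ1_mono K) nJ1_sq (C := [33, 24]) (by decide)
        (fun r hr => by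
          rw [wJ1_apply]
          have key : ∀ r ∈ [33, 24], w1f r < 24 := by decide +kernel
          exact key _ hr) hxU S.xA1_ne_one h2
    · replace hs : (s : GL chevF4.Idx K) = nJ2 K := hs
      have hxG := S.xB2_mem 1 0
      have hxU := ((S.mem_EB b2cPos b2rPos (by decide) _).mpr ⟨1, 0, rfl⟩).1
      have hx : (⟨S.xB 27 25 28 30 1 0, hxG⟩ : ↥S.G1) ∈ ((chevF4.borelSubgroup K ⊓ S.G1).subgroupOf S.G1 : Set ↥S.G1) :=
        Subgroup.mem_subgroupOf.mpr
          ⟨(relsF4 K).U_le_B (UUl_le_U admF4 (cls_sub (C := [27, 25, 28, 30]) (by decide)) hxU), hxG⟩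
      have h1 : s * ⟨S.xB 27 25 28 30 1 0, hxG⟩ * s ∈ ((chevF4.borelSubgroup K ⊓ S.G1).subgroupOf S.G1 : Set ↥S.G1) := by
        rw [← heq]; exact ⟨_, hx, rfl⟩
      have h2 := (Subgroup.mem_subgroupOf.mp h1).1
      simp only [Subgroup.coe_mul, hs] at h2
      exact conj_ne_aux (nJ2_mono K) nJ2_sq (C := [27, 25, 28, 30]) (by decide)
        (fun r hr => by
          rw [wJ2_apply]
          have key : ∀ r ∈ [27, 25, 28, 30], w2f r < 24 := by decide +kernel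
          exact key _ hr) hxU S.xB2_ne_one h2

end Ree4

end Cfsg.Agent.Chev
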