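import Cfsg.Agent.Chev.TwF14

/-!
# The Ree groups `²F₄`: the core of `B¹`
-/

set_option autoImplicit false
set_option linter.unusedSectionVars false
set_option linter.unusedVariables false
set_option maxRecDepth 1000000

namespace Cfsg.Agent.Chev
open Cfsg.Lie
open scoped MatrixGroups

namespace Ree4
variable {K : Type*} [Field K] [Fintype K] [CharP K 2] (S : Ree4 K)

omit [Fintype K] in
theorem exists_n0 : ∃ n0 ∈ chevF4.monomialSubgroup K ⊓ S.G1, ∀ u ∈ chevF4.posUnipotent K,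
    n0 * u * n0⁻¹ ∈ chevF4.negUnipotent K := by
  obtain ⟨n0, hn0, hm⟩ := S.exists_N1 (.r 4)
  refine ⟨n0, hn0, ?_⟩
  apply Rels.IsMono.conj_UU (relsF4 K) hm (p := chevF4.IsPosRoot) (q := chevF4.IsNegRoot)
    (fun s hs => ((goodF4.isPosRoot_iff s).mp hs).2)
  intro s hs
  rw [goodF4.isNegRoot_iff, psiH_apply]
  have key : ∀ s < 48, 24 ≤ s → natWx false 4 s < 24 := by decide +kernel
  exact key s s.2 ((goodF4.isPosRoot_iff s).mp hs).1

/-- elements all of whose conjugates lie in `B` -/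
def Core (g : GL chevF4.Idx K) : Prop := ∀ x ∈ S.G1, x * g * x⁻¹ ∈ chevF4.borelSubgroup K

omit [Fintype K] in
theorem Core.conj {g y : GL chevF4.Idx K} (hg : S.Core g) (hy : y ∈ S.G1) : S.Core (y * g * y⁻¹) := by
  intro x hx
  have := hg (x * y) (Subgroup.mul_mem _ hx hy)
  have e : x * (y * g * y⁻¹) * x⁻¹ = x * y * g * (x * y)⁻¹ := by group
  rwa [e]

omit [Fintype K] in
theorem Core.mem_H {g : GL chevF4.Idx K} (hg : S.Core g) : g ∈ chevF4.diagonalSubgroup K := by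
  obtain ⟨n0, hn0, hm⟩ := S.exists_n0
  have h1 : g ∈ chevF4.borelSubgroup K := by simpa using hg 1 (Subgroup.one_mem _)
  have h2 := hg n0⁻¹ (Subgroup.inv_mem _ hn0.2)
  rw [inv_inv] at h2
  obtain ⟨u, hu, h, hh, e'⟩ := exists_mul_of_mem_sup (relsF4 K).H_le_normalizer_U h2
  have h3 : n0 * u * n0⁻¹ ∈ chevF4.negUnipotent K := hm u hu
  have h4 : n0 * h * n0⁻¹ ∈ chevF4.diagonalSubgroup K :=
    (Subgroup.mem_normalizer_iff.mp ((relsF4 K).N_le_normalizer_H good2F4 hn0.1) _).mp hh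
  have h5 : g = (n0 * u * n0⁻¹) * (n0 * h * n0⁻¹) := by
    have : g = n0 * (n0⁻¹ * g * n0) * n0⁻¹ := by group
    rw [this, e']; group
  have h6 : g ∈ chevF4.borelSubgroup K ⊓ (chevF4.negUnipotent K ⊔ chevF4.diagonalSubgroup K) :=
    ⟨h1, h5 ▸ Subgroup.mul_mem _ (Subgroup.mem_sup_left h3) (Subgroup.mem_sup_right h4)⟩
  rwa [(relsF4 K).B_inf_VH] at h6

omit [Fintype K] in
theorem Core.comm_U {g u : GL chevF4.Idx K} (hg : S.Core g)
    (hu : u ∈ chevF4.posUnipotent K) (hu1 : u ∈ S.G1) : g * u * g⁻¹ = u := by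
  have hH := Core.mem_H S hg
  have h1 := Core.mem_H S (Core.conj S hg (Subgroup.inv_mem _ hu1))
  rw [inv_inv] at h1
  have h2 : u⁻¹ * (g * u * g⁻¹) ∈ chevF4.diagonalSubgroup K := by
    have := Subgroup.mul_mem _ h1 (Subgroup.inv_mem _ hH)
    have e : u⁻¹ * g * u * g⁻¹ = u⁻¹ * (g * u * g⁻¹) := by group
    rwa [e] at this
  have h3 : g * u * g⁻¹ ∈ chevF4.posUnipotent K :=
    (Subgroup.mem_normalizer_iff.mp ((relsF4 K).H_le_normalizer_U hH) _).mp hu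
  have h4 : u⁻¹ * (g * u * g⁻¹) ∈ chevF4.posUnipotent K ⊓ chevF4.diagonalSubgroup K :=
    ⟨Subgroup.mul_mem _ (Subgroup.inv_mem _ hu) h3, h2⟩
  rw [(relsF4 K).U_inf_H, Subgroup.mem_bot] at h4
  exact (inv_mul_eq_one.mp h4).symm

theorem E_le_U1 {C : List ℕ} (hC : C ∈ clsF4) : S.E C ≤ chevF4.posUnipotent K ⊓ S.G1 :=
  fun g hg => ⟨UUl_le_U admF4 (cls_sub hC) hg.1, S.E_le C hC hg⟩

theorem Core.eq_one {g : GL chevF4.Idx K} (hg : S.Core g) : g = 1 := by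
  obtain ⟨a, b, c, d, ha, hb, hc, hd, rfl⟩ := H_formF4 (Core.mem_H S hg)
  have p : ([44, 47, 46, 40].map fun s => [33, 27, 25, 24].map fun r => pairing chevF4 r s) =
      [[1, 0, 0, 0], [0, 0, 0, 1], [0, 0, 1, -1], [-1, 1, 0, 0]] := by decide +kernel
  simp only [List.map_cons, List.map_nil, List.cons.injEq, and_true] at p
  obtain ⟨⟨p1, p2, p3, p4⟩, ⟨p5, p6, p7, p8⟩, ⟨p9, p10, p11, p12⟩, p13, p14, p15, p16⟩ := p
  have m1 := S.E_le_U1 (C := [29, 41, 44, 47]) (by decide) ((S.mem_EB b2c3 b2r3 (by decide) _).mpr ⟨0, 1, rfl⟩)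
  have m2 := S.E_le_U1 (C := [35, 31, 40, 46]) (by decide) ((S.mem_EB b2c5 b2r5 (by decide) _).mpr ⟨0, 1, rfl⟩)
  have e1 := Core.comm_U S hg m1.1 m1.2
  have e2 := Core.comm_U S hg m2.1 m2.2
  have split : ∀ T X1 X2 X3 X4 : GL chevF4.Idx K, T * (X1 * X2 * X3 * X4) * T⁻¹ =
      (T * X1 * T⁻¹) * (T * X2 * T⁻¹) * (T * X3 * T⁻¹) * (T * X4 * T⁻¹) := by
    intro T X1 X2 X3 X4; group
  unfold xB at e1 e2
  rw [split, TF4_conj ha hb hc hd (by decide), TF4_conj ha hb hc hd (by decide), TF4_conj ha hb hc hd (by decide),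
    TF4_conj ha hb hc hd (by decide)] at e1 e2
  obtain ⟨_, _, k1, k2⟩ := four_inj (by decide) e1
  obtain ⟨_, _, k3, k4⟩ := four_inj (by decide) e2
  rw [p1, p2, p3, p4] at k1
  rw [p5, p6, p7, p8] at k2
  rw [p13, p14, p15, p16] at k3
  rw [p9, p10, p11, p12] at k4
  simp only [zpow_zero, zpow_one, one_mul, mul_one, zpow_neg, map_zero, map_one, mul_zero, zero_add, one_pow] at k1 k2 k3 k4
  subst k1
  subst k2
  simp only [inv_one, one_mul, mul_one] at k3 k4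
  subst k3
  subst k4
  have h1 : ∀ r, (relsF4 K).hg r 1 = 1 := fun r => by rw [(relsF4 K).hg_eq, (relsF4 K).ng_mul_neg]
  unfold TF4
  rw [h1, h1, h1, h1]
  simp

theorem core_trivial : ((chevF4.borelSubgroup K ⊓ S.G1).subgroupOf S.G1).normalCore = ⊥ := by
  rw [eq_bot_iff]
  intro g hg
  rw [Subgroup.mem_bot]
  apply Subtype.ext
  apply Core.eq_one S
  intro x hx
  have : (⟨x, hx⟩ : ↥S.G1) * g * (⟨x, hx⟩ : ↥S.G1)⁻¹ ∈ (chevF4.borelSubgroup K ⊓ S.G1).subgroupOf S.G1 := hg ⟨x, hx⟩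
  rw [Subgroup.mem_subgroupOf] at this
  exact this.1

end Ree4

end Cfsg.Agent.Chev
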