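import Cfsg.Agent.Chev.TwF15

/-!
# The Ree groups `²F₄`: perfectness
-/

set_option autoImplicit false
set_option linter.unusedSectionVars false
set_option linter.unusedVariables false
set_option maxRecDepth 1000000

namespace Cfsg.Agent.Chev
open Cfsg.Lie
open scoped MatrixGroups

namespace Ree4
variable {K : Type*} [Field K] [Fintype K] [CharP K 2] (S : Ree4 K)

omit [Fintype K] in
theorem xA_add {r rb : ℕ} (h : A2C r rb) (t t' : K) : S.xA r rb t * S.xA r rb t' = S.xA r rb (t + t') := by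
  unfold xA
  rw [map_add, ← (relsF4 K).xg_add, ← (relsF4 K).xg_add]
  have c1 : Commute ((relsF4 K).xg r (S.φ t')) ((relsF4 K).xg rb t) := comm_of_ok h.comm _ _
  generalize (relsF4 K).xg r (S.φ t) = A at *
  generalize (relsF4 K).xg rb t = B at *
  generalize (relsF4 K).xg r (S.φ t') = C at *
  generalize (relsF4 K).xg rb t' = E at *
  calc A * B * (C * E) = A * (B * C) * E := by group
    _ = A * (C * B) * E := by rw [c1.eq]
    _ = _ := by group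

omit [Fintype K] [CharP K 2] in
theorem xA_zero (r rb : ℕ) : S.xA r rb 0 = 1 := by
  unfold xA
  rw [map_zero, (relsF4 K).xg_zero, (relsF4 K).xg_zero, one_mul]

omit [Fintype K] in
theorem xA_inv {r rb : ℕ} (h : A2C r rb) (t : K) : (S.xA r rb t)⁻¹ = S.xA r rb t := by
  rw [inv_eq_iff_mul_eq_one, S.xA_add h, CharTwo.add_self_eq_zero, S.xA_zero]

omit [Fintype K] in
theorem xB_mul_hi {a b c d : ℕ} (h : B2C a b c d) (t u u' : K) :
    S.xB a b c d t u * S.xB a b c d 0 u' = S.xB a b c d t (u + u') := by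
  unfold xB
  rw [map_zero, (relsF4 K).xg_zero, (relsF4 K).xg_zero, zero_mul, zero_add, one_mul, one_mul, map_add, CharTwo.add_sq,
    ← add_assoc, ← (relsF4 K).xg_add c (S.φ t * t + u) u', ← (relsF4 K).xg_add d (S.φ u ^ 2) (S.φ u' ^ 2)]
  have c1 : Commute ((relsF4 K).xg d (S.φ u ^ 2)) ((relsF4 K).xg c u') := comm_of_ok (h.comm d (by simp) c (by simp)) _ _
  generalize (relsF4 K).xg a (S.φ t) * (relsF4 K).xg b t = A at *
  generalize (relsF4 K).xg c (S.φ t * t + u) = B at *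
  generalize (relsF4 K).xg d (S.φ u ^ 2) = C at *
  generalize (relsF4 K).xg c u' = E at *
  generalize (relsF4 K).xg d (S.φ u' ^ 2) = F at *
  calc A * B * C * (E * F) = A * B * (C * E) * F := by group
    _ = A * B * (E * C) * F := by rw [c1.eq]
    _ = _ := by group

omit [Fintype K] [CharP K 2] in
theorem xB_zero (a b c d : ℕ) : S.xB a b c d 0 0 = 1 := by
  unfold xB
  simp [(relsF4 K).xg_zero]

omit [Fintype K] in
theorem xB_hi_inv {a b c d : ℕ} (h : B2C a b c d) (u : K) : (S.xB a b c d 0 u)⁻¹ = S.xB a b c d 0 u := by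
  rw [inv_eq_iff_mul_eq_one, S.xB_mul_hi h, CharTwo.add_self_eq_zero, S.xB_zero]

omit [Fintype K] [CharP K 2] in
theorem hR_conj_xA {y : K} (hy : y ≠ 0) (t : K) :
    S.hR y 1 * S.xA 33 24 t * (S.hR y 1)⁻¹ = S.xA 33 24 (y ^ 2 * t) := by
  have p : ([33, 24].map fun s => [33, 27, 25, 24].map fun r => pairing chevF4 r s) =
      [[2, -1, 0, 0], [0, 0, -1, 2]] := by decide +kernel
  simp only [List.map_cons, List.map_nil, List.cons.injEq, and_true] at p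
  obtain ⟨⟨p1, p2, p3, p4⟩, p5, p6, p7, p8⟩ := p
  have hp := S.phi_ne_zero hy
  unfold hR xA
  rw [map_one]
  have split : ∀ T X1 X2 : GL chevF4.Idx K, T * (X1 * X2) * T⁻¹ = (T * X1 * T⁻¹) * (T * X2 * T⁻¹) := by
    intro T X1 X2; group
  rw [split, TF4_conj hp one_ne_zero one_ne_zero hy (by decide), TF4_conj hp one_ne_zero one_ne_zero hy (by decide),
    p1, p2, p3, p4, p5, p6, p7, p8, map_mul, map_pow]
  simp only [one_zpow, one_mul, zpow_zero]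
  norm_cast

omit [Fintype K] [CharP K 2] in
theorem hR_conj_xB {y : K} (hy : y ≠ 0) (t u : K) :
    S.hR y 1 * S.xB 27 25 28 30 t u * (S.hR y 1)⁻¹ = S.xB 27 25 28 30 (y⁻¹ * t) ((S.φ y)⁻¹ * y⁻¹ * u) := by
  have p : ([27, 25, 28, 30].map fun s => [33, 27, 25, 24].map fun r => pairing chevF4 r s) =
      [[-1, 2, -1, 0], [0, -2, 2, -1], [-1, 0, 1, -1], [-2, 2, 0, -1]] := by decide +kernel
  simp only [List.map_cons, List.map_nil, List.cons.injEq, and_true] at p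
  obtain ⟨⟨p1, p2, p3, p4⟩, ⟨p5, p6, p7, p8⟩, ⟨p9, p10, p11, p12⟩, p13, p14, p15, p16⟩ := p
  have hp := S.phi_ne_zero hy
  unfold hR xB
  rw [map_one]
  have split : ∀ T X1 X2 X3 X4 : GL chevF4.Idx K, T * (X1 * X2 * X3 * X4) * T⁻¹ =
      (T * X1 * T⁻¹) * (T * X2 * T⁻¹) * (T * X3 * T⁻¹) * (T * X4 * T⁻¹) := by
    intro T X1 X2 X3 X4; group
  rw [split, TF4_conj hp one_ne_zero one_ne_zero hy (by decide), TF4_conj hp one_ne_zero one_ne_zero hy (by decide),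
    TF4_conj hp one_ne_zero one_ne_zero hy (by decide), TF4_conj hp one_ne_zero one_ne_zero hy (by decide),
    p1, p2, p3, p4, p5, p6, p7, p8, p9, p10, p11, p12, p13, p14, p15, p16]
  simp only [one_zpow, one_mul, zpow_zero, zpow_neg, zpow_one, map_mul, map_inv₀, inv_one]
  have e1 : (S.φ y)⁻¹ * (y⁻¹ * (S.φ t * t + u)) = (S.φ y)⁻¹ * S.φ t * (y⁻¹ * t) + (S.φ y)⁻¹ * y⁻¹ * u := by ring
  have e2 : (S.φ y ^ (2 : ℤ))⁻¹ * (y⁻¹ * S.φ u ^ 2) = ((S.φ (S.φ y))⁻¹ * (S.φ y)⁻¹ * S.φ u) ^ 2 := by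
    rw [mul_pow, mul_pow, inv_pow, S.phi_phi, inv_pow]
    norm_cast
    ring
  rw [e1, e2]

theorem Q_le : ⁅S.G1, S.G1⁆ ≤ S.G1 := by
  rw [Subgroup.commutator_le]
  intro a ha b hb
  rw [commutatorElement_def]
  exact Subgroup.mul_mem _ (Subgroup.mul_mem _ (Subgroup.mul_mem _ ha hb) (Subgroup.inv_mem _ ha)) (Subgroup.inv_mem _ hb)

theorem Q_conj {g x : GL chevF4.Idx K} (hg : g ∈ S.G1) (hx : x ∈ ⁅S.G1, S.G1⁆) : g * x * g⁻¹ ∈ ⁅S.G1, S.G1⁆ := by
  have h1 := Subgroup.commutator_mem_commutator hg (S.Q_le hx)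
  rw [commutatorElement_def] at h1
  have := Subgroup.mul_mem _ h1 hx
  rwa [inv_mul_cancel_right] at this

omit [CharP K 2] in
theorem exists_ne01 (hc : 2 < Fintype.card K) : ∃ y : K, y ≠ 0 ∧ y ≠ 1 := by
  classical
  by_contra hcon
  push Not at hcon
  have : (Finset.univ : Finset K) ⊆ {0, 1} := by
    intro y _
    simp only [Finset.mem_insert, Finset.mem_singleton]
    by_cases h : y = 0
    · exact Or.inl h
    · exact Or.inr (hcon y h)
  have h2 := Finset.card_le_card this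
  rw [Finset.card_univ] at h2
  have h3 : ({0, 1} : Finset K).card ≤ 2 := Finset.card_le_two
  omega

theorem xA_mem_Q (hc : 2 < Fintype.card K) (t : K) : S.xA 33 24 t ∈ ⁅S.G1, S.G1⁆ := by
  obtain ⟨y, hy, hy1⟩ := exists_ne01 hc
  have hne : y ^ 2 + 1 ≠ 0 := by
    intro h
    have h2 : (y + 1) ^ 2 = 0 := by rw [CharTwo.add_sq, one_pow]; exact h
    have h3 : y + 1 = 0 := pow_eq_zero_iff (by norm_num) |>.mp h2
    exact hy1 (CharTwo.add_eq_zero.mp h3)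
  have h3 := Subgroup.commutator_mem_commutator (S.hR_mem_G1 hy one_ne_zero) (S.xA1_mem (t / (y ^ 2 + 1)))
  rw [commutatorElement_def, S.hR_conj_xA hy, S.xA_inv a2cPos, S.xA_add a2cPos] at h3
  have e1 : y ^ 2 * (t / (y ^ 2 + 1)) + t / (y ^ 2 + 1) = t := by
    field_simp
  rwa [e1] at h3

omit [Fintype K] in
theorem lam_ne {y : K} (hy : y ≠ 0) (hy1 : y ≠ 1) : (S.φ y)⁻¹ * y⁻¹ + 1 ≠ 0 := by
  intro h
  have hp := S.phi_ne_zero hy
  have h1 : (S.φ y)⁻¹ * y⁻¹ = 1 := CharTwo.add_eq_zero.mp h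
  have h2 : S.φ y * y = 1 := by
    field_simp at h1
    exact h1.symm
  have h3 : S.φ (S.φ y) * S.φ y = 1 := by rw [← map_mul, h2, map_one]
  have h4 : S.φ (S.φ y) = y := by
    have : S.φ (S.φ y) * S.φ y = y * S.φ y := by rw [h3, mul_comm, h2]
    exact mul_right_cancel₀ hp this
  have h5 := S.phi_phi y
  rw [h4] at h5
  have h6 : y * y = y * 1 := by rw [mul_one, ← sq]; exact h5
  exact hy1 (mul_left_cancel₀ hy h6)

theorem xB_hi_mem_Q (hc : 2 < Fintype.card K) (u : K) : S.xB 27 25 28 30 0 u ∈ ⁅S.G1, S.G1⁆ := by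
  obtain ⟨y, hy, hy1⟩ := exists_ne01 hc
  have hne := S.lam_ne hy hy1
  have h3 := Subgroup.commutator_mem_commutator (S.hR_mem_G1 hy one_ne_zero)
    (S.xB2_mem 0 (u / ((S.φ y)⁻¹ * y⁻¹ + 1)))
  rw [commutatorElement_def, S.hR_conj_xB hy, S.xB_hi_inv b2cPos, mul_zero, S.xB_mul_hi b2cPos] at h3
  have e1 : (S.φ y)⁻¹ * y⁻¹ * (u / ((S.φ y)⁻¹ * y⁻¹ + 1)) + u / ((S.φ y)⁻¹ * y⁻¹ + 1) = u := by
    generalize (S.φ y)⁻¹ * y⁻¹ = c at *
    field_simp
  rwa [e1] at h3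

theorem xB_inj {t u t' u' : K} (h : S.xB 27 25 28 30 t u = S.xB 27 25 28 30 t' u') : t = t' ∧ u = u' := by
  obtain ⟨e1, e2, e3, e4⟩ := four_inj (a := 27) (b := 25) (c := 28) (d := 30) (by decide) h
  rw [e2] at e3
  exact ⟨e2, add_left_cancel e3⟩

theorem xB_mem_Q (hc : 2 < Fintype.card K) (t u : K) : S.xB 27 25 28 30 t u ∈ ⁅S.G1, S.G1⁆ := by
  by_cases ht : t = 0
  · rw [ht]; exact S.xB_hi_mem_Q hc u
  obtain ⟨y, hy, hy1⟩ := exists_ne01 hc
  have h3 := Subgroup.commutator_mem_commutator (Subgroup.inv_mem _ (S.xB2_mem 1 0)) (S.hR_mem_G1 hy one_ne_zero)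
  rw [commutatorElement_def, inv_inv] at h3
  have e1 : (S.xB 27 25 28 30 1 0)⁻¹ * S.hR y 1 * S.xB 27 25 28 30 1 0 * (S.hR y 1)⁻¹ =
      (S.xB 27 25 28 30 1 0)⁻¹ * S.xB 27 25 28 30 y⁻¹ 0 := by
    have := S.hR_conj_xB hy 1 0
    rw [mul_one, mul_zero] at this
    rw [← this]; group
  rw [e1] at h3
  have hmem : (S.xB 27 25 28 30 1 0)⁻¹ * S.xB 27 25 28 30 y⁻¹ 0 ∈ S.E [27, 25, 28, 30] :=
    Subgroup.mul_mem _ (Subgroup.inv_mem _ ((S.mem_EB b2cPos b2rPos (by decide) _).mpr ⟨_, _, rfl⟩))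
      ((S.mem_EB b2cPos b2rPos (by decide) _).mpr ⟨_, _, rfl⟩)
  obtain ⟨t0, u0, e⟩ := (S.mem_EB b2cPos b2rPos (by decide) _).mp hmem
  have ht0 : t0 ≠ 0 := by
    rintro rfl
    have e2 : S.xB 27 25 28 30 y⁻¹ 0 = S.xB 27 25 28 30 1 0 * S.xB 27 25 28 30 0 u0 := by rw [← e]; group
    rw [S.xB_mul_hi b2cPos] at e2
    have h4 := (S.xB_inj e2).1
    exact hy1 (inv_eq_one.mp h4)
  rw [e] at h3
  have hy' : t0 / t ≠ 0 := div_ne_zero ht0 ht
  have h4 := S.Q_conj (S.hR_mem_G1 hy' one_ne_zero) h3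
  rw [S.hR_conj_xB hy', inv_div, div_mul_cancel₀ _ ht0] at h4
  have h5 := Subgroup.mul_mem _ h4 (S.xB_hi_mem_Q hc ((S.φ (t0 / t))⁻¹ * (t / t0) * u0 + u))
  rw [S.xB_mul_hi b2cPos, ← add_assoc, CharTwo.add_self_eq_zero, zero_add] at h5
  exact h5

theorem xAn_mem_Q (hc : 2 < Fintype.card K) (t : K) : S.xA 14 23 t ∈ ⁅S.G1, S.G1⁆ := by
  have hmem : nJ1 K * S.xA 14 23 t * (nJ1 K)⁻¹ ∈ S.E [33, 24] := by
    constructor
    · exact Rels.IsMono.conj_UU (relsF4 K) (nJ1_mono K) (p := fun s => s ∈ [14, 23]) (q := fun s => s ∈ [33, 24])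
        (by decide) (fun s hs => by
          rw [wJ1_apply]
          have key : ∀ r ∈ [14, 23], w1f r ∈ [33, 24] := by decide +kernel
          exact key _ hs) _ (S.xA_mem_E a2cNeg t).1
    · exact Subgroup.mul_mem _ (Subgroup.mul_mem _ (S.G1_le_Γ S.nJ1_mem) (S.xA_mem_E a2cNeg t).2)
        (Subgroup.inv_mem _ (S.G1_le_Γ S.nJ1_mem))
  obtain ⟨t', e⟩ := (S.mem_EA a2cPos (by decide) _).mp hmem
  have h1 := S.Q_conj (Subgroup.inv_mem _ S.nJ1_mem) (S.xA_mem_Q hc t')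
  rw [← e] at h1
  have e2 : (nJ1 K)⁻¹ * (nJ1 K * S.xA 14 23 t * (nJ1 K)⁻¹) * (nJ1 K)⁻¹⁻¹ = S.xA 14 23 t := by group
  rwa [e2] at h1

omit [Fintype K] in
theorem xB_mem_E {a b c d : ℕ} (h : B2C a b c d) (h' : B2R a b c d) (t u : K) : S.xB a b c d t u ∈ S.E [a, b, c, d] :=
  ⟨Subgroup.mul_mem _ (Subgroup.mul_mem _ (Subgroup.mul_mem _ ((relsF4 K).xg_mem_UU (by simp) _)
      ((relsF4 K).xg_mem_UU (by simp) _)) ((relsF4 K).xg_mem_UU (by simp) _)) ((relsF4 K).xg_mem_UU (by simp) _),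
      S.xB_mem_GG _ _ _ _ _ _, S.xB_fixed h h' t u⟩

theorem xBn_mem_Q (hc : 2 < Fintype.card K) (t u : K) : S.xB 20 22 19 17 t u ∈ ⁅S.G1, S.G1⁆ := by
  have hmem : nJ2 K * S.xB 20 22 19 17 t u * (nJ2 K)⁻¹ ∈ S.E [27, 25, 28, 30] := by
    constructor
    · exact Rels.IsMono.conj_UU (relsF4 K) (nJ2_mono K) (p := fun s => s ∈ [20, 22, 19, 17])
        (q := fun s => s ∈ [27, 25, 28, 30])
        (by decide) (fun s hs => by
          rw [wJ2_apply]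
          have key : ∀ r ∈ [20, 22, 19, 17], w2f r ∈ [27, 25, 28, 30] := by decide +kernel
          exact key _ hs) _ (S.xB_mem_E b2cNeg b2rNeg t u).1
    · exact Subgroup.mul_mem _ (Subgroup.mul_mem _ (S.G1_le_Γ S.nJ2_mem) (S.xB_mem_E b2cNeg b2rNeg t u).2)
        (Subgroup.inv_mem _ (S.G1_le_Γ S.nJ2_mem))
  obtain ⟨t', u', e⟩ := (S.mem_EB b2cPos b2rPos (by decide) _).mp hmem
  have h1 := S.Q_conj (Subgroup.inv_mem _ S.nJ2_mem) (S.xB_mem_Q hc t' u')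
  rw [← e] at h1
  have e2 : (nJ2 K)⁻¹ * (nJ2 K * S.xB 20 22 19 17 t u * (nJ2 K)⁻¹) * (nJ2 K)⁻¹⁻¹ = S.xB 20 22 19 17 t u := by group
  rwa [e2] at h1

theorem perfect (hc : 2 < Fintype.card K) : commutator ↥S.G1 = ⊤ := by
  have h1 : S.G1 ≤ ⁅S.G1, S.G1⁆ := by
    conv_lhs => unfold G1
    rw [Subgroup.closure_le]
    rintro g ⟨t, u, rfl | rfl | rfl | rfl⟩
    · exact S.xA_mem_Q hc t
    · exact S.xAn_mem_Q hc t
    · exact S.xB_mem_Q hc t u
    · exact S.xBn_mem_Q hc t u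
  apply Subgroup.map_injective S.G1.subtype_injective
  rw [commutator_def, Subgroup.map_commutator, ← MonoidHom.range_eq_map, Subgroup.range_subtype]
  exact le_antisymm S.Q_le h1

end Ree4

theorem two_lt_card {m : ℕ} (hm : 1 ≤ m) : 2 < 2 ^ (2 * m + 1) := by
  calc 2 = 2 ^ 1 := by norm_num
    _ < 2 ^ (2 * m + 1) := Nat.pow_lt_pow_right (by norm_num) (by omega)

end Cfsg.Agent.Chev
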