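import Cfsg.Agent.Chev.TwF16
import Cfsg.Agent.S0319

/-!
# The Ree groups `²F₄`: simplicity
-/

set_option autoImplicit false
set_option linter.unusedSectionVars false
set_option linter.unusedVariables false
set_option maxRecDepth 1000000

namespace Cfsg.Agent.Chev
open Cfsg.Lie
open scoped MatrixGroups

theorem wJ_comm_ne1 : wJ1 * wJ2 * wJ1⁻¹ * wJ2⁻¹ ≠ 1 := by
  intro h
  rw [wJ1_inv, wJ2_inv] at h
  have h1 := congrArg (fun σ : Equiv.Perm (Fin chevF4.nroots) => ((σ ⟨33, by decide⟩ : Fin chevF4.nroots) : ℕ)) h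
  simp only [Equiv.Perm.mul_apply, wJ1_apply, wJ2_apply, Equiv.Perm.one_apply] at h1
  revert h1
  decide +kernel

theorem wJ_comm_ne2 : wJ2 * wJ1 * wJ2⁻¹ * wJ1⁻¹ ≠ 1 := by
  intro h
  rw [wJ1_inv, wJ2_inv] at h
  have h1 := congrArg (fun σ : Equiv.Perm (Fin chevF4.nroots) => ((σ ⟨33, by decide⟩ : Fin chevF4.nroots) : ℕ)) h
  simp only [Equiv.Perm.mul_apply, wJ1_apply, wJ2_apply, Equiv.Perm.one_apply] at h1
  revert h1
  decide +kernel

namespace Ree4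
variable {K : Type*} [Field K] [Fintype K] [CharP K 2] (S : Ree4 K)

omit [Fintype K] [CharP K 2] in
theorem comm_not_B {n n' : GL chevF4.Idx K} {w w' : Equiv.Perm (Fin chevF4.nroots)}
    (hn : n ∈ chevF4.monomialSubgroup K) (hn' : n' ∈ chevF4.monomialSubgroup K) (hm : (relsF4 K).IsMono n w)
    (hm' : (relsF4 K).IsMono n' w') (hne : w * w' * w⁻¹ * w'⁻¹ ≠ 1) : n * n' * n⁻¹ * n'⁻¹ ∉ chevF4.borelSubgroup K := by
  intro h
  have h1 : n * n' * n⁻¹ * n'⁻¹ ∈ chevF4.borelSubgroup K ⊓ chevF4.monomialSubgroup K :=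
    ⟨h, Subgroup.mul_mem _ (Subgroup.mul_mem _ (Subgroup.mul_mem _ hn hn') (Subgroup.inv_mem _ hn)) (Subgroup.inv_mem _ hn')⟩
  rw [(relsF4 K).B_inf_N good2F4] at h1
  have h2 := Rels.IsMono.unique (relsF4 K) (Rels.IsMono.of_tor (relsF4 K) ((relsF4 K).H_le_Tor h1))
    (Rels.IsMono.mul (relsF4 K) (Rels.IsMono.mul (relsF4 K) (Rels.IsMono.mul (relsF4 K) hm hm')
      (Rels.IsMono.inv (relsF4 K) hm)) (Rels.IsMono.inv (relsF4 K) hm'))
  exact hne h2.symm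

theorem irreducible : S.bnPair1.Irreducible := by
  intro J hJ hne hne'
  obtain ⟨x, hx⟩ := hne
  obtain ⟨y, hy1, hy2⟩ := hne'
  refine ⟨x, hx, y, ⟨hy1, hy2⟩, ?_⟩
  intro h
  have h' : (x : GL chevF4.Idx K) * y * (x : GL chevF4.Idx K)⁻¹ * (y : GL chevF4.Idx K)⁻¹ ∈ chevF4.borelSubgroup K :=
    (Subgroup.mem_subgroupOf.mp h).1
  have hx1 : (x : GL chevF4.Idx K) = nJ1 K ∨ (x : GL chevF4.Idx K) = nJ2 K := hJ hx
  have hy1' : (y : GL chevF4.Idx K) = nJ1 K ∨ (y : GL chevF4.Idx K) = nJ2 K := hy1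
  rcases hx1 with e1 | e1 <;> rcases hy1' with e2 | e2
  · exact hy2 ((Subtype.ext (e2.trans e1.symm) : y = x) ▸ hx)
  · rw [e1, e2] at h'
    exact comm_not_B (nJ1_mem_N K) (nJ2_mem_N K) (nJ1_mono K) (nJ2_mono K) wJ_comm_ne1 h'
  · rw [e1, e2] at h'
    exact comm_not_B (nJ2_mem_N K) (nJ1_mem_N K) (nJ2_mono K) (nJ1_mono K) wJ_comm_ne2 h'
  · exact hy2 ((Subtype.ext (e2.trans e1.symm) : y = x) ▸ hx)

theorem simple (hc : 2 < Fintype.card K) : IsSimpleGroup ↥S.G1 ∧ ¬ IsMulCommutative ↥S.G1 := by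
  have hperf := S.perfect hc
  have hsolv : Group.IsSolvable ↥S.bnPair1.B := by
    have h1 : Group.IsSolvable ↥(chevF4.borelSubgroup K ⊓ S.G1) :=
      Tri.isSolvable_of_le (ordw_lt goodF4) (inf_le_left.trans (relsF4 K).B_le_tri)
    exact Group.isSolvable_of_isSolvable_injective
      (f := (Subgroup.subgroupOfEquivOfLe (inf_le_right : chevF4.borelSubgroup K ⊓ S.G1 ≤ S.G1)).toMonoidHom)
      (Subgroup.subgroupOfEquivOfLe (inf_le_right : chevF4.borelSubgroup K ⊓ S.G1 ≤ S.G1)).injective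
  have hnt : Nontrivial ↥S.G1 := by
    refine ⟨⟨S.xA 33 24 1, S.xA1_mem 1⟩, 1, ?_⟩
    intro h
    exact S.xA1_ne_one (congrArg Subtype.val h)
  have hs := Cfsg.Agent.S0319.result S.bnPair1 S.irreducible hsolv hperf S.core_trivial
  refine ⟨hs, ?_⟩
  intro hcomm
  have h1 : commutator ↥S.G1 = ⊥ := by
    rw [commutator_def, Subgroup.commutator_eq_bot_iff_le_centralizer]
    intro a _ b _
    exact hcomm.is_comm.comm b a
  rw [hperf] at h1
  exact top_ne_bot h1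

end Ree4

end Cfsg.Agent.Chev
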