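import Cfsg.Agent.Chev.TwF13
import Mathlib.LinearAlgebra.Matrix.CharP

/-!
# The Ree groups `²F₄`: the Sylow 2-subgroups and the orders of the 2-elements
-/

set_option autoImplicit false
set_option linter.unusedSectionVars false
set_option linter.unusedVariables false
set_option maxRecDepth 1000000

namespace Cfsg.Agent.Chev
open Cfsg.Lie
open scoped MatrixGroups Pointwise

/-- the height -/
def trueHtF4 (r : ℕ) : ℤ := goodF4.lin (fun _ => 1) r

theorem trueHtF4_addFn : AddFn chevF4 trueHtF4 := goodF4.lin_addFn _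

theorem trueHtF4_bd : ∀ r < 48, -11 ≤ trueHtF4 r ∧ trueHtF4 r ≤ 11 := by
  unfold trueHtF4 Good.lin
  decide +kernel

theorem trueHtF4_pos : ∀ r < 48, 24 ≤ r → 1 ≤ trueHtF4 r := by
  unfold trueHtF4 Good.lin
  decide +kernel

/-- the level of a coordinate -/
def lvlF4 (a : chevF4.Idx) : ℕ := (wtI chevF4 trueHtF4 a + 11).toNat

theorem wtI_bd (a : chevF4.Idx) : -11 ≤ wtI chevF4 trueHtF4 a ∧ wtI chevF4 trueHtF4 a ≤ 11 := by
  rcases a with i | s
  · simp [wtI]
  · exact trueHtF4_bd s s.2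

theorem lvlF4_lt (a : chevF4.Idx) : lvlF4 a < 23 := by
  have := wtI_bd a
  unfold lvlF4
  omega

section
variable {K : Type*} [Field K]

theorem x_SD_lvlF4 (r : ℕ) (h1 : 24 ≤ r) (t : K) : Tri.SD lvlF4 1 (chevF4.x K r t - 1) := by
  intro row col h
  by_cases hr : r < chevF4.nroots
  · by_cases h2 : row = col
    · subst h2
      rw [Matrix.sub_apply, x_diag goodF4, Matrix.one_apply_eq, sub_self] at h
      exact absurd rfl h
    · rw [Matrix.sub_apply, Matrix.one_apply_ne h2, sub_zero] at h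
      rcases x_support goodF4 trueHtF4_addFn r hr t row col h with h3 | ⟨e, he, h3⟩
      · exact absurd h3 h2
      · have h4 := trueHtF4_pos r hr h1
        have h5 : wtI chevF4 trueHtF4 col + 1 ≤ wtI chevF4 trueHtF4 row := by
          rw [h3]
          have : 1 ≤ (e : ℤ) * trueHtF4 r := by
            have he' : (1 : ℤ) ≤ e := by exact_mod_cast he
            nlinarith
          linarith
        have b1 := wtI_bd col
        have b2 := wtI_bd row
        unfold lvlF4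
        omega
  · simp [ChevalleyDatum.x, hr] at h

theorem U_le_lvl : chevF4.posUnipotent K ≤ Tri.depthGrp K lvlF4 1 := by
  unfold ChevalleyDatum.posUnipotent
  rw [Subgroup.closure_le]
  rintro g ⟨r, t, hr, hg⟩
  have hr' := ((goodF4.isPosRoot_iff r).mp hr).1
  rw [((relsF4 K).eq_xg_iff _ _ _).mp hg]
  exact ⟨x_SD_lvlF4 r hr' t, x_SD_lvlF4 r hr' (-t)⟩

theorem U_pow32 [CharP K 2] {u : GL chevF4.Idx K} (hu : u ∈ chevF4.posUnipotent K) : u ^ 32 = 1 := by
  have : Fact (Nat.Prime 2) := ⟨by norm_num⟩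
  have h1 := (U_le_lvl hu).1
  have h2 : ((u : Matrix chevF4.Idx chevF4.Idx K) - 1) ^ 32 = 0 := Tri.pow_eq_zero_of_SD lvlF4_lt h1 (by norm_num)
  have hne : Nonempty chevF4.Idx := ⟨Sum.inl ⟨0, by decide⟩⟩
  have h3 := sub_pow_char_pow_of_commute (p := 2) (n := 5) (Commute.one_right (u : Matrix chevF4.Idx chevF4.Idx K))
  rw [show (2 : ℕ) ^ 5 = 32 by norm_num, h2, one_pow] at h3
  apply Units.ext
  rw [Units.val_pow_eq_pow_val, Units.val_one]
  exact (sub_eq_zero.mp h3.symm)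

end

namespace Ree4
variable {K : Type*} [Field K] [Fintype K] [CharP K 2] (S : Ree4 K)

/-- `U¹` as a subgroup of the Ree group -/
def U1 : Subgroup ↥S.G1 := (chevF4.posUnipotent K ⊓ S.G1).subgroupOf S.G1

theorem card_U1' : Nat.card ↥S.U1 = Fintype.card K ^ 12 := by
  rw [← S.card_U1]
  exact Nat.card_congr (Subgroup.subgroupOfEquivOfLe (inf_le_right : chevF4.posUnipotent K ⊓ S.G1 ≤ S.G1)).toEquiv

omit S in
theorem two_dvd_card : 2 ∣ Fintype.card K := by
  obtain ⟨n, hp, hn⟩ := FiniteField.card K 2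
  rw [hn]; exact dvd_pow_self _ n.ne_zero

theorem U1_index : S.U1.index = (Fintype.card K - 1) * (Fintype.card K ^ 3 + 1) * (Fintype.card K ^ 4 - 1) *
    (Fintype.card K ^ 6 + 1) := by
  have h1 := S.U1.card_mul_index
  rw [S.card_U1', S.card_G1', mul_assoc, mul_assoc, mul_assoc] at h1
  have := Nat.eq_of_mul_eq_mul_left (pow_pos Fintype.card_pos 12) h1
  rw [this]; ring

theorem not_dvd_index : ¬ 2 ∣ S.U1.index := by
  rw [S.U1_index]
  obtain ⟨a, ha⟩ := two_dvd_card (K := K)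
  have hpos : 0 < Fintype.card K := Fintype.card_pos
  have o1 : Odd (Fintype.card K - 1) := by
    rw [ha]; exact ⟨a - 1, by omega⟩
  have e3 : Even (Fintype.card K ^ 3) := (Nat.even_pow.mpr ⟨⟨a, by omega⟩, by norm_num⟩)
  have e4 : Even (Fintype.card K ^ 4) := (Nat.even_pow.mpr ⟨⟨a, by omega⟩, by norm_num⟩)
  have e6 : Even (Fintype.card K ^ 6) := (Nat.even_pow.mpr ⟨⟨a, by omega⟩, by norm_num⟩)
  have o3 : Odd (Fintype.card K ^ 3 + 1) := e3.add_one
  have o6 : Odd (Fintype.card K ^ 6 + 1) := e6.add_one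
  have o4 : Odd (Fintype.card K ^ 4 - 1) := by
    obtain ⟨b, hb⟩ := e4
    have : 0 < Fintype.card K ^ 4 := pow_pos hpos 4
    exact ⟨b - 1, by omega⟩
  have := ((o1.mul o3).mul o4).mul o6
  rw [← Nat.not_even_iff_odd, even_iff_two_dvd] at this
  exact this

theorem U1_pgroup : IsPGroup 2 ↥S.U1 := by
  have : Fact (Nat.Prime 2) := ⟨by norm_num⟩
  obtain ⟨n, hp, hn⟩ := FiniteField.card K 2
  apply IsPGroup.of_card (n := n * 12)
  rw [S.card_U1', hn, pow_mul]

theorem two_elt_pow32 (x : ↥S.G1) (hx : ∃ j : ℕ, orderOf x = 2 ^ j) : x ^ 32 = 1 := by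
  have : Fact (Nat.Prime 2) := ⟨by norm_num⟩
  let S0 : Sylow 2 ↥S.G1 := S.U1_pgroup.toSylow S.not_dvd_index
  have hS0 : ∀ x : ↥S.G1, x ∈ S0 ↔ (x : GL chevF4.Idx K) ∈ chevF4.posUnipotent K := by
    intro x
    show x ∈ S.U1 ↔ _
    unfold U1
    rw [Subgroup.mem_subgroupOf]
    exact ⟨fun h => h.1, fun h => ⟨h, x.2⟩⟩
  have hp : IsPGroup 2 ↥(Subgroup.zpowers x) := by
    obtain ⟨j, hj⟩ := hx
    apply IsPGroup.of_card (n := j)
    rw [Nat.card_zpowers, hj]
  obtain ⟨P, hP⟩ := hp.exists_le_sylow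
  obtain ⟨g, rfl⟩ := MulAction.exists_smul_eq ↥S.G1 S0 P
  have hmem : ∀ (a x : ↥S.G1), x ∈ a • S0 ↔ a⁻¹ * x * a ∈ S0 := by
    intro a x
    rw [← SetLike.mem_coe, ← Sylow.coe_coe, Sylow.coe_subgroup_smul, SetLike.mem_coe,
      Subgroup.mem_pointwise_smul_iff_inv_smul_mem]
    simp [MulAut.smul_def]
    rfl
  have h1 := (hS0 _).mp ((hmem g x).mp (hP (Subgroup.mem_zpowers x)))
  have h2 := U_pow32 h1
  have h3 : (g⁻¹ * x * g) ^ 32 = 1 := Subtype.ext (by rw [Subgroup.coe_pow]; exact h2)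
  have h4 : g⁻¹ * x ^ 32 * g = 1 := by
    have := conj_pow (a := g⁻¹) (b := x) (i := 32)
    rw [inv_inv] at this
    rw [← this]; exact h3
  calc x ^ 32 = g * (g⁻¹ * x ^ 32 * g) * g⁻¹ := by group
    _ = 1 := by rw [h4]; group

theorem two_elt_order (x : ↥S.G1) (hx : ∃ j : ℕ, orderOf x = 2 ^ j) : orderOf x ≤ 32 :=
  Nat.le_of_dvd (by norm_num) (orderOf_dvd_of_pow_eq_one (S.two_elt_pow32 x hx))

end Ree4

end Cfsg.Agent.Chev
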