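import Cfsg.Agent.Chev.TwF6

/-!
# The Ree groups `²F₄`: the unipotent subgroup
-/

set_option autoImplicit false
set_option linter.unusedSectionVars false
set_option linter.unusedVariables false
set_option maxRecDepth 1000000

namespace Cfsg.Agent.Chev
open Cfsg.Lie
open scoped MatrixGroups

section
variable {K : Type*} [Field K] [Fintype K] {m : ℕ}

theorem charP2_of_card (hK : Fintype.card K = 2 ^ (2 * m + 1)) : CharP K 2 := by
  obtain ⟨p, hchar⟩ := CharP.exists K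
  obtain ⟨n, hp, hc⟩ := FiniteField.card K p
  have : p = 2 := by
    have h1 : p ∣ 2 ^ (2 * m + 1) := by rw [← hK, hc]; exact dvd_pow_self _ n.ne_zero
    exact (Nat.prime_dvd_prime_iff_eq hp (by norm_num)).mp (hp.dvd_of_dvd_pow h1)
  rw [← this]; exact hchar

/-- the twisting data over the field with `2 ^ (2 m + 1)` elements -/
noncomputable def mkRee4 [CharP K 2] (hK : Fintype.card K = 2 ^ (2 * m + 1)) : Ree4 K :=
  haveI : Fact (Nat.Prime 2) := ⟨by norm_num⟩
  { θ := 2 ^ m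
    φ := iterateFrobenius K 2 m
    phi_eq := fun a => iterateFrobenius_def 2 m a
    phi_phi := fun a => by
      rw [iterateFrobenius_def, iterateFrobenius_def, ← pow_mul, ← pow_mul]
      have : 2 ^ m * (2 ^ m * 2) = Fintype.card K := by rw [hK]; ring
      rw [this, FiniteField.pow_card]
    σ := Classical.choose (exists_sigmaF4 (iterateFrobenius K 2 m))
    sig_xg := Classical.choose_spec (exists_sigmaF4 (iterateFrobenius K 2 m)) }

theorem mkRee4_theta [CharP K 2] (hK : Fintype.card K = 2 ^ (2 * m + 1)) : (mkRee4 hK).θ = 2 ^ m := rfl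

end

theorem cls_split {cs : List (List ℕ)} {C : List ℕ} (h : C ∈ cs) : ∃ P Q, P ++ (C ++ Q) = cs.flatten := by
  obtain ⟨s, t, rfl⟩ := List.append_of_mem h
  exact ⟨s.flatten, t.flatten, by simp⟩

theorem cls_nodup : ∀ C ∈ clsF4, C.Nodup := by decide

theorem cls_sub {C : List ℕ} (h : C ∈ clsF4) : ∀ r ∈ C, r ∈ LF4 := fun r hr => List.mem_flatten.mpr ⟨C, h, hr⟩

namespace Ree4
variable {K : Type*} [Field K] [Fintype K] [CharP K 2] (S : Ree4 K)

omit [Fintype K] [CharP K 2] in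
theorem wg_pair (r rb : ℕ) (t : K) : (relsF4 K).wg (f4PairWord S.θ r rb t) = S.xA r rb t := by
  unfold f4PairWord xA
  rw [← S.phi_eq]
  simp only [Rels.wg_cons, Rels.wg_nil, mul_one]

omit [Fintype K] [CharP K 2] in
theorem wg_b2 (a b c d : ℕ) (t u : K) : (relsF4 K).wg (b2ClassWord S.θ a b c d t u) = S.xB a b c d t u := by
  have e1 : t ^ (S.θ + 1) = S.φ t * t := by rw [pow_succ, S.phi_eq]
  have e2 : u ^ (2 * S.θ) = S.φ u ^ 2 := by rw [mul_comm 2, pow_mul, S.phi_eq]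
  unfold b2ClassWord xB
  rw [e1, e2, ← S.phi_eq]
  simp only [Rels.wg_cons, Rels.wg_nil, mul_one, mul_assoc]

omit [Fintype K] [CharP K 2] in
theorem twistedF4_eq : twistedF4 K S.θ = S.G1 := by
  unfold twistedF4 ChevalleyDatum.genSubgroup G1
  congr 1
  ext g
  constructor
  · rintro ⟨w, ⟨t, rfl | rfl⟩ | ⟨t, u, rfl | rfl⟩, hg⟩
    · exact ⟨t, 0, Or.inl (by rw [← S.wg_pair]; exact ((relsF4 K).eq_wg_iff _ _).mp hg)⟩
    · exact ⟨t, 0, Or.inr (Or.inl (by rw [← S.wg_pair]; exact ((relsF4 K).eq_wg_iff _ _).mp hg))⟩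
    · exact ⟨t, u, Or.inr (Or.inr (Or.inl (by rw [← S.wg_b2]; exact ((relsF4 K).eq_wg_iff _ _).mp hg)))⟩
    · exact ⟨t, u, Or.inr (Or.inr (Or.inr (by rw [← S.wg_b2]; exact ((relsF4 K).eq_wg_iff _ _).mp hg)))⟩
  · rintro ⟨t, u, rfl | rfl | rfl | rfl⟩
    · exact ⟨_, Or.inl ⟨t, Or.inl rfl⟩, by rw [← S.wg_pair]; exact (relsF4 K).coe_wg _⟩
    · exact ⟨_, Or.inl ⟨t, Or.inr rfl⟩, by rw [← S.wg_pair]; exact (relsF4 K).coe_wg _⟩
    · exact ⟨_, Or.inr ⟨t, u, Or.inl rfl⟩, by rw [← S.wg_b2]; exact (relsF4 K).coe_wg _⟩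
    · exact ⟨_, Or.inr ⟨t, u, Or.inr rfl⟩, by rw [← S.wg_b2]; exact (relsF4 K).coe_wg _⟩

omit [CharP K 2] in
theorem prodl_inj {L : List ℕ} (A : Adm L) {P C Q : List ℕ} (e : P ++ (C ++ Q) = L) {t t' : ℕ → K}
    (h : (relsF4 K).prodL t C = (relsF4 K).prodL t' C) : ∀ r ∈ C, t r = t' r := by
  classical
  have hCL : ∀ r ∈ C, r ∈ L := fun r hr => by rw [← e]; simp [hr]
  have hnd := A.nodup
  rw [← e] at hnd
  have hnd2 := (List.nodup_append.mp hnd).2.1
  have hPd : ∀ r ∈ P, r ∉ C := by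
    intro r hr
    have := (List.nodup_append.mp hnd).2.2 r hr
    exact fun h => this r (by simp [h]) rfl
  have hCQ : ∀ r ∈ Q, r ∉ C := fun r hr h => (List.nodup_append.mp hnd2).2.2 r h r hr rfl
  let T : ℕ → K := fun r => if r ∈ C then t r else 0
  let T' : ℕ → K := fun r => if r ∈ C then t' r else 0
  have h1 : (relsF4 K).prodL T L = (relsF4 K).prodL t C := by
    rw [← e, (relsF4 K).prodL_append, (relsF4 K).prodL_append,
      (relsF4 K).prodL_eq_one (t := T) (L := P) (fun r hr => if_neg (hPd r hr)),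
      (relsF4 K).prodL_eq_one (t := T) (L := Q) (fun r hr => if_neg (hCQ r hr)), one_mul, mul_one]
    exact (relsF4 K).prodL_congr (fun r hr => if_pos hr)
  have h2 : (relsF4 K).prodL T' L = (relsF4 K).prodL t' C := by
    rw [← e, (relsF4 K).prodL_append, (relsF4 K).prodL_append,
      (relsF4 K).prodL_eq_one (t := T') (L := P) (fun r hr => if_neg (hPd r hr)),
      (relsF4 K).prodL_eq_one (t := T') (L := Q) (fun r hr => if_neg (hCQ r hr)), one_mul, mul_one]
    exact (relsF4 K).prodL_congr (fun r hr => if_pos hr)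
  have hlt : ∀ r ∈ L, - goodF4.ht r < 0 := by
    intro r hr
    have h := (A.mem r).mp hr
    have := (goodF4.ht_pos_iff h.2).mpr h.1
    omega
  have h3 := (relsF4 K).prodL_inj good2F4 negHtF4_addFn L A.sc A.mem
    (fun r hr h => absurd (hlt r hr) h) (fun r hr h => absurd (hlt r hr) h) (h1.trans (h.trans h2.symm))
  intro r hr
  have := h3 r (hCL r hr)
  simp only [T, T', if_pos hr] at this
  exact this

omit [CharP K 2] in
theorem two_inj {r rb : ℕ} (hC : [r, rb] ∈ clsF4) {A B A' B' : K}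
    (h : (relsF4 K).xg r A * (relsF4 K).xg rb B = (relsF4 K).xg r A' * (relsF4 K).xg rb B') : A = A' ∧ B = B' := by
  obtain ⟨P, Q, e⟩ := cls_split hC
  have hnd := cls_nodup _ hC
  have hne : rb ≠ r := by
    intro h
    simp [h] at hnd
  have h1 := prodl_inj admF4 e (t := fun s => if s = r then A else B) (t' := fun s => if s = r then A' else B') (by
    simp only [Rels.prodL_cons, Rels.prodL_nil, mul_one, if_true, if_neg hne]
    exact h)
  have h2 := h1 r (by simp)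
  have h3 := h1 rb (by simp)
  simp only [if_true, if_neg hne] at h2 h3
  exact ⟨h2, h3⟩

omit [CharP K 2] in
theorem four_inj {a b c d : ℕ} (hC : [a, b, c, d] ∈ clsF4) {A B C E A' B' C' E' : K}
    (h : (relsF4 K).xg a A * (relsF4 K).xg b B * (relsF4 K).xg c C * (relsF4 K).xg d E =
      (relsF4 K).xg a A' * (relsF4 K).xg b B' * (relsF4 K).xg c C' * (relsF4 K).xg d E') :
    A = A' ∧ B = B' ∧ C = C' ∧ E = E' := by
  obtain ⟨P, Q, e⟩ := cls_split hC
  have hnd := cls_nodup _ hC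
  simp only [List.nodup_cons, List.mem_cons, List.not_mem_nil, or_false, not_or, not_false_eq_true, List.nodup_nil,
    and_true] at hnd
  obtain ⟨⟨h1, h2, h3⟩, ⟨h4, h5⟩, h6⟩ := hnd
  have k := prodl_inj admF4 e (t := fun s => if s = a then A else if s = b then B else if s = c then C else E)
    (t' := fun s => if s = a then A' else if s = b then B' else if s = c then C' else E') (by
    simp only [Rels.prodL_cons, Rels.prodL_nil, mul_one, if_true, if_neg (Ne.symm h1), if_neg (Ne.symm h2),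
      if_neg (Ne.symm h3), if_neg (Ne.symm h4), if_neg (Ne.symm h5), if_neg (Ne.symm h6), ← mul_assoc]
    exact h)
  have k1 := k a (by simp)
  have k2 := k b (by simp)
  have k3 := k c (by simp)
  have k4 := k d (by simp)
  simp only [if_true, if_neg (Ne.symm h1), if_neg (Ne.symm h2),
      if_neg (Ne.symm h3), if_neg (Ne.symm h4), if_neg (Ne.symm h5), if_neg (Ne.symm h6)] at k1 k2 k3 k4
  exact ⟨k1, k2, k3, k4⟩

/-- the fixed points of a class -/
def E (C : List ℕ) : Subgroup (GL chevF4.Idx K) := UU chevF4 K (fun s => s ∈ C) ⊓ S.Γ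

theorem mem_EA {r rb : ℕ} (h : A2C r rb) (hC : [r, rb] ∈ clsF4) (g : GL chevF4.Idx K) :
    g ∈ S.E [r, rb] ↔ ∃ t, g = S.xA r rb t := by
  constructor
  · rintro ⟨h1, h2⟩
    obtain ⟨t, rfl⟩ := exists_prodl admF4 (cls_sub hC) (cls_ok _ hC).1 h1
    have e : (relsF4 K).prodL t [r, rb] = (relsF4 K).xg r (t r) * (relsF4 K).xg rb (t rb) := by
      simp only [Rels.prodL_cons, Rels.prodL_nil, mul_one]
    rw [e] at h2 ⊢
    have h3 := h2.2
    rw [S.sg_two h.lt.1 h.lt.2, h.rho.1, h.rho.2, h.lam.1, h.lam.2, pow_one, ← (comm_of_ok h.comm _ _).eq] at h3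
    obtain ⟨e1, e2⟩ := two_inj hC h3
    exact ⟨t rb, by unfold xA; rw [e1]⟩
  · rintro ⟨t, rfl⟩
    exact ⟨Subgroup.mul_mem _ ((relsF4 K).xg_mem_UU (by simp) _) ((relsF4 K).xg_mem_UU (by simp) _),
      S.xA_mem_GG _ _ _, S.xA_fixed h t⟩

theorem card_EA {r rb : ℕ} (h : A2C r rb) (hC : [r, rb] ∈ clsF4) : Nat.card ↥(S.E [r, rb]) = Fintype.card K := by
  let ψ : K → ↥(S.E [r, rb]) := fun t => ⟨S.xA r rb t, (S.mem_EA h hC _).mpr ⟨t, rfl⟩⟩
  have hψ : Function.Bijective ψ := by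
    constructor
    · intro t t' e
      exact (two_inj hC (congrArg Subtype.val e)).2
    · rintro ⟨g, hg⟩
      obtain ⟨t, rfl⟩ := (S.mem_EA h hC g).mp hg
      exact ⟨t, rfl⟩
  rw [← Nat.card_congr (Equiv.ofBijective ψ hψ), Nat.card_eq_fintype_card]

theorem mem_EB {a b c d : ℕ} (h : B2C a b c d) (h' : B2R a b c d) (hC : [a, b, c, d] ∈ clsF4) (g : GL chevF4.Idx K) :
    g ∈ S.E [a, b, c, d] ↔ ∃ t u, g = S.xB a b c d t u := by
  constructor
  · rintro ⟨h1, h2⟩
    obtain ⟨t, rfl⟩ := exists_prodl admF4 (cls_sub hC) (cls_ok _ hC).1 h1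
    have e : (relsF4 K).prodL t [a, b, c, d] =
        (relsF4 K).xg a (t a) * (relsF4 K).xg b (t b) * (relsF4 K).xg c (t c) * (relsF4 K).xg d (t d) := by
      simp only [Rels.prodL_cons, Rels.prodL_nil, mul_one, mul_assoc]
    rw [e] at h2 ⊢
    have h3 := h2.2
    rw [S.sg_B2 h h'] at h3
    obtain ⟨e1, e2, e3, e4⟩ := four_inj hC h3
    refine ⟨t b, S.φ (t d), ?_⟩
    unfold xB
    rw [S.phi_phi, e1, ← e3, ← e1, S.phi_phi]
  · rintro ⟨t, u, rfl⟩
    exact ⟨Subgroup.mul_mem _ (Subgroup.mul_mem _ (Subgroup.mul_mem _ ((relsF4 K).xg_mem_UU (by simp) _)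
      ((relsF4 K).xg_mem_UU (by simp) _)) ((relsF4 K).xg_mem_UU (by simp) _)) ((relsF4 K).xg_mem_UU (by simp) _),
      S.xB_mem_GG _ _ _ _ _ _, S.xB_fixed h h' t u⟩

theorem card_EB {a b c d : ℕ} (h : B2C a b c d) (h' : B2R a b c d) (hC : [a, b, c, d] ∈ clsF4) :
    Nat.card ↥(S.E [a, b, c, d]) = Fintype.card K ^ 2 := by
  let ψ : K × K → ↥(S.E [a, b, c, d]) := fun x => ⟨S.xB a b c d x.1 x.2, (S.mem_EB h h' hC _).mpr ⟨_, _, rfl⟩⟩
  have hψ : Function.Bijective ψ := by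
    constructor
    · rintro ⟨t, u⟩ ⟨t', u'⟩ e
      obtain ⟨e1, e2, e3, e4⟩ := four_inj hC (congrArg Subtype.val e)
      simp only at e2 e3
      rw [e2] at e3
      rw [e2, add_left_cancel e3]
    · rintro ⟨g, hg⟩
      obtain ⟨t, u, rfl⟩ := (S.mem_EB h h' hC g).mp hg
      exact ⟨(t, u), rfl⟩
  rw [← Nat.card_congr (Equiv.ofBijective ψ hψ), Nat.card_prod, Nat.card_eq_fintype_card]
  ring

end Ree4

theorem a2c2 : Ree4.A2C 38 43 := ⟨by decide, by decide, by decide, by decide +kernel⟩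
theorem a2c4 : Ree4.A2C 39 45 := ⟨by decide, by decide, by decide, by decide +kernel⟩
theorem a2c6 : Ree4.A2C 37 32 := ⟨by decide, by decide, by decide, by decide +kernel⟩
theorem b2c1 : B2C 34 26 36 42 :=
  ⟨by decide, by decide +kernel, ⟨-1, 1, Or.inr rfl, Or.inl rfl, by decide +kernel⟩, by decide +kernel⟩
theorem b2c3 : B2C 29 41 44 47 :=
  ⟨by decide, by decide +kernel, ⟨1, 1, Or.inl rfl, Or.inl rfl, by decide +kernel⟩, by decide +kernel⟩
theorem b2c5 : B2C 35 31 40 46 :=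
  ⟨by decide, by decide +kernel, ⟨1, 1, Or.inl rfl, Or.inl rfl, by decide +kernel⟩, by decide +kernel⟩
theorem b2r1 : Ree4.B2R 34 26 36 42 := ⟨by decide, by decide, by decide⟩
theorem b2r3 : Ree4.B2R 29 41 44 47 := ⟨by decide, by decide, by decide⟩
theorem b2r5 : Ree4.B2R 35 31 40 46 := ⟨by decide, by decide, by decide⟩

end Cfsg.Agent.Chev
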