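import Cfsg.Agent.Chev.TwF7

/-!
# The Ree groups `²F₄`: the fundamental reflections and `U¹`
-/

set_option autoImplicit false
set_option linter.unusedSectionVars false
set_option linter.unusedVariables false
set_option maxRecDepth 1000000

namespace Cfsg.Agent.Chev
open Cfsg.Lie
open scoped MatrixGroups

/-- the two fundamental reflections of the twisted Weyl group, on indices -/
def w1f (s : ℕ) : ℕ := chevF4.reflectRoot 0 (chevF4.reflectRoot 3 s)
def w2f (s : ℕ) : ℕ := chevF4.reflectRoot 1 (chevF4.reflectRoot 2 (chevF4.reflectRoot 1 (chevF4.reflectRoot 2 s)))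

def wJ1 : Equiv.Perm (Fin chevF4.nroots) := goodF4.wP 0 (by decide) * goodF4.wP 3 (by decide)
def wJ2 : Equiv.Perm (Fin chevF4.nroots) :=
  goodF4.wP 1 (by decide) * goodF4.wP 2 (by decide) * goodF4.wP 1 (by decide) * goodF4.wP 2 (by decide)

theorem wJ1_apply (s : Fin chevF4.nroots) : ((wJ1 s : Fin chevF4.nroots) : ℕ) = w1f s := by
  unfold wJ1 w1f
  rw [Equiv.Perm.mul_apply, goodF4.wP_apply, goodF4.wP_apply]

theorem wJ2_apply (s : Fin chevF4.nroots) : ((wJ2 s : Fin chevF4.nroots) : ℕ) = w2f s := by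
  unfold wJ2 w2f
  rw [Equiv.Perm.mul_apply, Equiv.Perm.mul_apply, Equiv.Perm.mul_apply, goodF4.wP_apply, goodF4.wP_apply,
    goodF4.wP_apply, goodF4.wP_apply]

section
variable (K : Type*) [Field K]

def nJ1 : GL chevF4.Idx K := (relsF4 K).ng 33 1 * (relsF4 K).ng 24 1
def nJ2 : GL chevF4.Idx K := (relsF4 K).ng 27 1 * (relsF4 K).ng 25 1 * (relsF4 K).ng 27 1 * (relsF4 K).ng 25 1

theorem nJ1_mono : (relsF4 K).IsMono (nJ1 K) wJ1 :=
  Rels.IsMono.mul (relsF4 K) (Rels.IsMono.ni (relsF4 K) (i := 0) (by decide)) (Rels.IsMono.ni (relsF4 K) (i := 3) (by decide))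

theorem nJ2_mono : (relsF4 K).IsMono (nJ2 K) wJ2 :=
  Rels.IsMono.mul (relsF4 K) (Rels.IsMono.mul (relsF4 K) (Rels.IsMono.mul (relsF4 K)
    (Rels.IsMono.ni (relsF4 K) (i := 1) (by decide)) (Rels.IsMono.ni (relsF4 K) (i := 2) (by decide)))
    (Rels.IsMono.ni (relsF4 K) (i := 1) (by decide))) (Rels.IsMono.ni (relsF4 K) (i := 2) (by decide))

theorem nJ1_mem_N : nJ1 K ∈ chevF4.monomialSubgroup K :=
  Subgroup.mul_mem _ ((relsF4 K).ng_mem_N (by decide)) ((relsF4 K).ng_mem_N (by decide))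

theorem nJ2_mem_N : nJ2 K ∈ chevF4.monomialSubgroup K :=
  Subgroup.mul_mem _ (Subgroup.mul_mem _ (Subgroup.mul_mem _ ((relsF4 K).ng_mem_N (by decide))
    ((relsF4 K).ng_mem_N (by decide))) ((relsF4 K).ng_mem_N (by decide))) ((relsF4 K).ng_mem_N (by decide))

end

namespace Ree4
variable {K : Type*} [Field K] [Fintype K] [CharP K 2] (S : Ree4 K)

omit [Fintype K] in
theorem ng_one (r : ℕ) : (relsF4 K).ng r 1 = (relsF4 K).xg r 1 * (relsF4 K).xg (chevF4.neg r) 1 * (relsF4 K).xg r 1 := by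
  rw [(relsF4 K).ng_eq, inv_one, CharTwo.neg_eq]

omit [Fintype K] in
theorem nJ1_eq : nJ1 K = S.xA 33 24 1 * S.xA 14 23 1 * S.xA 33 24 1 := by
  unfold nJ1 xA
  rw [ng_one, ng_one, map_one, show chevF4.neg 33 = 14 from by decide +kernel, show chevF4.neg 24 = 23 from by decide +kernel]
  have c1 : Commute ((relsF4 K).xg 24 1) ((relsF4 K).xg 14 1) := comm_of_ok (by decide +kernel) _ _
  have c2 : Commute ((relsF4 K).xg 23 1) ((relsF4 K).xg 33 1) := comm_of_ok (by decide +kernel) _ _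
  have c3 : Commute ((relsF4 K).xg 24 1) ((relsF4 K).xg 33 1) := comm_of_ok (by decide +kernel) _ _
  generalize (relsF4 K).xg 33 1 = X33 at *
  generalize (relsF4 K).xg 24 1 = X24 at *
  generalize (relsF4 K).xg 14 1 = X14 at *
  generalize (relsF4 K).xg 23 1 = X23 at *
  symm
  calc X33 * X24 * (X14 * X23) * (X33 * X24) = X33 * (X24 * X14) * (X23 * X33) * X24 := by group
    _ = X33 * (X14 * X24) * (X33 * X23) * X24 := by rw [c1.eq, c2.eq]
    _ = X33 * X14 * (X24 * X33) * X23 * X24 := by group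
    _ = X33 * X14 * (X33 * X24) * X23 * X24 := by rw [c3.eq]
    _ = _ := by group

omit [Fintype K] in
theorem nJ1_mem : nJ1 K ∈ S.G1 := by
  rw [S.nJ1_eq]
  exact Subgroup.mul_mem _ (Subgroup.mul_mem _ (S.xA1_mem 1) (S.xA1n_mem 1)) (S.xA1_mem 1)

omit [Fintype K] in
theorem nJ2_eq : nJ2 K = S.xB 27 25 28 30 0 1 * S.xB 20 22 19 17 1 1 * S.xB 27 25 28 30 1 0 := by
  have h := wg_eq_of_chk2 (F := K) wordL2 wordR2 (by decide) (by decide) chk_word2
  unfold nJ2 xB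
  rw [ng_one, ng_one, show chevF4.neg 27 = 20 from by decide +kernel, show chevF4.neg 25 = 22 from by decide +kernel]
  simp only [wordL2, wordR2, List.map_cons, List.map_nil, Rels.wg_cons, Rels.wg_nil, mul_one] at h
  simp only [map_zero, map_one, (relsF4 K).xg_zero, one_mul, mul_one, zero_add, add_zero, one_pow, mul_zero,
    CharTwo.add_self_eq_zero, ne_eq, OfNat.ofNat_ne_zero, not_false_eq_true, zero_pow, mul_assoc]
  exact h.symm

omit [Fintype K] in
theorem nJ2_mem : nJ2 K ∈ S.G1 := by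
  rw [S.nJ2_eq]
  exact Subgroup.mul_mem _ (Subgroup.mul_mem _ (S.xB2_mem _ _) (S.xB2n_mem _ _)) (S.xB2_mem _ _)

omit [Fintype K] in
theorem E_le_of {n : GL chevF4.Idx K} {w : Equiv.Perm (Fin chevF4.nroots)} (hn : n ∈ S.G1) (hm : (relsF4 K).IsMono n w)
    {C C' : List ℕ} (hlt : ∀ s ∈ C, s < 48) (hw : ∀ s : Fin chevF4.nroots, s.1 ∈ C → (w s).1 ∈ C')
    (h : S.E C' ≤ S.G1) : S.E C ≤ S.G1 := by
  rintro u ⟨hu1, hu2⟩
  have h1 : n * u * n⁻¹ ∈ S.E C' := by
    constructor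
    · exact Rels.IsMono.conj_UU (relsF4 K) hm (p := fun s => s ∈ C) (q := fun s => s ∈ C') hlt hw u hu1
    · exact Subgroup.mul_mem _ (Subgroup.mul_mem _ (S.G1_le_Γ hn) hu2) (Subgroup.inv_mem _ (S.G1_le_Γ hn))
  have h2 := Subgroup.mul_mem _ (Subgroup.mul_mem _ (Subgroup.inv_mem _ hn) (h h1)) hn
  have e : n⁻¹ * (n * u * n⁻¹) * n = u := by group
  rwa [e] at h2

omit [Fintype K] in
theorem E_le_1 {C C' : List ℕ} (hw : ∀ s < 48, s ∈ C → w1f s ∈ C') (hlt : ∀ s ∈ C, s < 48)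
    (h : S.E C' ≤ S.G1) : S.E C ≤ S.G1 :=
  S.E_le_of S.nJ1_mem (nJ1_mono K) hlt (fun s hs => by rw [wJ1_apply]; exact hw s s.2 hs) h

omit [Fintype K] in
theorem E_le_2 {C C' : List ℕ} (hw : ∀ s < 48, s ∈ C → w2f s ∈ C') (hlt : ∀ s ∈ C, s < 48)
    (h : S.E C' ≤ S.G1) : S.E C ≤ S.G1 :=
  S.E_le_of S.nJ2_mem (nJ2_mono K) hlt (fun s hs => by rw [wJ2_apply]; exact hw s s.2 hs) h

theorem E0_le : S.E [33, 24] ≤ S.G1 := by
  intro g hg
  obtain ⟨t, rfl⟩ := (S.mem_EA a2cPos (by decide) g).mp hg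
  exact S.xA1_mem t

theorem E7_le : S.E [27, 25, 28, 30] ≤ S.G1 := by
  intro g hg
  obtain ⟨t, u, rfl⟩ := (S.mem_EB b2cPos b2rPos (by decide) g).mp hg
  exact S.xB2_mem t u

theorem E1_le : S.E [34, 26, 36, 42] ≤ S.G1 := S.E_le_1 (by decide +kernel) (by decide) S.E7_le
theorem E6_le : S.E [37, 32] ≤ S.G1 := S.E_le_2 (by decide +kernel) (by decide) S.E0_le
theorem E2_le : S.E [38, 43] ≤ S.G1 := S.E_le_1 (by decide +kernel) (by decide) S.E6_le
theorem E5_le : S.E [35, 31, 40, 46] ≤ S.G1 := S.E_le_2 (by decide +kernel) (by decide) S.E1_le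
theorem E3_le : S.E [29, 41, 44, 47] ≤ S.G1 := S.E_le_1 (by decide +kernel) (by decide) S.E5_le
theorem E4_le : S.E [39, 45] ≤ S.G1 := S.E_le_2 (by decide +kernel) (by decide) S.E2_le

theorem E_le : ∀ C ∈ clsF4, S.E C ≤ S.G1 := by
  intro C hC
  simp only [clsF4, List.mem_cons, List.not_mem_nil, or_false] at hC
  rcases hC with rfl | rfl | rfl | rfl | rfl | rfl | rfl | rfl
  exacts [S.E0_le, S.E1_le, S.E2_le, S.E3_le, S.E4_le, S.E5_le, S.E6_le, S.E7_le]

omit [Fintype K] [CharP K 2] in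
theorem U_eq_UU : chevF4.posUnipotent K = UU chevF4 K (fun s => s ∈ clsF4.flatten) := by
  rw [← UU_pos]
  apply UU_congr
  intro s
  rw [goodF4.isPosRoot_iff]
  exact (mem_LF4 s).symm

theorem U_fixed_le : chevF4.posUnipotent K ⊓ S.Γ ≤ S.G1 := by
  rw [U_eq_UU]
  exact S.blocks_le admF4 S.G1 clsF4 [] rfl cls_ok S.E_le

theorem U_inf_G1 : chevF4.posUnipotent K ⊓ S.G1 = chevF4.posUnipotent K ⊓ S.Γ :=
  le_antisymm (inf_le_inf_left _ S.G1_le_Γ) (le_inf inf_le_left S.U_fixed_le)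

theorem card_E (C : List ℕ) (hC : C ∈ clsF4) : Nat.card ↥(UU chevF4 K (fun s => s ∈ C) ⊓ S.Γ) =
    Fintype.card K ^ (C.length / 2) := by
  simp only [clsF4, List.mem_cons, List.not_mem_nil, or_false] at hC
  rcases hC with rfl | rfl | rfl | rfl | rfl | rfl | rfl | rfl
  · exact (S.card_EA a2cPos (by decide)).trans (pow_one _).symm
  · exact S.card_EB b2c1 b2r1 (by decide)
  · exact (S.card_EA a2c2 (by decide)).trans (pow_one _).symm
  · exact S.card_EB b2c3 b2r3 (by decide)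
  · exact (S.card_EA a2c4 (by decide)).trans (pow_one _).symm
  · exact S.card_EB b2c5 b2r5 (by decide)
  · exact (S.card_EA a2c6 (by decide)).trans (pow_one _).symm
  · exact S.card_EB b2cPos b2rPos (by decide)

/-- the order of the fixed points of a union of classes -/
theorem card_blocks' {L : List ℕ} (A : Adm L) (cs : List (List ℕ)) (P : List ℕ) (e : P ++ cs.flatten = L)
    (hcs : ∀ C ∈ cs, C ∈ clsF4) :
    Nat.card ↥(UU chevF4 K (fun s => s ∈ cs.flatten) ⊓ S.Γ) = Fintype.card K ^ (cs.map fun C => C.length / 2).sum := by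
  rw [S.card_blocks A cs P e (fun C hC => cls_ok C (hcs C hC))]
  clear e
  induction cs with
  | nil => simp
  | cons C cs ih =>
    rw [List.map_cons, List.prod_cons, List.map_cons, List.sum_cons, pow_add, S.card_E C (hcs C List.mem_cons_self),
      ih (fun C' h => hcs C' (List.mem_cons_of_mem _ h))]

theorem card_U1 : Nat.card ↥(chevF4.posUnipotent K ⊓ S.G1) = Fintype.card K ^ 12 := by
  rw [S.U_inf_G1, U_eq_UU, S.card_blocks' admF4 clsF4 [] rfl (fun _ h => h)]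
  rfl

end Ree4

end Cfsg.Agent.Chev
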