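import Cfsg.Agent.Chev.TwF8
import Cfsg.Agent.Chev.NH
import Cfsg.Agent.Chev.Fusion

/-!
# The Ree groups `²F₄`: the diagonal subgroup
-/

set_option autoImplicit false
set_option linter.unusedSectionVars false
set_option linter.unusedVariables false
set_option maxRecDepth 1000000

namespace Cfsg.Agent.Chev
open Cfsg.Lie
open scoped MatrixGroups

section
variable {K : Type*} [Field K]

/-- the elements of the diagonal subgroup of `F₄` -/
def TF4 (a b c d : K) : GL chevF4.Idx K :=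
  (relsF4 K).hg 33 a * (relsF4 K).hg 27 b * (relsF4 K).hg 25 c * (relsF4 K).hg 24 d

theorem TF4_mem_H {a b c d : K} (ha : a ≠ 0) (hb : b ≠ 0) (hc : c ≠ 0) (hd : d ≠ 0) :
    TF4 a b c d ∈ chevF4.diagonalSubgroup K :=
  Subgroup.mul_mem _ (Subgroup.mul_mem _ (Subgroup.mul_mem _ ((relsF4 K).hg_mem_H (by decide) ha)
    ((relsF4 K).hg_mem_H (by decide) hb)) ((relsF4 K).hg_mem_H (by decide) hc)) ((relsF4 K).hg_mem_H (by decide) hd)

theorem hg_commF4 {r s : ℕ} (hr : r < 48) (hs : s < 48) {x y : K} (hx : x ≠ 0) (hy : y ≠ 0) :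
    Commute ((relsF4 K).hg r x) ((relsF4 K).hg s y) :=
  (relsF4 K).H_comm ((relsF4 K).hg_mem_H hr hx) ((relsF4 K).hg_mem_H hs hy)

theorem TF4_mul {a b c d a' b' c' d' : K} (ha : a ≠ 0) (hb : b ≠ 0) (hc : c ≠ 0) (hd : d ≠ 0)
    (ha' : a' ≠ 0) (hb' : b' ≠ 0) (hc' : c' ≠ 0) (hd' : d' ≠ 0) :
    TF4 a b c d * TF4 a' b' c' d' = TF4 (a * a') (b * b') (c * c') (d * d') := by
  unfold TF4
  rw [← (relsF4 K).hg_mul (by decide) ha ha', ← (relsF4 K).hg_mul (by decide) hb hb',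
    ← (relsF4 K).hg_mul (by decide) hc hc', ← (relsF4 K).hg_mul (by decide) hd hd']
  have c1 := hg_commF4 (r := 27) (s := 33) (by decide) (by decide) hb ha'
  have c2 := hg_commF4 (r := 25) (s := 33) (by decide) (by decide) hc ha'
  have c3 := hg_commF4 (r := 24) (s := 33) (by decide) (by decide) hd ha'
  have c4 := hg_commF4 (r := 25) (s := 27) (by decide) (by decide) hc hb'
  have c5 := hg_commF4 (r := 24) (s := 27) (by decide) (by decide) hd hb'
  have c6 := hg_commF4 (r := 24) (s := 25) (by decide) (by decide) hd hc'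
  generalize (relsF4 K).hg 33 a = A at *
  generalize (relsF4 K).hg 27 b = B at *
  generalize (relsF4 K).hg 25 c = C at *
  generalize (relsF4 K).hg 24 d = E at *
  generalize (relsF4 K).hg 33 a' = A' at *
  generalize (relsF4 K).hg 27 b' = B' at *
  generalize (relsF4 K).hg 25 c' = C' at *
  generalize (relsF4 K).hg 24 d' = E' at *
  calc A * B * C * E * (A' * B' * C' * E') = A * B * C * (E * A') * B' * C' * E' := by group
    _ = A * B * (C * A') * (E * B') * C' * E' := by rw [c3.eq]; group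
    _ = A * (B * A') * (C * B') * (E * C') * E' := by rw [c2.eq, c5.eq]; group
    _ = _ := by rw [c1.eq, c4.eq, c6.eq]; group

theorem TF4_conj {a b c d : K} (ha : a ≠ 0) (hb : b ≠ 0) (hc : c ≠ 0) (hd : d ≠ 0) {s : ℕ} (hs : s < 48) (t : K) :
    TF4 a b c d * (relsF4 K).xg s t * (TF4 a b c d)⁻¹ =
      (relsF4 K).xg s (a ^ pairing chevF4 33 s * (b ^ pairing chevF4 27 s * (c ^ pairing chevF4 25 s *
        (d ^ pairing chevF4 24 s * t)))) := by
  unfold TF4
  rw [← (relsF4 K).hg_conj (r := 33) (by decide) hs ha, ← (relsF4 K).hg_conj (r := 27) (by decide) hs hb,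
    ← (relsF4 K).hg_conj (r := 25) (by decide) hs hc, ← (relsF4 K).hg_conj (r := 24) (by decide) hs hd]
  group

theorem xg_injF4 {r : ℕ} (hr : r < 48) {a b : K} (h : (relsF4 K).xg r a = (relsF4 K).xg r b) : a = b := by
  have h1 : (relsF4 K).xg r (a - b) = 1 := by
    rw [sub_eq_add_neg, ← (relsF4 K).xg_add, ← (relsF4 K).xg_inv, h, mul_inv_cancel]
  rw [(relsF4 K).xg_eq_one_iff hr] at h1
  exact sub_eq_zero.mp h1

theorem TF4_inj {a b c d a' b' c' d' : K} (ha : a ≠ 0) (hb : b ≠ 0) (hc : c ≠ 0) (hd : d ≠ 0)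
    (ha' : a' ≠ 0) (hb' : b' ≠ 0) (hc' : c' ≠ 0) (hd' : d' ≠ 0) (h : TF4 a b c d = TF4 a' b' c' d') :
    a = a' ∧ b = b' ∧ c = c' ∧ d = d' := by
  have p : ([44, 47, 46, 40].map fun s => [33, 27, 25, 24].map fun r => pairing chevF4 r s) =
      [[1, 0, 0, 0], [0, 0, 0, 1], [0, 0, 1, -1], [-1, 1, 0, 0]] := by decide +kernel
  simp only [List.map_cons, List.map_nil, List.cons.injEq, and_true] at p
  obtain ⟨⟨p1, p2, p3, p4⟩, ⟨p5, p6, p7, p8⟩, ⟨p9, p10, p11, p12⟩, p13, p14, p15, p16⟩ := p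
  have e1 := TF4_conj ha hb hc hd (s := 44) (by decide) 1
  have e2 := TF4_conj ha hb hc hd (s := 47) (by decide) 1
  have e3 := TF4_conj ha hb hc hd (s := 46) (by decide) 1
  have e4 := TF4_conj ha hb hc hd (s := 40) (by decide) 1
  rw [h, TF4_conj ha' hb' hc' hd' (by decide)] at e1 e2 e3 e4
  have a1 := xg_injF4 (by decide) e1
  have a2 := xg_injF4 (by decide) e2
  have a3 := xg_injF4 (by decide) e3
  have a4 := xg_injF4 (by decide) e4
  rw [p1, p2, p3, p4] at a1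
  rw [p5, p6, p7, p8] at a2
  rw [p9, p10, p11, p12] at a3
  rw [p13, p14, p15, p16] at a4
  simp only [zpow_zero, zpow_one, one_mul, mul_one, zpow_neg] at a1 a2 a3 a4
  subst a1
  subst a2
  refine ⟨rfl, ?_, ?_, rfl⟩
  · exact (mul_left_cancel₀ (inv_ne_zero ha') a4).symm
  · exact (mul_right_cancel₀ (inv_ne_zero hd') a3).symm

theorem H_formF4 {h : GL chevF4.Idx K} (hh : h ∈ chevF4.diagonalSubgroup K) :
    ∃ a b c d : K, a ≠ 0 ∧ b ≠ 0 ∧ c ≠ 0 ∧ d ≠ 0 ∧ h = TF4 a b c d := by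
  obtain ⟨c, hc, e⟩ := (relsF4 K).H_eq_tor hh
  refine ⟨c 0, c 1, c 2, c 3, hc 0, hc 1, hc 2, hc 3, ?_⟩
  rw [← (relsF4 K).wordMat_tor c (fun i _ => hc i), (relsF4 K).eq_wg_iff] at e
  rw [e]
  have : (List.range chevF4.rank).flatMap (fun i => chevF4.hWord (chevF4.simple i) (c i)) =
      chevF4.hWord 33 (c 0) ++ chevF4.hWord 27 (c 1) ++ chevF4.hWord 25 (c 2) ++ chevF4.hWord 24 (c 3) := by
    show (List.range 4).flatMap (fun i => chevF4.hWord (chevF4.simple i) (c i)) = _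
    simp only [List.range_succ, List.range_zero, List.nil_append, List.flatMap_append, List.flatMap_cons,
      List.flatMap_nil, List.append_nil]
    rfl
  rw [this, (relsF4 K).wg_append, (relsF4 K).wg_append, (relsF4 K).wg_append]
  rfl

theorem hg_eq_TF4 {r : ℕ} (hr : r < 48) (a b c d : ℕ)
    (hp : ∀ s < 48, pairing chevF4 r s = (a : ℤ) * pairing chevF4 33 s + (b : ℤ) * pairing chevF4 27 s +
      (c : ℤ) * pairing chevF4 25 s + (d : ℤ) * pairing chevF4 24 s)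
    {z : K} (hz : z ≠ 0) : (relsF4 K).hg r z = TF4 (z ^ a) (z ^ b) (z ^ c) (z ^ d) := by
  apply Units.ext
  unfold TF4
  rw [Units.val_mul, Units.val_mul, Units.val_mul, (relsF4 K).coe_hg, (relsF4 K).coe_hg, (relsF4 K).coe_hg,
    (relsF4 K).coe_hg, (relsF4 K).coe_hg, (relsF4 K).hmat r hr z hz,
    (relsF4 K).hmat 33 (by decide) _ (pow_ne_zero _ hz), (relsF4 K).hmat 27 (by decide) _ (pow_ne_zero _ hz),
    (relsF4 K).hmat 25 (by decide) _ (pow_ne_zero _ hz), (relsF4 K).hmat 24 (by decide) _ (pow_ne_zero _ hz),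
    Matrix.diagonal_mul_diagonal, Matrix.diagonal_mul_diagonal, Matrix.diagonal_mul_diagonal]
  congr 1
  funext i
  rcases i with i | s
  · simp [wtI]
  · simp only [wtI, Sum.elim_inr]
    rw [hp s s.2, zpow_add₀ hz, zpow_add₀ hz, zpow_add₀ hz, zpow_mul, zpow_mul, zpow_mul, zpow_mul, zpow_natCast,
      zpow_natCast, zpow_natCast, zpow_natCast]

theorem hg37_eq {z : K} (hz : z ≠ 0) : (relsF4 K).hg 37 z = TF4 z (z ^ 2) (z ^ 2) 1 := by
  have := hg_eq_TF4 (r := 37) (by decide) 1 2 2 0 (by decide +kernel) hz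
  rwa [pow_one, pow_zero] at this

theorem hg32_eq {z : K} (hz : z ≠ 0) : (relsF4 K).hg 32 z = TF4 1 z (z ^ 2) z := by
  have := hg_eq_TF4 (r := 32) (by decide) 0 1 2 1 (by decide +kernel) hz
  rwa [pow_one, pow_zero] at this

theorem hg33_eq {z : K} (hz : z ≠ 0) : (relsF4 K).hg 33 z = TF4 z 1 1 1 := by
  have := hg_eq_TF4 (r := 33) (by decide) 1 0 0 0 (by decide +kernel) hz
  rwa [pow_one, pow_zero] at this

theorem hg24_eq {z : K} (hz : z ≠ 0) : (relsF4 K).hg 24 z = TF4 1 1 1 z := by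
  have := hg_eq_TF4 (r := 24) (by decide) 0 0 0 1 (by decide +kernel) hz
  rwa [pow_one, pow_zero] at this

end

namespace Ree4
variable {K : Type*} [Field K] [Fintype K] [CharP K 2] (S : Ree4 K)

omit [Fintype K] [CharP K 2] in
theorem phi_ne_zero {y : K} (hy : y ≠ 0) : S.φ y ≠ 0 := (map_ne_zero S.φ).mpr hy

/-- the fixed points in the diagonal subgroup -/
def hR (y z : K) : GL chevF4.Idx K := TF4 (S.φ y) (S.φ z) z y

omit [Fintype K] [CharP K 2] in
theorem hR_mul {y z y' z' : K} (hy : y ≠ 0) (hz : z ≠ 0) (hy' : y' ≠ 0) (hz' : z' ≠ 0) :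
    S.hR y z * S.hR y' z' = S.hR (y * y') (z * z') := by
  unfold hR
  rw [TF4_mul (S.phi_ne_zero hy) (S.phi_ne_zero hz) hz hy (S.phi_ne_zero hy') (S.phi_ne_zero hz') hz' hy', map_mul,
    map_mul]

omit [Fintype K] [CharP K 2] in
theorem hR_inj {y z y' z' : K} (hy : y ≠ 0) (hz : z ≠ 0) (hy' : y' ≠ 0) (hz' : z' ≠ 0)
    (h : S.hR y z = S.hR y' z') : y = y' ∧ z = z' := by
  obtain ⟨_, _, h3, h4⟩ := TF4_inj (S.phi_ne_zero hy) (S.phi_ne_zero hz) hz hy (S.phi_ne_zero hy') (S.phi_ne_zero hz')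
    hz' hy' h
  exact ⟨h4, h3⟩

omit [Fintype K] [CharP K 2] in
theorem hR_mem_H {y z : K} (hy : y ≠ 0) (hz : z ≠ 0) : S.hR y z ∈ chevF4.diagonalSubgroup K :=
  TF4_mem_H (S.phi_ne_zero hy) (S.phi_ne_zero hz) hz hy

omit [Fintype K] in
theorem sg_TF4 {a b c d : K} (ha : a ≠ 0) (hb : b ≠ 0) (hc : c ≠ 0) (hd : d ≠ 0) :
    S.sg (TF4 a b c d) = TF4 (S.φ d) (S.φ c) (S.φ b ^ 2) (S.φ a ^ 2) := by
  unfold TF4
  have m1 := (relsF4 K).H_le_group ((relsF4 K).hg_mem_H (r := 33) (by decide) ha)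
  have m2 := (relsF4 K).H_le_group ((relsF4 K).hg_mem_H (r := 27) (by decide) hb)
  have m3 := (relsF4 K).H_le_group ((relsF4 K).hg_mem_H (r := 25) (by decide) hc)
  have m4 := (relsF4 K).H_le_group ((relsF4 K).hg_mem_H (r := 24) (by decide) hd)
  rw [S.sg_mul (Subgroup.mul_mem _ (Subgroup.mul_mem _ m1 m2) m3) m4, S.sg_mul (Subgroup.mul_mem _ m1 m2) m3,
    S.sg_mul m1 m2, S.sg_hg (by decide), S.sg_hg (by decide), S.sg_hg (by decide), S.sg_hg (by decide)]
  show (relsF4 K).hg 24 (S.φ a ^ 2) * (relsF4 K).hg 25 (S.φ b ^ 2) * (relsF4 K).hg 27 (S.φ c ^ 1) *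
    (relsF4 K).hg 33 (S.φ d ^ 1) = _
  rw [pow_one, pow_one]
  have ha' := pow_ne_zero 2 (S.phi_ne_zero ha)
  have hb' := pow_ne_zero 2 (S.phi_ne_zero hb)
  have hc' := S.phi_ne_zero hc
  have hd' := S.phi_ne_zero hd
  have c1 := hg_commF4 (r := 24) (s := 25) (by decide) (by decide) ha' hb'
  have c2 := hg_commF4 (r := 24) (s := 27) (by decide) (by decide) ha' hc'
  have c3 := hg_commF4 (r := 24) (s := 33) (by decide) (by decide) ha' hd'
  have c4 := hg_commF4 (r := 25) (s := 27) (by decide) (by decide) hb' hc'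
  have c5 := hg_commF4 (r := 25) (s := 33) (by decide) (by decide) hb' hd'
  have c6 := hg_commF4 (r := 27) (s := 33) (by decide) (by decide) hc' hd'
  generalize (relsF4 K).hg 24 (S.φ a ^ 2) = A at *
  generalize (relsF4 K).hg 25 (S.φ b ^ 2) = B at *
  generalize (relsF4 K).hg 27 (S.φ c) = C at *
  generalize (relsF4 K).hg 33 (S.φ d) = E at *
  calc A * B * C * E = A * B * (C * E) := by group
    _ = A * (B * E) * C := by rw [c6.eq]; group
    _ = (A * E) * (B * C) := by rw [c5.eq]; group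
    _ = E * (A * C) * B := by rw [c3.eq, c4.eq]; group
    _ = E * C * (A * B) := by rw [c2.eq]; group
    _ = _ := by rw [c1.eq]; group

omit [Fintype K] in
theorem H_fixed {h : GL chevF4.Idx K} (hh : h ∈ chevF4.diagonalSubgroup K ⊓ S.Γ) :
    ∃ y z : K, y ≠ 0 ∧ z ≠ 0 ∧ h = S.hR y z := by
  obtain ⟨a, b, c, d, ha, hb, hc, hd, rfl⟩ := H_formF4 hh.1
  have h1 := hh.2.2
  rw [S.sg_TF4 ha hb hc hd] at h1
  obtain ⟨e1, e2, _, _⟩ := TF4_inj (S.phi_ne_zero hd) (S.phi_ne_zero hc) (pow_ne_zero _ (S.phi_ne_zero hb))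
    (pow_ne_zero _ (S.phi_ne_zero ha)) ha hb hc hd h1
  exact ⟨d, c, hd, hc, by rw [hR, e1, e2]⟩

end Ree4

end Cfsg.Agent.Chev
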