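import Cfsg.Agent.Chev.TwG15
import Cfsg.Agent.S0319

/-!
# The Ree groups `²G₂`: simplicity
-/

set_option autoImplicit false
set_option linter.unusedSectionVars false
set_option linter.unusedVariables false
set_option maxRecDepth 100000

namespace Cfsg.Agent.Chev
open Cfsg.Lie
open scoped MatrixGroups

namespace Ree
variable {K : Type*} [Field K] [Fintype K] [CharP K 3] (S : Ree K)

theorem irreducible {n0 : GL chevG2.Idx K} (hn0 : n0 ∈ chevG2.monomialSubgroup K ⊓ S.G1)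
    (hm0 : (relsG2 K).IsMono n0 w0G2) : (S.bnPair hn0 hm0).Irreducible := by
  intro J hJ hne hne'
  exfalso
  obtain ⟨x, hx⟩ := hne
  obtain ⟨y, hy1, hy2⟩ := hne'
  have h1 : x = ⟨n0, hn0.2⟩ := hJ hx
  have h2 : y = ⟨n0, hn0.2⟩ := hy1
  exact hy2 (h2.trans h1.symm ▸ hx)

theorem simple (hq : Fintype.card K % 4 = 3) (hc : 3 < Fintype.card K) :
    IsSimpleGroup ↥S.G1 ∧ ¬ IsMulCommutative ↥S.G1 := by
  obtain ⟨n0, hn0, hm0⟩ := S.exists_n0
  have hperf := S.perfect hq hc
  have hsolv : Group.IsSolvable ↥(S.bnPair hn0 hm0).B := by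
    have h1 : Group.IsSolvable ↥(chevG2.borelSubgroup K ⊓ S.G1) :=
      Tri.isSolvable_of_le (ordw_lt goodG2) (inf_le_left.trans (relsG2 K).B_le_tri)
    exact Group.isSolvable_of_isSolvable_injective
      (f := (Subgroup.subgroupOfEquivOfLe (inf_le_right : chevG2.borelSubgroup K ⊓ S.G1 ≤ S.G1)).toMonoidHom)
      (Subgroup.subgroupOfEquivOfLe (inf_le_right : chevG2.borelSubgroup K ⊓ S.G1 ≤ S.G1)).injective
  have hnt : Nontrivial ↥S.G1 := by
    refine ⟨⟨S.uR 0 0 1, S.uR_mem_G1 0 0 1⟩, 1, ?_⟩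
    intro h
    exact S.uR_ne_one (congrArg Subtype.val h)
  have hs := Cfsg.Agent.S0319.result (S.bnPair hn0 hm0) (S.irreducible hn0 hm0) hsolv hperf S.core_trivial
  refine ⟨hs, ?_⟩
  intro hcomm
  have h1 : commutator ↥S.G1 = ⊥ := by
    rw [commutator_def, Subgroup.commutator_eq_bot_iff_le_centralizer]
    intro a _ b _
    exact hcomm.is_comm.comm b a
  rw [hperf] at h1
  exact top_ne_bot h1

end Ree

end Cfsg.Agent.Chev
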