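import Cfsg.Agent.Chev.TwH
import Cfsg.Agent.Chev.Tw14

/-!
# The diagonal subgroup of `³D₄(q)`
-/

set_option autoImplicit false
set_option maxRecDepth 100000

namespace Cfsg.Agent.Chev
open Cfsg.Lie
open scoped MatrixGroups

theorem twtD4 : TwT chevD4 twcD4 := ⟨by decide +kernel⟩

def cmAD4 : Matrix (Fin 4) (Fin 4) ℤ := cartanM chevD4

def cmMD4 : Matrix (Fin 4) (Fin 4) ℤ := !![2, -1, 0, 0; -1, 2, -1, -1; 0, -1, 2, 0; 0, -1, 0, 2]

theorem cmMD4_eq : cmAD4 = cmMD4 := by decide +kernel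

def cmND4 : Matrix (Fin 4) (Fin 4) ℤ := !![2, 2, 1, 1; 2, 4, 2, 2; 1, 2, 2, 1; 1, 2, 1, 2]

theorem cmND4_eq : cmAD4 * cmND4 = ((2 : ℕ) : ℤ) • 1 := by decide +kernel

section
variable {K : Type*} [Field K] [Fintype K] {q : ℕ} (hq : IsPrimePow q) (hK : Fintype.card K = q ^ 3)

/-- wrappers with the rank made explicit -/
noncomputable def shD4 : (Fin 4 → Kˣ) →* (Fin 4 → Kˣ) := (twsD4 hq hK).sh
noncomputable def tfD4 : Subgroup (Fin 4 → Kˣ) := (twsD4 hq hK).Tfix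
noncomputable def tauD4 (K : Type*) [Field K] : (Fin 4 → Kˣ) →* GL chevD4.Idx K := tau chevD4 K

theorem shD4_eq (c : Fin 4 → Kˣ) : shD4 hq hK c =
    ![(twsD4 hq hK).Phi (c 3), (twsD4 hq hK).Phi (c 1), (twsD4 hq hK).Phi (c 0), (twsD4 hq hK).Phi (c 2)] := by
  funext j
  fin_cases j <;> rfl

theorem PhiD4_cube (u : Kˣ) : (twsD4 hq hK).Phi ((twsD4 hq hK).Phi ((twsD4 hq hK).Phi u)) = u := by
  ext
  exact (twsD4 hq hK).phi_pow (u : K)

theorem mem_tfD4 (c : Fin 4 → Kˣ) : c ∈ tfD4 hq hK ↔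
    ((twsD4 hq hK).Phi (c 3) = c 0 ∧ (twsD4 hq hK).Phi (c 1) = c 1 ∧ (twsD4 hq hK).Phi (c 0) = c 2 ∧
      (twsD4 hq hK).Phi (c 2) = c 3) := by
  show shD4 hq hK c = c ↔ _
  rw [shD4_eq]
  constructor
  · intro h
    exact ⟨congrFun h 0, congrFun h 1, congrFun h 2, congrFun h 3⟩
  · rintro ⟨h0, h1, h2, h3⟩
    funext j
    fin_cases j
    · exact h0
    · exact h1
    · exact h2
    · exact h3

include hq hK in
theorem tauD4_single (i : Fin 4) (a : Kˣ) : tauD4 K (Pi.mulSingle i a) = (relsD4 K).hg (chevD4.simple i) (a : K) :=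
  (twsD4 hq hK).tau_single i a

theorem tauD4_mem_G1 (c : Fin 4 → Kˣ) (hc : c ∈ tfD4 hq hK) : tauD4 K c ∈ (twsD4 hq hK).G1 := by
  obtain ⟨h0, h1, h2, h3⟩ := (mem_tfD4 hq hK c).mp hc
  have e : c = Pi.mulSingle 0 (c 0) * Pi.mulSingle 2 (c 2) * Pi.mulSingle 3 (c 3) * Pi.mulSingle 1 (c 1) := by
    funext j
    fin_cases j <;> simp
  rw [e, map_mul, map_mul, map_mul, tauD4_single hq hK, tauD4_single hq hK, tauD4_single hq hK, tauD4_single hq hK]
  apply Subgroup.mul_mem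
  · have := (twsD4 hq hK).hJ_mem_G1 (i := 0) (by decide) (by decide) (a := (c 0 : K)) ((twsD4 hq hK).phi_pow _)
    have e2 : (twsD4 hq hK).hJ (chevD4.simple 0) (c 0 : K) =
        (relsD4 K).hg (chevD4.simple (0 : Fin 4)) (c 0 : K) * (relsD4 K).hg (chevD4.simple (2 : Fin 4)) (c 2 : K) *
          (relsD4 K).hg (chevD4.simple (3 : Fin 4)) (c 3 : K) := by
      rw [← h3, ← h2]
      unfold TwS.hJ
      rw [show twcD4.e (chevD4.simple 0) = 3 by decide]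
      simp [List.range_succ, mul_assoc]
      rfl
    rwa [e2] at this
  · have := (twsD4 hq hK).hJ_mem_G1 (i := 1) (by decide) (by decide) (a := (c 1 : K))
      (congrArg Units.val h1)
    have e2 : (twsD4 hq hK).hJ (chevD4.simple 1) (c 1 : K) = (relsD4 K).hg (chevD4.simple (1 : Fin 4)) (c 1 : K) := by
      unfold TwS.hJ
      rw [show twcD4.e (chevD4.simple 1) = 1 by decide]
      simp [List.range_succ]
    rwa [e2] at this

theorem hZD4 (a : Fin 4 → Kˣ) (h : shD4 hq hK a * a⁻¹ ∈ (tauD4 K).ker) :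
    ∃ z' ∈ (tauD4 K).ker, shD4 hq hK (a * z') = a * z' := by
  have hz : (shD4 hq hK a * a⁻¹) ^ 2 = 1 := (twsD4 hq hK).ker_exponent (N := cmND4) (k := 2) cmND4_eq h
  refine ⟨shD4 hq hK (shD4 hq hK a * a⁻¹), ?_, ?_⟩
  · rw [MonoidHom.mem_ker] at h ⊢
    have := (twsD4 hq hK).sig_tau twtD4 (shD4 hq hK a * a⁻¹)
    have h' : tau chevD4 K (shD4 hq hK a * a⁻¹) = 1 := h
    rw [h', map_one] at this
    exact this.symm
  · exact fix_of_three (shD4 hq hK) (fun x => (twsD4 hq hK).sh_iter x) a hz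

theorem Phi_of_sq (u : Kˣ) (hu : u ^ 2 = 1) : (twsD4 hq hK).Phi u = u := by
  have h1 : (u : K) * u = 1 := by
    have := congrArg Units.val hu
    rwa [Units.val_pow_eq_pow_val, Units.val_one, sq] at this
  ext
  show (twsD4 hq hK).φ (u : K) = u
  rcases mul_self_eq_one_iff.mp h1 with h | h
  · rw [h, map_one]
  · rw [h, map_neg, map_one]

theorem kerD4 (c : Fin 4 → Kˣ) (hc : c ∈ tfD4 hq hK) (h : tauD4 K c = 1) : c = 1 := by
  obtain ⟨h0, h1, h2, h3⟩ := (mem_tfD4 hq hK c).mp hc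
  have hk : c ∈ (tauD4 K).ker := h
  have hsq : c ^ 2 = 1 := (twsD4 hq hK).ker_exponent (N := cmND4) (k := 2) cmND4_eq hk
  have hsq' : ∀ j, c j ^ 2 = 1 := fun j => congrFun hsq j
  have hz : zphi cmMD4 c = 1 := by
    rw [← cmMD4_eq]
    have : c ∈ (zphi (cartanM chevD4) : (Fin chevD4.rank → Kˣ) →* _).ker := by
      rw [← (twsD4 hq hK).tau_ker]; exact hk
    exact this
  have e0 := congrFun hz 0
  have e1 := congrFun hz 1
  simp [zphi_apply, Fin.prod_univ_four, cmMD4] at e0 e1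
  have c1 : c 1 = 1 := by
    rw [hsq' 0, one_mul, inv_eq_one] at e0; exact e0
  have c2 : c 2 = c 0 := by rw [← h2, Phi_of_sq hq hK _ (hsq' 0)]
  have c3 : c 3 = c 0 := by rw [← h3, c2, Phi_of_sq hq hK _ (hsq' 0)]
  rw [c1, c2, c3, one_pow, mul_one] at e1
  have c0 : c 0 = 1 := by
    have h5 : (c 0)⁻¹ * (c 0)⁻¹ = 1 := by rw [← mul_inv, ← sq, hsq' 0, inv_one]
    rw [h5, one_mul, inv_eq_one] at e1; exact e1
  funext j
  fin_cases j
  · exact c0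
  · exact c1
  · exact c2.trans c0
  · exact c3.trans c0

/-- the parametrization of the fixed points of the torus -/
noncomputable def eqvD4 : ↥(tfD4 hq hK) ≃ Kˣ × {u : Kˣ // (twsD4 hq hK).Phi u = u} where
  toFun c := (c.1 0, ⟨c.1 1, ((mem_tfD4 hq hK c.1).mp c.2).2.1⟩)
  invFun x := ⟨![x.1, x.2.1, (twsD4 hq hK).Phi x.1, (twsD4 hq hK).Phi ((twsD4 hq hK).Phi x.1)],
    (mem_tfD4 hq hK _).mpr ⟨PhiD4_cube hq hK _, x.2.2, rfl, rfl⟩⟩
  left_inv c := by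
    obtain ⟨h0, h1, h2, h3⟩ := (mem_tfD4 hq hK c.1).mp c.2
    apply Subtype.ext
    funext j
    fin_cases j
    · rfl
    · rfl
    · exact h2
    · show (twsD4 hq hK).Phi ((twsD4 hq hK).Phi (c.1 0)) = c.1 3
      rw [h2, h3]
  right_inv x := rfl

theorem card_tfD4 : Nat.card ↥(tfD4 hq hK) = (q ^ 3 - 1) * (q - 1) := by
  rw [Nat.card_congr (eqvD4 hq hK), Nat.card_prod, (twsD4 hq hK).card_Phi_fix, (twsD4 hq hK).card_units]
  rfl

theorem card_H1D4 : Nat.card ↥(chevD4.diagonalSubgroup K ⊓ (twsD4 hq hK).G1) = (q - 1) ^ 2 * (q ^ 2 + q + 1) := by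
  have h := (twsD4 hq hK).card_H1 good2D4 twtD4 (hZD4 hq hK) (tauD4_mem_G1 hq hK)
  have hker : ((tau chevD4 K).comp (twsD4 hq hK).Tfix.subtype).ker = ⊥ := by
    rw [eq_bot_iff]
    intro c hc
    rw [Subgroup.mem_bot]
    exact Subtype.ext (kerD4 hq hK c.1 c.2 hc)
  rw [hker, Subgroup.card_bot, one_mul] at h
  rw [h]
  have h2 : Nat.card ↥(twsD4 hq hK).Tfix = (q ^ 3 - 1) * (q - 1) := card_tfD4 hq hK
  rw [h2]
  obtain ⟨m, rfl⟩ : ∃ m, q = m + 1 := ⟨q - 1, (Nat.sub_add_cancel hq.pos).symm⟩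
  have e : (m + 1) ^ 3 - 1 = m * ((m + 1) ^ 2 + (m + 1) + 1) := by
    apply Nat.sub_eq_of_eq_add
    ring
  rw [e, Nat.add_sub_cancel]
  ring

end

end Cfsg.Agent.Chev
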