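import Cfsg.Agent.Chev.TwH
import Cfsg.Agent.Chev.Tw14

/-!
# The diagonal subgroup of `²E₆(q)`
-/

set_option autoImplicit false
set_option maxRecDepth 100000

namespace Cfsg.Agent.Chev
open Cfsg.Lie
open scoped MatrixGroups

theorem twtE6 : TwT chevE6 twcE6 := ⟨by decide +kernel⟩

def cmAE6 : Matrix (Fin 6) (Fin 6) ℤ := cartanM chevE6

def cmME6 : Matrix (Fin 6) (Fin 6) ℤ :=
  !![2, 0, -1, 0, 0, 0; 0, 2, 0, -1, 0, 0; -1, 0, 2, -1, 0, 0; 0, -1, -1, 2, -1, 0; 0, 0, 0, -1, 2, -1;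
     0, 0, 0, 0, -1, 2]

theorem cmME6_eq : cmAE6 = cmME6 := by decide +kernel

def cmNE6 : Matrix (Fin 6) (Fin 6) ℤ :=
  !![4, 3, 5, 6, 4, 2; 3, 6, 6, 9, 6, 3; 5, 6, 10, 12, 8, 4; 6, 9, 12, 18, 12, 6; 4, 6, 8, 12, 10, 5;
     2, 3, 4, 6, 5, 4]

theorem cmNE6_eq : cmAE6 * cmNE6 = ((3 : ℕ) : ℤ) • 1 := by decide +kernel

section
variable {K : Type*} [Field K] [Fintype K] {q : ℕ} (hq : IsPrimePow q) (hK : Fintype.card K = q ^ 2)

/-- wrappers with the rank made explicit -/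
noncomputable def shE6 : (Fin 6 → Kˣ) →* (Fin 6 → Kˣ) := (twsE6 hq hK).sh
noncomputable def tfE6 : Subgroup (Fin 6 → Kˣ) := (twsE6 hq hK).Tfix
noncomputable def tauE6 (K : Type*) [Field K] : (Fin 6 → Kˣ) →* GL chevE6.Idx K := tau chevE6 K

theorem shE6_eq (c : Fin 6 → Kˣ) : shE6 hq hK c =
    ![(twsE6 hq hK).Phi (c 5), (twsE6 hq hK).Phi (c 1), (twsE6 hq hK).Phi (c 4), (twsE6 hq hK).Phi (c 3),
      (twsE6 hq hK).Phi (c 2), (twsE6 hq hK).Phi (c 0)] := by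
  funext j
  fin_cases j <;> rfl

theorem PhiE6_sq (u : Kˣ) : (twsE6 hq hK).Phi ((twsE6 hq hK).Phi u) = u := by
  ext
  exact (twsE6 hq hK).phi_pow (u : K)

theorem mem_tfE6 (c : Fin 6 → Kˣ) : c ∈ tfE6 hq hK ↔
    ((twsE6 hq hK).Phi (c 5) = c 0 ∧ (twsE6 hq hK).Phi (c 1) = c 1 ∧ (twsE6 hq hK).Phi (c 4) = c 2 ∧
      (twsE6 hq hK).Phi (c 3) = c 3 ∧ (twsE6 hq hK).Phi (c 2) = c 4 ∧ (twsE6 hq hK).Phi (c 0) = c 5) := by
  show shE6 hq hK c = c ↔ _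
  rw [shE6_eq]
  constructor
  · intro h
    exact ⟨congrFun h 0, congrFun h 1, congrFun h 2, congrFun h 3, congrFun h 4, congrFun h 5⟩
  · rintro ⟨h0, h1, h2, h3, h4, h5⟩
    funext j
    fin_cases j
    · exact h0
    · exact h1
    · exact h2
    · exact h3
    · exact h4
    · exact h5

include hq hK in
theorem tauE6_single (i : Fin 6) (a : Kˣ) : tauE6 K (Pi.mulSingle i a) = (relsE6 K).hg (chevE6.simple i) (a : K) :=
  (twsE6 hq hK).tau_single i a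

theorem tauE6_mem_G1 (c : Fin 6 → Kˣ) (hc : c ∈ tfE6 hq hK) : tauE6 K c ∈ (twsE6 hq hK).G1 := by
  obtain ⟨h0, h1, h2, h3, h4, h5⟩ := (mem_tfE6 hq hK c).mp hc
  have e : c = (Pi.mulSingle 0 (c 0) * Pi.mulSingle 5 (c 5)) * (Pi.mulSingle 2 (c 2) * Pi.mulSingle 4 (c 4)) *
      Pi.mulSingle 1 (c 1) * Pi.mulSingle 3 (c 3) := by
    funext j
    fin_cases j <;> simp
  rw [e, map_mul, map_mul, map_mul, map_mul, map_mul, tauE6_single hq hK, tauE6_single hq hK, tauE6_single hq hK,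
    tauE6_single hq hK, tauE6_single hq hK, tauE6_single hq hK]
  refine Subgroup.mul_mem _ (Subgroup.mul_mem _ (Subgroup.mul_mem _ ?_ ?_) ?_) ?_
  · have := (twsE6 hq hK).hJ_mem_G1 (i := 0) (by decide) (by decide) (a := (c 0 : K)) ((twsE6 hq hK).phi_pow _)
    have e2 : (twsE6 hq hK).hJ (chevE6.simple 0) (c 0 : K) =
        (relsE6 K).hg (chevE6.simple (0 : Fin 6)) (c 0 : K) * (relsE6 K).hg (chevE6.simple (5 : Fin 6)) (c 5 : K) := by
      rw [← h5]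
      unfold TwS.hJ
      rw [show twcE6.e (chevE6.simple 0) = 2 by decide]
      simp [List.range_succ]
      rfl
    rwa [e2] at this
  · have := (twsE6 hq hK).hJ_mem_G1 (i := 2) (by decide) (by decide) (a := (c 2 : K)) ((twsE6 hq hK).phi_pow _)
    have e2 : (twsE6 hq hK).hJ (chevE6.simple 2) (c 2 : K) =
        (relsE6 K).hg (chevE6.simple (2 : Fin 6)) (c 2 : K) * (relsE6 K).hg (chevE6.simple (4 : Fin 6)) (c 4 : K) := by
      rw [← h4]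
      unfold TwS.hJ
      rw [show twcE6.e (chevE6.simple 2) = 2 by decide]
      simp [List.range_succ]
      rfl
    rwa [e2] at this
  · have := (twsE6 hq hK).hJ_mem_G1 (i := 1) (by decide) (by decide) (a := (c 1 : K))
      (congrArg Units.val h1)
    have e2 : (twsE6 hq hK).hJ (chevE6.simple 1) (c 1 : K) = (relsE6 K).hg (chevE6.simple (1 : Fin 6)) (c 1 : K) := by
      unfold TwS.hJ
      rw [show twcE6.e (chevE6.simple 1) = 1 by decide]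
      simp [List.range_succ]
    rwa [e2] at this
  · have := (twsE6 hq hK).hJ_mem_G1 (i := 3) (by decide) (by decide) (a := (c 3 : K))
      (congrArg Units.val h3)
    have e2 : (twsE6 hq hK).hJ (chevE6.simple 3) (c 3 : K) = (relsE6 K).hg (chevE6.simple (3 : Fin 6)) (c 3 : K) := by
      unfold TwS.hJ
      rw [show twcE6.e (chevE6.simple 3) = 1 by decide]
      simp [List.range_succ]
    rwa [e2] at this

theorem hZE6 (a : Fin 6 → Kˣ) (h : shE6 hq hK a * a⁻¹ ∈ (tauE6 K).ker) :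
    ∃ z' ∈ (tauE6 K).ker, shE6 hq hK (a * z') = a * z' := by
  have hz : (shE6 hq hK a * a⁻¹) ^ 3 = 1 := (twsE6 hq hK).ker_exponent (N := cmNE6) (k := 3) cmNE6_eq h
  refine ⟨(shE6 hq hK a * a⁻¹)⁻¹, inv_mem h, ?_⟩
  exact fix_of_two (shE6 hq hK) (fun x => (twsE6 hq hK).sh_iter x) a hz

include hq hK in
theorem kerE6_iff (c : Fin 6 → Kˣ) : tauE6 K c = 1 ↔
    (c 0 ^ 3 = 1 ∧ c 1 = 1 ∧ c 2 = c 0 ^ 2 ∧ c 3 = 1 ∧ c 4 = c 0 ∧ c 5 = c 0 ^ 2) := by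
  have hiff : tauE6 K c = 1 ↔ zphi cmME6 c = 1 := by
    rw [← cmME6_eq]
    have : c ∈ (tauE6 K).ker ↔ c ∈ (zphi (cartanM chevE6) : (Fin chevE6.rank → Kˣ) →* _).ker := by
      rw [← (twsE6 hq hK).tau_ker]; rfl
    exact this
  constructor
  · intro h
    have hk : c ∈ (tauE6 K).ker := h
    have hcu : c ^ 3 = 1 := (twsE6 hq hK).ker_exponent (N := cmNE6) (k := 3) cmNE6_eq hk
    have hcu' : ∀ j, c j ^ 3 = 1 := fun j => congrFun hcu j
    have hz := hiff.mp h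
    have e0 := congrFun hz 0
    have e1 := congrFun hz 1
    have e2 := congrFun hz 2
    have e3 := congrFun hz 3
    have e4 := congrFun hz 4
    have e5 := congrFun hz 5
    simp [zphi_apply, Fin.prod_univ_six, cmME6] at e0 e1 e2 e3 e4 e5
    have c2 : c 2 = c 0 ^ 2 := (mul_inv_eq_one.mp e0).symm
    have c3' : c 3 = c 1 ^ 2 := (mul_inv_eq_one.mp e1).symm
    have c3 : c 3 = 1 := by
      rw [← mul_inv_eq_one.mp e2, c2]
      have : (c 0)⁻¹ * (c 0 ^ 2) ^ 2 = c 0 ^ 3 := by group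
      rw [this, hcu' 0]
    have c1 : c 1 = 1 := by
      have : c 1 = c 1 ^ 3 * (c 1 ^ 2)⁻¹ := by group
      rw [this, hcu' 1, ← c3', c3, inv_one, one_mul]
    have c4 : c 4 = c 0 := by
      rw [← mul_inv_eq_one.mp e3, c1, c2, c3]
      have : (1 : Kˣ)⁻¹ * (c 0 ^ 2)⁻¹ * 1 ^ 2 = c 0 * (c 0 ^ 3)⁻¹ := by group
      rw [this, hcu' 0, inv_one, mul_one]
    have c5 : c 5 = c 0 ^ 2 := by
      rw [← mul_inv_eq_one.mp e4, c3, c4, inv_one, one_mul]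
    exact ⟨hcu' 0, c1, c2, c3, c4, c5⟩
  · rintro ⟨h0, h1, h2, h3, h4, h5⟩
    rw [hiff]
    funext j
    fin_cases j <;> simp [zphi_apply, Fin.prod_univ_six, cmME6, h1, h2, h3, h4, h5]
    · have : (c 0)⁻¹ * (c 0 ^ 2) ^ 2 = c 0 ^ 3 := by group
      rw [this, h0]
    · have : (c 0 ^ 2)⁻¹ * (c 0)⁻¹ = (c 0 ^ 3)⁻¹ := by group
      rw [this, h0, inv_one]
    · have : (c 0)⁻¹ * (c 0 ^ 2) ^ 2 = c 0 ^ 3 := by group
      rw [this, h0]

/-- the parametrization of the fixed points of the torus -/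
noncomputable def eqvE6 : ↥(tfE6 hq hK) ≃
    (Kˣ × Kˣ) × ({u : Kˣ // (twsE6 hq hK).Phi u = u} × {u : Kˣ // (twsE6 hq hK).Phi u = u}) where
  toFun c := ((c.1 0, c.1 2), (⟨c.1 1, ((mem_tfE6 hq hK c.1).mp c.2).2.1⟩, ⟨c.1 3, ((mem_tfE6 hq hK c.1).mp c.2).2.2.2.1⟩))
  invFun x := ⟨![x.1.1, x.2.1.1, x.1.2, x.2.2.1, (twsE6 hq hK).Phi x.1.2, (twsE6 hq hK).Phi x.1.1],
    (mem_tfE6 hq hK _).mpr ⟨PhiE6_sq hq hK _, x.2.1.2, PhiE6_sq hq hK _, x.2.2.2, rfl, rfl⟩⟩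
  left_inv c := by
    obtain ⟨h0, h1, h2, h3, h4, h5⟩ := (mem_tfE6 hq hK c.1).mp c.2
    apply Subtype.ext
    funext j
    fin_cases j
    · rfl
    · rfl
    · rfl
    · rfl
    · exact h4
    · exact h5
  right_inv x := rfl

theorem card_tfE6 : Nat.card ↥(tfE6 hq hK) = ((q ^ 2 - 1) * (q ^ 2 - 1)) * ((q - 1) * (q - 1)) := by
  rw [Nat.card_congr (eqvE6 hq hK), Nat.card_prod, Nat.card_prod, Nat.card_prod, (twsE6 hq hK).card_Phi_fix,
    (twsE6 hq hK).card_units]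
  rfl

theorem PhiE6_eq (u : Kˣ) : (twsE6 hq hK).Phi u = u ^ q := (twsE6 hq hK).Phi_eq u

/-- the kernel of the parametrization on the fixed points -/
noncomputable def eqvKerE6 : ↥((tauE6 K).comp (tfE6 hq hK).subtype).ker ≃ {u : Kˣ // u ^ (Nat.gcd 3 (q + 1)) = 1} where
  toFun c := ⟨c.1.1 0, by
    obtain ⟨h0, h1, h2, h3, h4, h5⟩ := (mem_tfE6 hq hK c.1.1).mp c.1.2
    obtain ⟨k0, k1, k2, k3, k4, k5⟩ := (kerE6_iff hq hK c.1.1).mp c.2
    refine pow_gcd_eq_one.mpr ⟨k0, ?_⟩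
    rw [pow_succ, ← PhiE6_eq hq hK, h5, k5, ← pow_succ]
    exact k0⟩
  invFun u := ⟨⟨![u.1, 1, u.1 ^ 2, 1, u.1, u.1 ^ 2], by
      have u3 : u.1 ^ 3 = 1 := (pow_gcd_eq_one.mp u.2).1
      have uq : u.1 ^ (q + 1) = 1 := (pow_gcd_eq_one.mp u.2).2
      have hP : (twsE6 hq hK).Phi u.1 = u.1 ^ 2 := by
        rw [PhiE6_eq]
        have e1 : u.1 ^ q = u.1 ^ (q + 1) * u.1⁻¹ := by rw [pow_succ, mul_inv_cancel_right]
        have e2 : u.1 ^ 2 = u.1 ^ 3 * u.1⁻¹ := by group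
        rw [e1, e2, uq, u3]
      have hP2 : (twsE6 hq hK).Phi (u.1 ^ 2) = u.1 := by rw [← hP, PhiE6_sq]
      exact (mem_tfE6 hq hK _).mpr ⟨hP2, map_one _, hP, map_one _, hP2, hP⟩⟩, by
      have u3 : u.1 ^ 3 = 1 := (pow_gcd_eq_one.mp u.2).1
      exact (kerE6_iff hq hK _).mpr ⟨u3, rfl, rfl, rfl, rfl, rfl⟩⟩
  left_inv c := by
    obtain ⟨k0, k1, k2, k3, k4, k5⟩ := (kerE6_iff hq hK c.1.1).mp c.2
    apply Subtype.ext
    apply Subtype.ext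
    funext j
    fin_cases j
    · rfl
    · exact k1.symm
    · exact k2.symm
    · exact k3.symm
    · exact k4.symm
    · exact k5.symm
  right_inv u := rfl

theorem card_H1E6 : Nat.gcd 3 (q + 1) * Nat.card ↥(chevE6.diagonalSubgroup K ⊓ (twsE6 hq hK).G1) =
    (q - 1) ^ 4 * (q + 1) ^ 2 := by
  have h := (twsE6 hq hK).card_H1 good2E6 twtE6 (hZE6 hq hK) (tauE6_mem_G1 hq hK)
  have hker : Nat.card ((tau chevE6 K).comp (twsE6 hq hK).Tfix.subtype).ker = Nat.gcd 3 (q + 1) := by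
    have h1 := Nat.card_congr (eqvKerE6 hq hK)
    rw [card_units_pow_eq_one, hK] at h1
    refine h1.trans (Nat.gcd_eq_right ?_)
    refine (Nat.gcd_dvd_right 3 (q + 1)).trans ?_
    obtain ⟨m, rfl⟩ : ∃ m, q = m + 1 := ⟨q - 1, (Nat.sub_add_cancel hq.pos).symm⟩
    refine ⟨m, ?_⟩
    apply Nat.sub_eq_of_eq_add
    ring
  rw [hker] at h
  rw [h]
  have h2 : Nat.card ↥(twsE6 hq hK).Tfix = ((q ^ 2 - 1) * (q ^ 2 - 1)) * ((q - 1) * (q - 1)) := card_tfE6 hq hK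
  rw [h2]
  obtain ⟨m, rfl⟩ : ∃ m, q = m + 1 := ⟨q - 1, (Nat.sub_add_cancel hq.pos).symm⟩
  have e : (m + 1) ^ 2 - 1 = m * (m + 1 + 1) := by
    apply Nat.sub_eq_of_eq_add
    ring
  rw [e, Nat.add_sub_cancel]
  ring

end

end Cfsg.Agent.Chev
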