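import Cfsg.Agent.Chev.Tw9
import Cfsg.Agent.Chev.Card

/-!
# Twisted groups: the order in terms of the Weyl group
-/

set_option autoImplicit false
set_option linter.unusedSectionVars false
set_option linter.unusedVariables false

namespace Cfsg.Agent.Chev
open Cfsg.Lie
open scoped MatrixGroups

variable {D : ChevalleyDatum} {G : Good D} {K : Type*} [Field K]

namespace TwS
variable {C : TwC} {O : TwOK D C} {R : Rels D G K} (S : TwS C O R)

/-- the Weyl group of the twisted group -/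
def W1 (_S : TwS C O R) : Subgroup (Equiv.Perm (Fin D.nroots)) where
  carrier := {w | w ∈ G.W ∧ Commute O.rhoP w}
  one_mem' := ⟨Subgroup.one_mem _, Commute.one_right _⟩
  mul_mem' := fun ha hb => ⟨Subgroup.mul_mem _ ha.1 hb.1, ha.2.mul_right hb.2⟩
  inv_mem' := fun ha => ⟨Subgroup.inv_mem _ ha.1, ha.2.inv_right⟩

include S

theorem wJ_mem_W1 {i : ℕ} (hi : i < D.rank) (hh : D.simple i ∈ C.heads) : S.wl (C.Js D i) ∈ S.W1 :=
  ⟨S.wl_mem _, S.mono_comm (S.G1_le_Γ (S.nJ_mem_G1 hi hh)) (S.nJ_mono hi)⟩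

theorem wJ_mul_self {i : ℕ} (hi : i < D.rank) : S.wl (C.Js D i) * S.wl (C.Js D i) = 1 := by
  ext s
  rw [Equiv.Perm.mul_apply, S.wJ_apply hi, S.wJ_apply hi, O.wJ_sq i hi s s.2]
  rfl

theorem W1_ind (G2 : Good2 D) {p : Equiv.Perm (Fin D.nroots) → Prop} (one : p 1)
    (mul : ∀ i (hi : i < D.rank), D.simple i ∈ C.heads → ∀ w ∈ S.W1, p w → p (w * S.wl (C.Js D i))) :
    ∀ w ∈ S.W1, p w := by
  have key : ∀ k, ∀ w ∈ S.W1, G.nn w = k → p w := by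
    intro k
    induction k using Nat.strong_induction_on with
    | _ k ih =>
      intro w hw hk
      by_cases h0 : G.nn w = 0
      · rw [R.W_eq_one G2 hw.1 h0]; exact one
      · obtain ⟨j, hj, hneg⟩ := G.exists_simple_neg hw.1 h0
        obtain ⟨i, hi, hh, hjJ⟩ := O.cover j hj
        have h1 := S.nn_mul_wl hi (C.Js D i) (O.Js_nodup G hi) (fun a ha => ha) w hw.1
          (fun a ha => S.neg_spread hw.2 hi hjJ ha hneg)
        have hlen : 0 < (C.Js D i).length := List.length_pos_iff.mpr (O.Js_ne_nil i)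
        have h2 := Subgroup.mul_mem _ hw (S.wJ_mem_W1 hi hh)
        have h3 := mul i hi hh _ h2 (ih _ (by omega) _ h2 rfl)
        rwa [mul_assoc, S.wJ_mul_self hi, mul_one] at h3
  exact fun w hw => key _ w hw rfl

theorem exists_N1_of_W1 (G2 : Good2 D) {w : Equiv.Perm (Fin D.nroots)} (hw : w ∈ S.W1) :
    ∃ n ∈ D.monomialSubgroup K ⊓ S.G1, R.IsMono n w := by
  refine S.W1_ind G2 (p := fun w => ∃ n ∈ D.monomialSubgroup K ⊓ S.G1, R.IsMono n w)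
    ⟨1, Subgroup.one_mem _, Rels.IsMono.of_tor R (Rels.IsTor.one R)⟩ ?_ w hw
  rintro i hi hh w _ ⟨n, hn, hm⟩
  exact ⟨n * S.nJ i, Subgroup.mul_mem _ hn ⟨S.nw_mem_N _ (O.Js_lt hi), S.nJ_mem_G1 hi hh⟩,
    Rels.IsMono.mul R hm (S.nJ_mono hi)⟩

theorem Um_le_U (w : Equiv.Perm (Fin D.nroots)) : UU D K (negP D w) ≤ D.posUnipotent K := by
  rw [← UU_pos]
  exact UU_mono (fun s hs => (G.isPosRoot_iff s).mpr ⟨hs.2.1, hs.1⟩)

theorem card_Um1 (G2 : Good2 D) [Fintype K] {w : Equiv.Perm (Fin D.nroots)} (hw : w ∈ S.W1) :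
    Nat.card ↥(UU D K (negP D w) ⊓ S.G1) = S.q ^ G.nn w := by
  obtain ⟨lam', h⟩ := G.W_lin hw.1 (wgt D.rank)
  have h1 : UU D K (negP D w) = UU D K (geN D (G.lin lam') (D.nroots / 2)) := by
    apply le_antisymm
    · apply UU_mono
      rintro s ⟨h1, h2, h3⟩
      refine ⟨h2, h1, ?_⟩
      rw [← h ⟨s, h1⟩]
      exact (G.ht_neg_iff (w _).2).mpr h3
    · apply UU_mono
      rintro s ⟨h1, h2, h3⟩
      refine ⟨h2, h1, ?_⟩
      rw [← h ⟨s, h2⟩] at h3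
      exact (G.ht_neg_iff (w _).2).mp h3
  have h2 : UU D K (negP D w) ⊓ S.G1 = UU D K (negP D w) ⊓ S.Γ := by
    apply le_antisymm (inf_le_inf_left _ S.G1_le_Γ)
    exact le_inf inf_le_left (le_trans (inf_le_inf_right _ (S.Um_le_U w)) (S.U_fixed_le G2))
  rw [h2, h1, S.card_fixed G2 (G.lin_addFn lam')]
  · congr 1
    unfold Good.nn
    congr 1
    funext r
    exact (h r).symm
  · intro r hr
    have hr' := (O.mem_L G r).mp hr
    have e1 : G.ht (w ⟨r, hr'.2⟩) = G.lin lam' r := h ⟨r, hr'.2⟩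
    have e2 : G.ht (w ⟨C.ρ r, O.rho_lt r hr'.2⟩) = G.lin lam' (C.ρ r) := h ⟨C.ρ r, O.rho_lt r hr'.2⟩
    rw [← e1, ← e2, G.ht_neg_iff (w _).2, G.ht_neg_iff (w _).2]
    have h4 := S.comm_apply hw.2 1 ⟨r, hr'.2⟩
    rw [pow_one] at h4
    have h5 : (⟨C.ρ r, O.rho_lt r hr'.2⟩ : Fin D.nroots) = O.rhoP ⟨r, hr'.2⟩ := rfl
    rw [h5, h4, O.rhoP_apply]
    constructor
    · intro h6
      by_contra h7
      have := O.rho_pos _ (w ⟨r, hr'.2⟩).2 (by omega)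
      omega
    · exact fun h6 => O.rho_negative G h6

theorem card_G1 (G2 : Good2 D) [Fintype K] :
    Nat.card ↥S.G1 = Nat.card ↥(D.borelSubgroup K ⊓ S.G1) * G.psum S.W1 S.q := by
  classical
  have hps : G.psum S.W1 S.q = ∑ σ : ↥S.W1, S.q ^ G.nn σ.1 := by
    unfold Good.psum
    exact Finset.sum_subtype _ (fun x => by simp) _
  rw [hps]
  choose rep hrepN hrep using fun σ : ↥S.W1 => S.exists_N1_of_W1 G2 σ.2
  let ψ : (Σ σ : ↥S.W1, ↥(D.borelSubgroup K ⊓ S.G1) × ↥(UU D K (negP D σ.1) ⊓ S.G1)) → ↥S.G1 := fun x =>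
    ⟨x.2.1.1 * rep x.1 * x.2.2.1, Subgroup.mul_mem _ (Subgroup.mul_mem _ x.2.1.2.2 (hrepN x.1).2) x.2.2.2.2⟩
  have hψ : Function.Bijective ψ := by
    constructor
    · rintro ⟨σ, b, u⟩ ⟨σ', b', u'⟩ h
      have e : b.1 * rep σ * u.1 = b'.1 * rep σ' * u'.1 := congrArg Subtype.val h
      have h1 := R.bruhat_unique_GL G2 (hrepN σ).1 (hrepN σ').1 b.2.1 (R.Um_le_B _ u.2.1) b'.2.1
        (R.Um_le_B _ u'.2.1) e
      have h2 := Rels.IsMono.unique R (Rels.IsMono.of_tor R (R.H_le_Tor h1))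
        (Rels.IsMono.mul R (Rels.IsMono.inv R (hrep σ)) (hrep σ'))
      have h3 : σ = σ' := by
        apply Subtype.ext
        exact inv_mul_eq_one.mp h2.symm
      subst h3
      obtain ⟨e1, e2⟩ := R.normal_form_unique b.2.1 b'.2.1 (hrep σ) u.2.1 u'.2.1 e
      have e1' : b = b' := Subtype.ext e1
      have e2' : u = u' := Subtype.ext e2
      rw [e1', e2']
    · rintro ⟨g, hg⟩
      obtain ⟨n, hn, h⟩ := Cfsg.Agent.Lib.Helper3.BN.bruhat (P := S.bnPair1 G2) ⟨g, hg⟩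
      obtain ⟨b1, hb1, b2, hb2, e0⟩ := Cfsg.Agent.Lib.Helper3.BN.mem_C.mp h
      have hn' : (n : GL D.Idx K) ∈ D.monomialSubgroup K ⊓ S.G1 := Subgroup.mem_subgroupOf.mp hn
      have hb1' : (b1 : GL D.Idx K) ∈ D.borelSubgroup K ⊓ S.G1 := Subgroup.mem_subgroupOf.mp hb1
      have hb2' : (b2 : GL D.Idx K) ∈ D.borelSubgroup K ⊓ S.G1 := Subgroup.mem_subgroupOf.mp hb2
      obtain ⟨σ, hσ, hm⟩ := R.N_mono G2 hn'.1
      have hc := S.mono_comm (S.G1_le_Γ hn'.2) hm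
      obtain ⟨b, hb, u, hu, e⟩ := S.dc_inter G2 hg hn'.1 hn'.2 hb1'.1 hb2'.1 (congrArg Subtype.val e0) hσ hm
      have hσ1 : σ ∈ S.W1 := ⟨hσ, hc⟩
      have h1 : (n : GL D.Idx K) * (rep ⟨σ, hσ1⟩)⁻¹ ∈ D.diagonalSubgroup K := by
        apply R.mono_one_mem_H G2 (Subgroup.mul_mem _ hn'.1 (Subgroup.inv_mem _ (hrepN _).1))
        have := Rels.IsMono.mul R hm (Rels.IsMono.inv R (hrep ⟨σ, hσ1⟩))
        rwa [mul_inv_cancel] at this
      refine ⟨⟨⟨σ, hσ1⟩, ⟨b * ((n : GL D.Idx K) * (rep ⟨σ, hσ1⟩)⁻¹), Subgroup.mul_mem _ hb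
        ⟨R.H_le_B h1, Subgroup.mul_mem _ hn'.2 (Subgroup.inv_mem _ (hrepN _).2)⟩⟩, ⟨u, hu⟩⟩, ?_⟩
      apply Subtype.ext
      simp only [ψ]
      rw [e]; group
  rw [← Nat.card_congr (Equiv.ofBijective ψ hψ), Nat.card_sigma, Finset.mul_sum]
  apply Finset.sum_congr rfl
  intro σ _
  rw [Nat.card_prod, S.card_Um1 G2 σ.2]

theorem card_B1 (G2 : Good2 D) [Fintype K] :
    Nat.card ↥(D.borelSubgroup K ⊓ S.G1) = S.q ^ (D.nroots / 2) * Nat.card ↥(D.diagonalSubgroup K ⊓ S.G1) := by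
  rw [← S.card_U1 G2]
  let ψ : ↥(D.posUnipotent K ⊓ S.G1) × ↥(D.diagonalSubgroup K ⊓ S.G1) → ↥(D.borelSubgroup K ⊓ S.G1) := fun x =>
    ⟨x.1.1 * x.2.1, Subgroup.mul_mem _ (R.U_le_B x.1.2.1) (R.H_le_B x.2.2.1), Subgroup.mul_mem _ x.1.2.2 x.2.2.2⟩
  have hψ : Function.Bijective ψ := by
    constructor
    · rintro ⟨u, h⟩ ⟨u', h'⟩ e
      have e1 : u.1 * h.1 = u'.1 * h'.1 := congrArg Subtype.val e
      have e2 : u'.1⁻¹ * u.1 = h'.1 * h.1⁻¹ := by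
        calc u'.1⁻¹ * u.1 = u'.1⁻¹ * (u.1 * h.1) * h.1⁻¹ := by group
          _ = _ := by rw [e1]; group
      have h1 : u'.1⁻¹ * u.1 ∈ D.posUnipotent K ⊓ D.diagonalSubgroup K :=
        ⟨Subgroup.mul_mem _ (Subgroup.inv_mem _ u'.2.1) u.2.1,
          e2 ▸ Subgroup.mul_mem _ h'.2.1 (Subgroup.inv_mem _ h.2.1)⟩
      rw [R.U_inf_H, Subgroup.mem_bot] at h1
      have h2 : u = u' := Subtype.ext (inv_mul_eq_one.mp h1).symm
      have h3 : h = h' := by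
        apply Subtype.ext
        rw [h1] at e2
        exact (mul_inv_eq_one.mp e2.symm).symm
      rw [h2, h3]
    · rintro ⟨g, hg, hg1⟩
      obtain ⟨u, hu, h, hh, rfl⟩ := exists_mul_of_mem_sup R.H_le_normalizer_U hg
      have hfix := (S.mem_Γ _).mp (S.G1_le_Γ hg1)
      rw [map_mul] at hfix
      have e2 : u⁻¹ * S.sig u = h * (S.sig h)⁻¹ := by
        calc u⁻¹ * S.sig u = u⁻¹ * (S.sig u * S.sig h) * (S.sig h)⁻¹ := by group
          _ = _ := by rw [hfix]; group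
      have h1 : u⁻¹ * S.sig u ∈ D.posUnipotent K ⊓ D.diagonalSubgroup K :=
        ⟨Subgroup.mul_mem _ (Subgroup.inv_mem _ hu) (S.sig_U u hu),
          e2 ▸ Subgroup.mul_mem _ hh (Subgroup.inv_mem _ (S.sig_H h hh))⟩
      rw [R.U_inf_H, Subgroup.mem_bot] at h1
      have hu1 : u ∈ S.G1 := S.U_fixed_le G2 ⟨hu, (S.mem_Γ u).mpr (inv_mul_eq_one.mp h1).symm⟩
      have hh1 : h ∈ S.G1 := by
        have := Subgroup.mul_mem _ (Subgroup.inv_mem _ hu1) hg1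
        rwa [inv_mul_cancel_left] at this
      exact ⟨⟨⟨u, hu, hu1⟩, ⟨h, hh, hh1⟩⟩, rfl⟩
  rw [← Nat.card_congr (Equiv.ofBijective ψ hψ), Nat.card_prod]

end TwS

end Cfsg.Agent.Chev
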