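import Cfsg.Agent.Chev.TwO1
import Cfsg.Agent.Chev.Poin3

/-!
# Twisted groups: the Poincaré sum of the twisted Weyl group from a table of its regular orbit
-/

set_option autoImplicit false
set_option linter.unusedSectionVars false
set_option linter.unusedVariables false

namespace Cfsg.Agent.Chev
open Cfsg.Lie
open scoped MatrixGroups

/-- iterated reflection of a vector -/
def rvLs (l : ℕ) (C : ℕ → ℕ → ℤ) : List ℕ → List ℤ → List ℤ
  | [], v => v
  | j :: J, v => rvLs l C J (rvL l C j v)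

def baseW (l : ℕ) : List ℤ := (List.range l).map (wgt l)

/-- strictly increasing lists -/
def incrL : List ℤ → Bool
  | [] => true
  | a :: L => (match L with
    | [] => true
    | b :: _ => decide (a < b)) && incrL L

theorem incrL_lt : ∀ (L : List ℤ) (a : ℤ), incrL (a :: L) = true → ∀ x ∈ L, a < x := by
  intro L
  induction L with
  | nil => intro a _ x hx; simp at hx
  | cons b L ih =>
    intro a h x hx
    have h' : (decide (a < b) && incrL (b :: L)) = true := h
    rw [Bool.and_eq_true, decide_eq_true_eq] at h'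
    rcases List.mem_cons.mp hx with rfl | hx
    · exact h'.1
    · exact lt_trans h'.1 (ih b h'.2 x hx)

theorem incrL_nodup : ∀ (L : List ℤ), incrL L = true → L.Nodup := by
  intro L
  induction L with
  | nil => intro _; exact List.nodup_nil
  | cons a L ih =>
    intro h
    have h2 : incrL L = true := by
      unfold incrL at h
      rw [Bool.and_eq_true] at h
      exact h.2
    rw [List.nodup_cons]
    exact ⟨fun ha => lt_irrefl a (incrL_lt L a h a ha), ih h2⟩

/-- a key separating the vectors of the table -/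
def keyL (m : ℤ) (v : List ℤ) : ℤ := v.foldr (fun a acc => a + m * acc) 0

def chkEntT (l : ℕ) (C : ℕ → ℕ → ℤ) (JJ : List (List ℕ)) (T : List OEnt) (e : OEnt) : Bool :=
  (List.range JJ.length).all (fun a => match T[e.nb.getD a 0]? with
      | some e' => decide (e'.v = rvLs l C (JJ.getD a []) e.v)
      | none => false) &&
  (if e.d = 0 then decide (e.v = baseW l) else
    match T[e.nb.getD e.pj 0]? with
    | some e' => decide (e.pj < JJ.length) && decide (e.d = e'.d + (JJ.getD e.pj []).length) &&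
        (JJ.getD e.pj []).all (fun j => decide (0 < e'.v.getD j 0)) &&
        decide (e.v = rvLs l C (JJ.getD e.pj []) e'.v)
    | none => false)

def chkT (l : ℕ) (C : ℕ → ℕ → ℤ) (JJ : List (List ℕ)) (m : ℤ) (b : ℕ) (T : List OEnt) : Bool :=
  T.all (chkEntT l C JJ T) && (match T[b]? with | some e => decide (e.v = baseW l) | none => false) &&
    incrL (T.map fun e => keyL m e.v)

structure TOrbOK (l : ℕ) (C : ℕ → ℕ → ℤ) (JJ : List (List ℕ)) (T : List OEnt) : Prop where
  nbr : ∀ e ∈ T, ∀ J ∈ JJ, ∃ e' ∈ T, e'.v = rvLs l C J e.v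
  par : ∀ e ∈ T, (e.d = 0 ∧ e.v = baseW l) ∨ (∃ e' ∈ T, ∃ J ∈ JJ, e.d = e'.d + J.length ∧
    (∀ j ∈ J, 0 < e'.v.getD j 0) ∧ e.v = rvLs l C J e'.v)
  base : ∃ e ∈ T, e.v = baseW l
  nodup : (T.map (·.v)).Nodup

theorem getD_mem_of_lt {α : Type*} (L : List α) (a : ℕ) (d : α) (h : a < L.length) : L.getD a d ∈ L := by
  rw [List.getD_eq_getElem _ _ h]
  exact List.getElem_mem h

theorem TOrbOK.of_chk {l : ℕ} {C : ℕ → ℕ → ℤ} {JJ : List (List ℕ)} {m : ℤ} {b : ℕ} {T : List OEnt}
    (h : chkT l C JJ m b T = true) : TOrbOK l C JJ T := by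
  unfold chkT at h
  rw [Bool.and_eq_true, Bool.and_eq_true, List.all_eq_true] at h
  obtain ⟨⟨h1, h2⟩, h3⟩ := h
  refine ⟨?_, ?_, ?_, ?_⟩
  · intro e he J hJ
    obtain ⟨a, ha, rfl⟩ := List.getElem_of_mem hJ
    have := h1 e he
    unfold chkEntT at this
    rw [Bool.and_eq_true, List.all_eq_true] at this
    have h4 := this.1 a (List.mem_range.mpr ha)
    rw [List.getD_eq_getElem _ _ ha] at h4
    cases hO : T[e.nb.getD a 0]? with
    | none => rw [hO] at h4; exact absurd h4 (by simp)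
    | some e' =>
      rw [hO] at h4
      exact ⟨e', List.mem_of_getElem? hO, of_decide_eq_true h4⟩
  · intro e he
    have := h1 e he
    unfold chkEntT at this
    rw [Bool.and_eq_true] at this
    have h4 := this.2
    by_cases hd : e.d = 0
    · rw [if_pos hd] at h4
      exact Or.inl ⟨hd, of_decide_eq_true h4⟩
    · rw [if_neg hd] at h4
      right
      cases hO : T[e.nb.getD e.pj 0]? with
      | none => rw [hO] at h4; exact absurd h4 (by simp)
      | some e' =>
        rw [hO] at h4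
        simp only [Bool.and_eq_true, decide_eq_true_eq, List.all_eq_true] at h4
        obtain ⟨⟨⟨a, b⟩, c⟩, d⟩ := h4
        exact ⟨e', List.mem_of_getElem? hO, _, getD_mem_of_lt JJ e.pj [] a, b, c, d⟩
  · cases hO : T[b]? with
    | none => rw [hO] at h2; exact absurd h2 (by simp)
    | some e =>
      rw [hO] at h2
      exact ⟨e, List.mem_of_getElem? hO, of_decide_eq_true h2⟩
  · have h4 := incrL_nodup _ h3
    have e : (T.map fun e => keyL m e.v) = (T.map (·.v)).map (keyL m) := by rw [List.map_map]; rfl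
    rw [e] at h4
    exact List.Nodup.of_map _ h4

variable {D : ChevalleyDatum} {G : Good D} {K : Type*} [Field K]

namespace TwS
variable {C : TwC} {O : TwOK D C} {R : Rels D G K} (S : TwS C O R)
include S

theorem lin_wl (Cm : ℕ → ℕ → ℤ) (hC : ∀ j < D.rank, ∀ k < D.rank, D.cartan j (D.simple k) = Cm j k)
    (J : List ℕ) (hJ : ∀ j ∈ J, j < D.rank) : ∀ (v : List ℤ) (r : Fin D.nroots),
    G.lin (vf v) (S.wl J r) = G.lin (vf (rvLs D.rank Cm J v)) r := by
  induction J with
  | nil => intro v r; simp [wl, rvLs]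
  | cons j J ih =>
    intro v r
    have hj := hJ j List.mem_cons_self
    rw [S.wl_cons j hj, Equiv.Perm.mul_apply, G.wP_apply, G.lin_refl j hj _ _ (S.wl J r).2]
    have hrv : ∀ k < D.rank, rv D j (vf v) k = vf (rvL D.rank Cm j v) k := by
      intro k hk
      unfold vf rvL rv
      rw [getD_map_range _ _ k hk, hC j hj k hk]
    rw [G.lin_congr hrv, ih (fun k hk => hJ k (List.mem_cons_of_mem _ hk))]
    rfl

/-- `c` is the image of the height function under an element of the twisted Weyl group of length `d` -/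
def Rep1 (c : ℕ → ℤ) (d : ℕ) : Prop :=
  ∃ w ∈ S.W1, (∀ r : Fin D.nroots, G.ht (w r) = G.lin c r) ∧ G.nn w = d

theorem base_lin (r : ℕ) : G.ht r = G.lin (vf (baseW D.rank)) r := by
  unfold Good.ht
  apply G.lin_congr
  intro k hk
  unfold vf baseW
  rw [getD_map_range _ _ k hk]

theorem Rep1_base : S.Rep1 (vf (baseW D.rank)) 0 :=
  ⟨1, Subgroup.one_mem _, fun r => S.base_lin r, (G.nn_eq_zero_iff 1).mpr (fun r hr => hr)⟩

theorem Rep1_step (Cm : ℕ → ℕ → ℤ) (hC : ∀ j < D.rank, ∀ k < D.rank, D.cartan j (D.simple k) = Cm j k)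
    {v : List ℤ} {d : ℕ} (h : S.Rep1 (vf v) d) {i : ℕ} (hi : i < D.rank) (hh : D.simple i ∈ C.heads)
    (hpos : ∀ j ∈ C.Js D i, 0 < v.getD j 0) :
    S.Rep1 (vf (rvLs D.rank Cm (C.Js D i) v)) (d + (C.Js D i).length) := by
  obtain ⟨w, hw, h1, h2⟩ := h
  have hw' := Subgroup.mul_mem _ hw (S.wJ_mem_W1 hi hh)
  refine ⟨w * S.wl (C.Js D i), hw', ?_, ?_⟩
  · intro r
    rw [Equiv.Perm.mul_apply, h1, S.lin_wl Cm hC _ (O.Js_lt hi)]
  · have h3 := S.nn_mul_wl hi (C.Js D i) (O.Js_nodup G hi) (fun a ha => ha) _ hw'.1 (by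
      intro a ha
      have har := O.Js_lt hi a ha
      rw [Equiv.Perm.mul_apply, S.wJ_simple hi ha, G.W_neg hw.1]
      apply G.neg_lt_half (w _).2
      rw [← G.ht_pos_iff (w _).2, h1]
      have : G.lin (vf v) (G.sF a har) = vf v a := G.lin_simple _ a har
      rw [this]
      exact hpos a ha)
    rw [mul_assoc, S.wJ_mul_self hi, mul_one, h2] at h3
    exact h3.symm

theorem psum_W1 (G2 : Good2 D) (Cm : ℕ → ℕ → ℤ)
    (hC : ∀ j < D.rank, ∀ k < D.rank, D.cartan j (D.simple k) = Cm j k) (JJ : List (List ℕ))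
    (hJ1 : ∀ J ∈ JJ, ∃ i < D.rank, D.simple i ∈ C.heads ∧ J = C.Js D i)
    (hJ2 : ∀ i < D.rank, D.simple i ∈ C.heads → C.Js D i ∈ JJ) (T : List OEnt)
    (h : TOrbOK D.rank Cm JJ T) (q : ℕ) : G.psum S.W1 q = (T.map fun e => q ^ e.d).sum := by
  classical
  have hrep : ∀ d, ∀ e ∈ T, e.d = d → S.Rep1 (vf e.v) e.d := by
    intro d
    induction d using Nat.strong_induction_on with
    | _ d ih =>
      intro e he hd
      rcases h.par e he with ⟨h1, h2⟩ | ⟨e', he', J, hJ, h1, h2, h3⟩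
      · rw [h1, h2]; exact S.Rep1_base
      · obtain ⟨i, hi, hh, rfl⟩ := hJ1 J hJ
        have hlen : 0 < (C.Js D i).length := List.length_pos_iff.mpr (O.Js_ne_nil i)
        rw [h1, h3]
        exact S.Rep1_step Cm hC (ih e'.d (by omega) e' he' rfl) hi hh h2
  have hcl : ∀ w ∈ S.W1, ∃ e ∈ T, ∀ r : Fin D.nroots, G.ht (w r) = G.lin (vf e.v) r := by
    apply S.W1_ind G2 (p := fun w => ∃ e ∈ T, ∀ r : Fin D.nroots, G.ht (w r) = G.lin (vf e.v) r)
    · obtain ⟨e, he, hv⟩ := h.base
      refine ⟨e, he, fun r => ?_⟩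
      rw [hv]; exact S.base_lin r
    · rintro i hi hh w hw ⟨e, he, hv⟩
      obtain ⟨e', he', hv'⟩ := h.nbr e he _ (hJ2 i hi hh)
      refine ⟨e', he', fun r => ?_⟩
      rw [Equiv.Perm.mul_apply, hv, S.lin_wl Cm hC _ (O.Js_lt hi), hv']
  have hlenJ : ∀ (J : List ℕ) (v : List ℤ), J ≠ [] → ∃ f : ℕ → ℤ, rvLs D.rank Cm J v = (List.range D.rank).map f := by
    intro J
    induction J with
    | nil => intro v h; exact absurd rfl h
    | cons j J ih =>
      intro v _
      by_cases hJ : J = []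
      · subst hJ
        exact ⟨_, rfl⟩
      · exact ih _ hJ
  have hlen : ∀ e ∈ T, ∃ f : ℕ → ℤ, e.v = (List.range D.rank).map f := by
    intro e he
    rcases h.par e he with ⟨_, h2⟩ | ⟨e', _, J, hJ, _, _, h5⟩
    · exact ⟨_, h2⟩
    · obtain ⟨i, hi, hh, rfl⟩ := hJ1 J hJ
      rw [h5]
      exact hlenJ _ _ (O.Js_ne_nil i)
  choose ρ hρ1 hρ2 hρ3 using fun a : Fin T.length => hrep _ T[a] (List.getElem_mem a.2) rfl
  unfold Good.psum
  rw [← Fin.sum_univ_fun_getElem T (fun e => q ^ e.d)]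
  symm
  apply Finset.sum_bij (fun a _ => ρ a)
  · intro a _
    simp only [Set.Finite.mem_toFinset, SetLike.mem_coe]
    exact hρ1 a
  · intro a _ a' _ e
    have h1 : ∀ r : Fin D.nroots, G.lin (vf T[a].v) r = G.lin (vf T[a'].v) r := by
      intro r
      rw [← hρ2 a r, ← hρ2 a' r, e]
    have h2 : T[a].v = T[a'].v := by
      obtain ⟨f, hf⟩ := hlen T[a] (List.getElem_mem a.2)
      obtain ⟨g, hg⟩ := hlen T[a'] (List.getElem_mem a'.2)
      rw [hf, hg]
      apply eq_of_vf
      intro k hk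
      have := h1 (G.sF k hk)
      rw [show G.lin (vf T[a].v) (G.sF k hk) = vf T[a].v k from G.lin_simple _ k hk,
        show G.lin (vf T[a'].v) (G.sF k hk) = vf T[a'].v k from G.lin_simple _ k hk, hf, hg] at this
      exact this
    have := (List.Nodup.getElem_inj_iff h.nodup (i := a) (j := a') (hi := by simp) (hj := by simp)).mp (by simpa using h2)
    exact Fin.ext this
  · intro w hw
    simp only [Set.Finite.mem_toFinset, SetLike.mem_coe] at hw
    obtain ⟨e, he, hv⟩ := hcl w hw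
    obtain ⟨a, ha, rfl⟩ := List.getElem_of_mem he
    refine ⟨⟨a, ha⟩, Finset.mem_univ _, ?_⟩
    ext r
    apply G.ht_inj (ρ ⟨a, ha⟩ r).2 (w r).2
    rw [hρ2 ⟨a, ha⟩ r, hv r]
    rfl
  · intro a _
    rw [hρ3 a]
    rfl

end TwS

end Cfsg.Agent.Chev
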