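import Cfsg.Agent.Chev.Tab.D4TwOrb
import Cfsg.Agent.Chev.Tab.E6TwOrb
import Cfsg.Agent.Chev.TwHD4
import Cfsg.Agent.Chev.TwHE6
import Cfsg.Agent.Chev.Order

/-!
# The orders of `²E₆(q)` and `³D₄(q)`
-/

set_option autoImplicit false
set_option maxRecDepth 1000000

namespace Cfsg.Agent.Chev
open Cfsg.Lie
open scoped MatrixGroups

theorem polyEqTwD4 : lpmul (polyO twOrbD4) (lpmul (pxd 1) (lpmul (pxd 1) [1, 1, 1])) =
    lpmul (pxd 2) (lpmul (pxd 6) [1, 0, 0, 0, 1, 0, 0, 0, 1]) := by decide +kernel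

theorem polyEqTwE6 : lpmul (polyO twOrbE6) (lpmul (pxd 1) (lpmul (pxd 1) (lpmul (pxd 1) (lpmul (pxd 1)
      (lpmul [1, 1] [1, 1]))))) =
    lpmul (pxd 2) (lpmul [1, 0, 0, 0, 0, 1] (lpmul (pxd 6) (lpmul (pxd 8) (lpmul [1, 0, 0, 0, 0, 0, 0, 0, 0, 1]
      (pxd 12))))) := by decide +kernel

section D4
variable {K : Type*} [Field K] [Fintype K] {q : ℕ} (hq : IsPrimePow q) (hK : Fintype.card K = q ^ 3)

theorem psumTwD4 (x : ℕ) : goodD4.psum (twsD4 hq hK).W1 x = (twOrbD4.map fun e => x ^ e.d).sum :=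
  (twsD4 hq hK).psum_W1 good2D4 cmD4 cmD4_eq twJJD4 twJJD4_1 twJJD4_2 twOrbD4 (TOrbOK.of_chk twOrbD4_ok) x

theorem card_G1D4 : Nat.card ↥(twsD4 hq hK).G1 = q ^ 12 * (q ^ 2 - 1) * (q ^ 6 - 1) * (q ^ 8 + q ^ 4 + 1) := by
  have hq1 : 1 ≤ q := hq.pos
  have h1 : Nat.card ↥(twsD4 hq hK).G1 = q ^ 12 * ((q - 1) ^ 2 * (q ^ 2 + q + 1)) *
      (twOrbD4.map fun e => q ^ e.d).sum := by
    rw [(twsD4 hq hK).card_G1 good2D4, (twsD4 hq hK).card_B1 good2D4, card_H1D4 hq hK, psumTwD4 hq hK]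
    rfl
  have h := congrArg (fun p => pev p (q : ℤ)) polyEqTwD4
  simp only [pev_lpmul, pev_polyO, pev_pxd, pev_cons, pev_nil] at h
  generalize (twOrbD4.map fun e => q ^ e.d).sum = P at h h1
  apply Nat.cast_injective (R := ℤ)
  rw [h1]
  push_cast [cast_pow_sub_one hq1, Nat.cast_sub hq1]
  linear_combination (q : ℤ) ^ 12 * h

end D4

section E6
variable {K : Type*} [Field K] [Fintype K] {q : ℕ} (hq : IsPrimePow q) (hK : Fintype.card K = q ^ 2)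

theorem psumTwE6 (x : ℕ) : goodE6.psum (twsE6 hq hK).W1 x = (twOrbE6.map fun e => x ^ e.d).sum :=
  (twsE6 hq hK).psum_W1 good2E6 cmE6 cmE6_eq twJJE6 twJJE6_1 twJJE6_2 twOrbE6 (TOrbOK.of_chk twOrbE6_ok) x

theorem card_G1E6 : Nat.gcd 3 (q + 1) * Nat.card ↥(twsE6 hq hK).G1 =
    q ^ 36 * (q ^ 2 - 1) * (q ^ 5 + 1) * (q ^ 6 - 1) * (q ^ 8 - 1) * (q ^ 9 + 1) * (q ^ 12 - 1) := by
  have hq1 : 1 ≤ q := hq.pos
  have h1 : Nat.gcd 3 (q + 1) * Nat.card ↥(twsE6 hq hK).G1 = q ^ 36 * ((q - 1) ^ 4 * (q + 1) ^ 2) *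
      (twOrbE6.map fun e => q ^ e.d).sum := by
    rw [(twsE6 hq hK).card_G1 good2E6, (twsE6 hq hK).card_B1 good2E6, ← card_H1E6 hq hK, psumTwE6 hq hK]
    have e1 : (twsE6 hq hK).q = q := rfl
    have e2 : chevE6.nroots / 2 = 36 := by decide
    rw [e1, e2]
    ring
  have h := congrArg (fun p => pev p (q : ℤ)) polyEqTwE6
  simp only [pev_lpmul, pev_polyO, pev_pxd, pev_cons, pev_nil] at h
  generalize (twOrbE6.map fun e => q ^ e.d).sum = P at h h1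
  apply Nat.cast_injective (R := ℤ)
  rw [h1]
  push_cast [cast_pow_sub_one hq1, Nat.cast_sub hq1]
  linear_combination (q : ℤ) ^ 36 * h

end E6

end Cfsg.Agent.Chev
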